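import Cfsg.Agent.Class.Wr.End

/-!
Shared interface for overgroups of the stabiliser of a tensor power of an orthogonal space.
-/

set_option autoImplicit false
set_option linter.unusedSectionVars false

namespace Cfsg.Lib.Class.Wr

open Module Submodule Tens Tn FE AO Form
open LinearMap (range ker)

variable {F U W V : Type*} [Field F] [AddCommGroup U] [Module F U] [AddCommGroup W] [Module F W]
  [AddCommGroup V] [Module F V] {τ : Type*}

/-- The group of one factor: the commutator subgroup of the isometry group together with all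
Eichler transformations. -/
def OG (f : W →ₗ[F] W →ₗ[F] F) : Subgroup (W ≃ₗ[F] W) :=
  ⁅isomGroup f, isomGroup f⁆ ⊔ ⨆ (p : W) (_ : f p p = 0), Rad f (span F {p})

theorem rad_le_OG {f : W →ₗ[F] W →ₗ[F] F} {p : W} (hp : f p p = 0) :
    Rad f (span F {p}) ≤ OG f :=
  le_sup_of_le_right (le_iSup₂_of_le (f := fun (p : W) (_ : f p p = 0) => Rad f (span F {p}))
    p hp le_rfl)

theorem comm_le_OG (f : W →ₗ[F] W →ₗ[F] F) : ⁅isomGroup f, isomGroup f⁆ ≤ OG f := le_sup_left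

theorem comm_mem_OG {f : W →ₗ[F] W →ₗ[F] F} {a b : W ≃ₗ[F] W} (ha : a ∈ isomGroup f)
    (hb : b ∈ isomGroup f) : a * b * a⁻¹ * b⁻¹ ∈ OG f :=
  comm_le_OG f (Subgroup.commutator_mem_commutator ha hb)

theorem OG_le (f : W →ₗ[F] W →ₗ[F] F) : OG f ≤ isomGroup f :=
  sup_le (Subgroup.commutator_le.2 fun _ ha _ hb =>
      mul_mem (mul_mem (mul_mem ha hb) (inv_mem ha)) (inv_mem hb))
    (iSup₂_le fun _ _ _ hq => hq.1)

/-- No nontrivial element of the centre of the radical of the parabolic `U ⊗ p`. -/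
def L0 {T : U →ₗ[F] W →ₗ[F] V} (hT : IsTens T) (f : W →ₗ[F] W →ₗ[F] F)
    (X : Subgroup (V ≃ₗ[F] V)) : Prop :=
  ∀ p γ, f p p = 0 → InC T γ → UIn X (γ * kap hT (xx f p p)) → γ * kap hT (xx f p p) = 0

/-- An overgroup `X` of the stabiliser (in `Ω`) of a tensor power of an orthogonal space. -/
structure OW [DecidableEq τ] [Fintype τ] (T : τ → U →ₗ[F] W →ₗ[F] V) (h : τ → U →ₗ[F] U →ₗ[F] F)
    (f : W →ₗ[F] W →ₗ[F] F) (β : V →ₗ[F] V →ₗ[F] F) (X : Subgroup (V ≃ₗ[F] V)) : Prop where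
  tp : TP T
  tf : ∀ i, TF (T i) (h i) 1 f 1 β
  two : (2 : F) ≠ 0
  le : X ≤ isomGroup β
  ge : ∀ i, ∀ g ∈ OG f, ug (tp.tens i) g ∈ X
  pair : ∀ i j, i ≠ j → ∀ g ∈ isomGroup f, ug (tp.tens i) g * ug (tp.tens j) g⁻¹ ∈ X
  alt : tp.Alt X

/-- All permutations of the factors are induced, up to an isometry of a chosen factor. -/
def TP.AllPerm {T : τ → U →ₗ[F] W →ₗ[F] V} (tp : TP T) (f : W →ₗ[F] W →ₗ[F] F)
    (X : Subgroup (V ≃ₗ[F] V)) : Prop :=
  ∀ (σ : Equiv.Perm τ) (j : τ), ∃ n ∈ X, ∃ g ∈ isomGroup f, tp.Pm (ug (tp.tens j) g * n) σ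

end Cfsg.Lib.Class.Wr
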