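import Cfsg.Agent.Class.WrO.Ctx

/-!
An overgroup containing a central term contains all of them.
-/

set_option autoImplicit false
set_option linter.unusedSectionVars false

namespace Cfsg.Lib.Class.WrO

open Module Submodule Tens Tn FE AO Form Wr QuadraticMap Orth OMax
open LinearMap (range ker)

variable {F U W V : Type*} [Field F] [AddCommGroup U] [Module F U] [AddCommGroup W] [Module F W]
  [AddCommGroup V] [Module F V] [FiniteDimensional F U] [FiniteDimensional F W]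
  {f : W →ₗ[F] W →ₗ[F] F} {β : V →ₗ[F] V →ₗ[F] F} {X : Subgroup (V ≃ₗ[F] V)}
  {x y m γ : End F V} {p δ : W} [Finite F] [Nontrivial U] [Nontrivial W]

section End

variable {T : U →ₗ[F] W →ₗ[F] V} {h : U →ₗ[F] U →ₗ[F] F}

theorem mem_RS_of_full (t : TF T h 1 f 1 β) (os : OS f) (hle : X ≤ isomGroup β)
    (H : ∀ r, InC T r → sk β r ∈ Lam t.hT f X) (hU : 3 ≤ finrank F U) {x : U} (hx : x ≠ 0)
    (hp0 : p ≠ 0) (hp : f p p = 0) {v : V} (hv : β (T x p) v = 0) : v ∈ t.hm.RS X (T x p) := by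
  have := t.hT.finiteDimensional
  have H0 : ∀ x y p, f p p = 0 → T y p ∈ t.hm.RS X (T x p) := fun x y p hp _ =>
    ⟨by simp [t.tens, hp], fun a => by
      obtain ⟨k, hk, e⟩ := (H _ (inC_mp t.hT (xx h (a • y) x))).2 p hp
      rw [sk, t.adj_mp, t.hf.adj_xx, t.hh.adj_one] at e
      refine ⟨k, hk, 0, fun v => ?_⟩
      rw [e, add_sub_assoc, add_right_inj]
      refine t.hT.ind (P := fun v => ((t.hT.mp (xx h (a • y) x) 1 - t.hT.mp ((1 : F) • xx h x (a • y)) 1)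
        * kap t.hT (xx f p p)) v = β (T x p) v • a • T y p - (1 * 1 * β (a • T y p) v +
          0 * β (T x p) v) • T x p) (by simp) (fun a b ha hb => ?_) (fun u z => ?_) v
      · simp only [map_add, ha, hb]; module
      · simp [t.tens]; module⟩
  have H1 : ∀ x y p w, p ≠ 0 → f p p = 0 → h x y = 0 → T y w ∈ t.hm.RS X (T x p) := by
    intro x y p w hp0 hp hxy
    refine t.mem_RS_of_opp os.spanOpp hp0 hp (fun p' hp' hpp => ?_) w
    obtain ⟨u, h1, h2⟩ := exists_ker_notMem hU (h y) x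
    obtain ⟨u', h3, h4⟩ := t.hf.exists_pair h2
    exact t.hm.centre_mem_RS hle (by simp [t.tens, hp']) (H0 y u' p' hp')
      (by simp [t.tens, t.hf.comm hxy]) (by simp [t.tens, h3]) (H0 x u p hp) (by simp [t.tens, h1])
      (by simp [t.tens, h4, hpp])
  obtain ⟨x', hxx⟩ := t.hf.exists_eq_one hx
  rw [t.left] at hv
  have h1 : v - T x' (t.c x v) ∈ t.hm.RS X (T x p) :=
    t.ind_orth (P := fun v => v ∈ t.hm.RS X (T x p)) (zero_mem _) (fun _ _ => add_mem)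
      (fun u w hu => H1 x u p w hp0 hp hu) (by simp [hxx])
  suffices T x' (t.c x v) ∈ t.hm.RS X (T x p) by simpa using add_mem h1 this
  obtain ⟨y, h2, h3⟩ := exists_one_zero (M := U) (by omega) (h x')
  obtain ⟨u, h4, h5⟩ := t.hf.exists_orth_ne hx (t.hf.ne_smul_of hxx h2 h3)
  obtain ⟨w, hw⟩ := t.hh.exists_eq_one hp0
  exact t.hm.dir_mem_RS hle (z' := T y p) (by simp [t.tens, hp])
    (H1 y x' p _ hp0 hp (t.hf.comm h3)) (by simp [t.tens, hp]) (by simp [t.tens, t.hh.comm hv])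
    (H1 x u p w hp0 hp h4) (by simp [t.tens, h5, hw]) (H0 x y p hp)

theorem Om_le_of_full {Q : QuadraticForm F V} (t : TF T h 1 f 1 (polarBilin Q)) (os : OS f)
    (hX : X ≤ O Q) (H : ∀ r, InC T r → sk (polarBilin Q) r ∈ Lam t.hT f X)
    (hU : 3 ≤ finrank F U) : Om Q ≤ X := by
  have := t.hT.finiteDimensional
  have h0 : ∀ u w, f w w = 0 → Q (T u w) = 0 := fun u w hw => by
    have := t.tens u w u w
    rw [hw, mul_zero, polarBilin_apply_apply, polar_self, two_nsmul, ← two_mul] at this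
    exact (mul_eq_zero.1 this).resolve_left os.two
  have H2 : ∀ x p, x ≠ 0 → p ≠ 0 → f p p = 0 → Full (X.subgroupOf (O Q)) ⊤ (T x p) :=
    fun x p hx0 hp0 hp => full_of _ fun hz w _ hw => by
    have hz' : polarBilin Q (T x p) (T x p) = 0 := by simp [t.tens, hp]
    obtain ⟨k, hk, b, e⟩ := (mem_RS_of_full t os (hX.trans O_le_isom) H hU hx0 hp0 hp (v := w) hw
      hz').2 (-1)
    obtain ⟨y, hy⟩ := t.hm.exists_eq_one (t.hT.ne_zero hx0 hp0)
    simp only [polarBilin_apply_apply, neg_smul, one_smul, polar_neg_left, one_mul] at e hy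
    have hb : b = Q w := by
      have := mem_O.1 (hX hk) y
      rw [e, Q_sub, Q_add, Q_smul, Q_smul, QuadraticMap.map_neg, hz] at this
      simp only [hy, polar_add_left, polar_smul_left', polar_smul_right', polar_neg_left,
        polar_neg_right, pc hy, pc hw, polar_comm Q y w] at this
      linear_combination -this
    rw [Subgroup.mem_subgroupOf, show (eich Q (T x p) w).1 = k from LinearEquiv.ext fun v => by
      rw [eich_apply hz hw, e, hb, polar_comm Q v, polar_comm Q v]; module]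
    exact hk
  obtain ⟨x, x', hx⟩ := t.hf.exists_ne_pair
  obtain ⟨p, h1, h2⟩ := os.exists_iso
  obtain ⟨p', h3, h4⟩ := os.hm.exists_partner h1 h2
  rintro _ ⟨g, hg, rfl⟩
  exact commutator_le_of_two_full t.hm.nondeg (by rw [t.hT.finrank_eq]; nlinarith [os.three])
    (h0 x p h2) (h0 x' p' h3) (by rw [← polarBilin_apply_apply, t.tens]; simp [hx, h4])
    (H2 x p (by rintro rfl; simp at hx) h1 h2)
    (H2 x' p' (by rintro rfl; simp at hx) (by rintro rfl; simp at h4) h3) hg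

end End

variable {τ : Type*} {T : τ → U →ₗ[F] W →ₗ[F] V} {h : τ → U →ₗ[F] U →ₗ[F] F} {a b j : τ}
  [Fintype τ]

namespace OC

variable (c : OC T h f β X)
include c

/-- The coefficients of the mixed terms at two factors. -/
def B (a b : τ) : Submodule F (End F V) where
  carrier := {x | InC (T a) x ∧ InC (T b) x ∧ ∀ p δ, f p p = 0 → f p δ = 0 →
    sk β (x * kap (c.tp.tens a) (xx f p δ)) ∈ c.L b ∧ sk β (x * kap (c.tp.tens a) (xx f δ p)) ∈ c.L b}
  zero_mem' := ⟨InC.zero, InC.zero, fun _ _ _ _ => by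
    have := (c.tp.tens a).finiteDimensional
    simp [(c.hm a).sk_zero]⟩
  add_mem' h1 h2 := ⟨h1.1.add h2.1, h1.2.1.add h2.2.1, fun p δ a1 a2 => by
    have := (c.tp.tens a).finiteDimensional
    simp only [add_mul, (c.hm a).sk_add]
    exact ⟨add_mem (h1.2.2 p δ a1 a2).1 (h2.2.2 p δ a1 a2).1,
      add_mem (h1.2.2 p δ a1 a2).2 (h2.2.2 p δ a1 a2).2⟩⟩
  smul_mem' s _ h1 := ⟨h1.1.smul s, h1.2.1.smul s, fun p δ a1 a2 => by
    have := (c.tp.tens a).finiteDimensional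
    simp only [smul_mul_assoc, sk_smul (c.hm a)]
    exact ⟨smul_mem _ s (h1.2.2 p δ a1 a2).1, smul_mem _ s (h1.2.2 p δ a1 a2).2⟩⟩

theorem inv_B (a b : τ) : c.tp.Inv (isomGroup f) (· ∈ c.B a b) := fun j g hg x hx => by
  have := (c.tp.tens a).finiteDimensional
  by_cases hj : j = a
  · subst hj; rwa [InC.cj_ug _ hx.1]
  have h1 : ∀ ρ, sk β (x * kap (c.tp.tens a) ρ) ∈ c.L b →
      sk β (cj (ug (c.tp.tens j) g) x * kap (c.tp.tens a) ρ) ∈ c.L b := fun ρ H => by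
    simpa only [(c.hm a).sk_cj _ ((c.tf j).ug_isom hg), map_mul, c.tp.cj_kap hj] using
      c.inv_L b j g hg _ H
  exact ⟨c.tp.inC_cj hx.1 j g, c.tp.inC_cj hx.2.1 j g, fun p δ a1 a2 =>
    ⟨h1 _ (hx.2.2 p δ a1 a2).1, h1 _ (hx.2.2 p δ a1 a2).2⟩⟩

theorem B_mul (hab : a ≠ b) (hx : x ∈ c.B a b) (hy : y ∈ c.B a b) (ρ : End F W) :
    sk β (x * y * kap (c.tp.tens b) ρ) ∈ c.L a := by
  have := (c.tp.tens a).finiteDimensional
  refine (c.os.eq_top_of_xx (S := (c.L a).comap (skL (c.hm a) ∘ₗ LinearMap.mulLeft F (x * y) ∘ₗ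
    (kap (c.tp.tens b)).toLinearMap)) fun q q' a1 a2 a3 => ?_).ge (mem_top (x := ρ))
  have b1 := (hx.1.mul hy.1).mul (c.tp.inC_kap hab (xx f q q'))
  refine ⟨b1.sub ((c.tf a).inC_adj b1), fun p hp => ?_⟩
  obtain ⟨δ, a4, a5⟩ := c.os.exists_perp p
  have hx' := smul_mem _ (f δ δ * f q q')⁻¹ hx
  have h1 := (hx'.2.2 p δ hp a4).1
  have h2 := (hy.2.2 p δ hp a4).2
  have a6 := c.os.hm.comm a4
  have e1 : sk β (((f δ δ * f q q')⁻¹ • x) * kap (c.tp.tens a) (xx f p δ)) *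
      sk β (y * kap (c.tp.tens a) (xx f δ p)) =
      (f q q')⁻¹ • (x * y * kap (c.tp.tens a) (xx f p p)) := by
    rw [sk_mul_kap (c.tf a) hx'.1, sk_mul_kap (c.tf a) hy.1]
    simp only [c.os.hm.adj_xx, one_smul,
      mul_sub, sub_mul, mul_kap_mul _ hy.1, mul_kap_mul _ ((c.tf a).inC_adj hy.1), xx_mul, hp, a4,
      a6, zero_smul, map_zero, mul_zero, map_smul, smul_mul_assoc, mul_smul_comm]
    match_scalars; field_simp
  have e2 : sk β (y * kap (c.tp.tens a) (xx f δ p)) *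
      sk β (((f δ δ * f q q')⁻¹ • x) * kap (c.tp.tens a) (xx f p δ)) =
      (f q q')⁻¹ • (adj β y * adj β x * kap (c.tp.tens a) (xx f p p)) := by
    rw [sk_mul_kap (c.tf a) hx'.1, sk_mul_kap (c.tf a) hy.1]
    simp only [c.os.hm.adj_xx, one_smul,
      mul_sub, sub_mul, mul_kap_mul _ hx.1, mul_kap_mul _ ((c.tf a).inC_adj hx.1), xx_mul, hp, a4,
      a6, zero_smul, map_zero, mul_zero, map_smul, smul_mul_assoc, mul_smul_comm,
      (c.hm a).adj_smul, RingHom.id_apply]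
    match_scalars; field_simp
  have e3 : ∀ m z, z ∈ c.B a b → m * kap (c.tp.tens a) (xx f p p) *
      sk β (z * kap (c.tp.tens a) (xx f p δ)) = 0 ∧ m * kap (c.tp.tens a) (xx f p p) *
      sk β (z * kap (c.tp.tens a) (xx f δ p)) = 0 := fun m z hz => by
    simp [sk_mul_kap (c.tf a) hz.1, c.os.hm.adj_xx, mul_sub, mul_kap_mul _ hz.1,
      mul_kap_mul _ ((c.tf a).inC_adj hz.1), xx_mul, hp, a4]
  have e4 := c.tp.inC_kap hab.symm (xx f p p)
  convert uin_commutator (h1.2 q a1) (h2.2 q' a2) (mul_xx_sq _ h1.1 a1 _) (mul_xx_sq _ h2.1 a2 _)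
    ?_ ?_ using 1
  · rw [mul_kap_mul _ h1.1, mul_kap_mul _ h2.1, e1, e2]
    simp only [xx_mul, map_smul, c.os.symm q' q,
      smul_mul_assoc, mul_smul_comm, smul_smul, mul_inv_cancel₀ a3, one_smul]
    show sk β (x * y * kap (c.tp.tens b) (xx f q q')) * _ = _
    rw [sk_mul_kap (c.tf b) (hx.2.1.mul hy.2.1), (c.hm a).adj_mul, c.os.hm.adj_xx, one_smul,
      sub_mul, mul_assoc _ (kap _ _), mul_assoc _ (kap _ _), e4.comm_kap, e4.comm_kap]
    simp only [mul_assoc]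
  · rw [mul_kap_mul _ h2.1, mul_kap_mul _ h1.1, e1, smul_mul_assoc, (e3 _ _ hx').1]; simp
  · rw [mul_kap_mul _ h1.1, mul_kap_mul _ h2.1, e2, smul_mul_assoc, (e3 _ _ hy).2]; simp

theorem mul_mem_B (hab : a ≠ b) (hx : x ∈ c.B a b) (hy : y ∈ c.B a b) : x * y ∈ c.B b a :=
  ⟨hx.2.1.mul hy.2.1, hx.1.mul hy.1, fun _ _ _ _ => ⟨c.B_mul hab hx hy _, c.B_mul hab hx hy _⟩⟩

theorem exists_B (hγ : γ ∈ c.L b) (h0 : γ ≠ 0) : ∃ a, a ≠ b ∧ 1 ∈ c.B a b := by
  have := (c.tp.tens b).finiteDimensional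
  obtain ⟨a, ha⟩ : ∃ a, ¬ InC (T a) γ := by
    by_contra! hc
    obtain ⟨s, rfl⟩ := c.tp.cent γ hc
    exact h0 (eq_zero_of_skew (c.hm b) c.os.two (c.L_adj hγ))
  have hab : a ≠ b := by rintro rfl; exact ha hγ.1
  obtain ⟨m, m0, hm⟩ := c.step.step a _ (c.inv_L b) γ hγ ha
  refine ⟨a, hab, one_mem_pair c.step (c.inv_B a b) (c.inv_B b a) (fun _ h1 _ => c.mul_mem_B hab h1)
    (fun _ h1 _ => c.mul_mem_B hab.symm h1) (x := m) ?_ m0⟩
  obtain ⟨z, a1, a2⟩ := c.os.exists_iso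
  obtain ⟨d, a3, a4⟩ := c.os.exists_perp z
  rcases hm with hm | hm
  · have a5 := hm.2 _ ⟨z, a2, rfl⟩
    have a6 := c.os.hm.xx_ne_zero a1 a1
    have a7 := adj_of_mul (c.tf a) hm.1 a6 (s := 1) (c.os.hm.adj_xx z z) (by simp) (c.L_adj a5)
    refine ⟨hm.1, hm.1.of_mul_kap _ (c.tp.tens b) (c.tp.comm a b hab) a6 a5.1, fun p δ b1 b2 => ?_⟩
    have := c.os.sym_mem (Φ := LinearMap.mk₂ F (xx f) (fun _ _ _ => xx_add_left _ _ _)
      (fun _ _ _ => xx_smul_left _ _ _) (fun _ _ _ => xx_add_right _ _ _)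
      (fun _ _ _ => xx_smul_right _ _ _)) (S := (c.L b).comap (LinearMap.mulLeft F m ∘ₗ
        (kap (c.tp.tens a)).toLinearMap)) (fun z hz => hm.2 _ ⟨z, hz, rfl⟩) b1 b2
    simp only [sk_mul_kap (c.tf a) hm.1, a7, c.os.hm.adj_xx]
    constructor <;> simpa [mul_add, add_comm] using this
  · have a5 := hm.2 _ ⟨z, d, a2, a3, rfl⟩
    have a6 := c.os.wd_ne_zero a1 a3 a4
    have a7 := adj_of_mul (c.tf a) hm.1 a6 (s := -1) (by simp [adj_wd c.os.hm]) (by simp)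
      (c.L_adj a5)
    refine ⟨hm.1, hm.1.of_mul_kap _ (c.tp.tens b) (c.tp.comm a b hab) a6 a5.1, fun p δ b1 b2 => ?_⟩
    have := hm.2 _ ⟨p, δ, b1, b2, rfl⟩
    simp only [sk_mul_kap (c.tf a) hm.1, a7, c.os.hm.adj_xx]
    exact ⟨by simpa [wd, mul_sub] using neg_mem this, by simpa [wd, mul_sub] using this⟩

theorem kap_wd_mem (hab : a ≠ b) (H : 1 ∈ c.B a b) (w w' : W) :
    kap (c.tp.tens b) (wd f w w') ∈ c.L a := by
  have := (c.tp.tens b).finiteDimensional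
  simpa [sk, (c.tf b).adj_kap, c.os.hm.adj_xx, wd] using c.B_mul hab H H (xx f w w')

theorem mul_xx_mem (hj : j ≠ b) (H : 1 ∈ c.B j b) (hγ : γ ∈ c.L j) (hγ' : InC (T b) γ) {r : W}
    (hr0 : r ≠ 0) (hr : f r r = 0) : γ * kap (c.tp.tens j) (xx f r r) ∈ c.L b := by
  refine ⟨hγ'.mul (c.tp.inC_kap hj.symm _), fun q hq => ?_⟩
  obtain ⟨r', a1, a2⟩ := c.os.hm.exists_partner hr0 hr
  have a2' := c.os.hm.swap_one a2
  obtain ⟨δ, a3, a4⟩ := c.os.exists_perp q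
  have h1 := c.kap_wd_mem hj H δ q
  set ε := kap (c.tp.tens b) (wd f δ q)
  have e1 : ε * ε = -f δ δ • kap (c.tp.tens b) (xx f q q) := by
    rw [← map_mul, wd_mul_self c.os.hm hq a3, map_smul]
  have e2 : ε * ε * ε = 0 := by
    rw [e1, smul_mul_assoc, ← map_mul]; simp [wd, mul_sub, xx_mul, hq, a3]
  have e3 : ∀ ρ, kap (c.tp.tens j) ρ * ε = ε * kap (c.tp.tens j) ρ := h1.1.comm_kap _
  have key : ∀ γ ∈ c.L j, InC (T b) γ → UIn X (ε * ε * (kap (c.tp.tens j) (wd f r r') -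
      (2 : F) • (γ * kap (c.tp.tens j) (xx f r r)))) := fun γ hγ hγ' => by
    obtain ⟨g, hg, e⟩ := hγ.2 r hr
    have e4 : γ * ε = ε * γ := (hγ'.comm_kap _ _).symm
    have b1 := (h1.2 r' a1).cj hg
    have b2 : cj g (ε * kap (c.tp.tens j) (xx f r' r')) *
        cj g (ε * kap (c.tp.tens j) (xx f r' r')) = 0 := by
      rw [← map_mul, mul_xx_sq _ h1.1 a1, map_zero]
    obtain ⟨y, b3, b4, b5⟩ : ∃ y, cj g (ε * kap (c.tp.tens j) (xx f r' r')) = ε * y ∧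
        y * ε = ε * y ∧ kap (c.tp.tens j) (xx f r r) * y - y * kap (c.tp.tens j) (xx f r r) =
          kap (c.tp.tens j) (wd f r r') - (2 : F) • (γ * kap (c.tp.tens j) (xx f r r)) := by
      have b6 : γ * kap (c.tp.tens j) (xx f r r) * ε = ε * (γ * kap (c.tp.tens j) (xx f r r)) := by
        rw [mul_assoc, e3, ← mul_assoc, e4, mul_assoc]
      refine ⟨cj g (kap (c.tp.tens j) (xx f r' r')), by
        rw [map_mul, cj_eq_of_comm e b6], by
        rw [← cj_eq_of_comm e b6, ← map_mul, ← map_mul, e3], ?_⟩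
      have k1 : ∀ ρ z, kap (c.tp.tens j) ρ * (γ * z) = γ * (kap (c.tp.tens j) ρ * z) :=
        fun ρ z => by rw [← mul_assoc, hγ.1.comm_kap, mul_assoc]
      rw [cj_eq_of_sq e (mul_xx_sq _ hγ.1 hr _)]
      simp only [mul_add, add_mul, mul_sub, sub_mul, mul_assoc, k1, mul_one, one_mul, ← map_mul,
        xx_mul, hr, a2, a2', one_smul, zero_smul, mul_zero, map_zero, wd, map_sub, two_smul]
      abel
    rw [b3] at b1 b2
    have b6 : ∀ u v, v * ε = ε * v → u * ε = ε * u → ε * u * (ε * v) = ε * ε * (u * v) :=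
      fun u v _ hu => by rw [mul_assoc, ← mul_assoc u, hu]; simp only [mul_assoc]
    have b7 : ∀ u v w, u * ε = ε * u → v * ε = ε * v → ε * u * (ε * v) * (ε * w) = 0 :=
      fun u v w hu hv => by
        rw [b6 u v hv hu, mul_assoc, mul_assoc u, ← mul_assoc v, hv, mul_assoc ε v, ← mul_assoc u,
          hu, mul_assoc ε u, ← mul_assoc, e2, zero_mul]
    have := uin_commutator (h1.2 r hr) b1 (mul_xx_sq _ h1.1 hr _) b2 (b7 _ _ _ (e3 _) b4)
      (b7 _ _ _ b4 (e3 _))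
    rwa [b6 _ _ b4 (e3 _), b6 _ _ (e3 _) b4, ← mul_sub, b5] at this
  have h2 := c.os.two
  have e5 : ∀ u v, u * ε = ε * u → ε * ε * u * (ε * ε * v) = 0 := fun u v hu => by
    rw [mul_assoc ε ε v, mul_assoc _ u, ← mul_assoc u, hu, mul_assoc ε u, ← mul_assoc, e2, zero_mul]
  have e6 : (γ * kap (c.tp.tens j) (xx f r r)) * ε = ε * (γ * kap (c.tp.tens j) (xx f r r)) := by
    rw [mul_assoc, e3, ← mul_assoc, ← hγ'.comm_kap, mul_assoc]
  have := UIn.sub (key _ (smul_mem _ (2 * f δ δ)⁻¹ hγ) (hγ'.smul _)) (key 0 (zero_mem _) InC.zero)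
    (e5 _ _ (by simp only [sub_mul, mul_sub, smul_mul_assoc, mul_smul_comm, e3, e6]))
    (e5 _ _ (by simp [e3]))
  convert this using 1
  rw [← mul_sub, e1, smul_mul_assoc, ← (hγ'.mul (c.tp.inC_kap hj.symm _)).comm_kap]
  simp only [mul_sub, smul_mul_assoc, mul_smul_comm, zero_mul, smul_zero, mul_zero]
  match_scalars <;> field_simp
  ring

theorem one_mem_B [DecidableEq τ] (hp : c.tp.Alt X) (H : 1 ∈ c.B a b) (hab : a ≠ b) (hj : j ≠ a) :
    1 ∈ c.B j a := by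
  have := (c.tp.tens a).finiteDimensional
  have h1 : ∀ a b, a ≠ b ∧ 1 ∈ c.B a b → a ≠ b ∧ b ≠ a ∧ 1 ∈ c.B b a := fun a b H =>
    ⟨H.1, H.1.symm, by simpa using c.mul_mem_B H.1 H.2 H.2⟩
  refine (h1 _ _ (TP.Alt.all hp (J := fun a b => a ≠ b ∧ 1 ∈ c.B a b) h1
    (fun n hn σ e a b H => ⟨σ.injective.ne H.1, inC_one, inC_one, fun p δ a1 a2 => ?_⟩)
    ⟨hab, H⟩ j hj)).2.2
  have h2 : ∀ ρ, sk β (1 * kap (c.tp.tens a) ρ) ∈ c.L b →
      sk β (1 * kap (c.tp.tens (σ a)) ρ) ∈ c.L (σ b) := fun ρ H => by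
    have := lam_cj (c.tp.tens b) (c.tp.tens (σ b)) hn (e b) H
    rwa [(c.hm a).sk_cj _ (c.le hn), map_mul, map_one, e] at this
  exact ⟨h2 _ (H.2.2.2 p δ a1 a2).1, h2 _ (H.2.2.2 p δ a1 a2).2⟩

theorem full [DecidableEq τ] (hp : c.tp.Alt X) (H : ¬ L0 (c.tp.tens b) f X) {r : End F V}
    (hr : InC (T b) r) : sk β r ∈ c.L b := by
  have := (c.tp.tens b).finiteDimensional
  obtain ⟨γ, hγ, h0⟩ := c.exists_L H
  obtain ⟨a, hab, H⟩ := c.exists_B hγ h0
  have H' : 1 ∈ c.B b a := by simpa using c.mul_mem_B hab H H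
  have h1 : ∀ x ∈ c.B a b, ∀ y ∈ c.B a b, x * y ∈ c.B a b := fun x hx y hy => by
    simpa using c.mul_mem_B hab.symm (c.mul_mem_B hab hx hy) H'
  have h2 : ∀ j, ¬ (j = a ∨ j = b) → ∀ ρ, kap (c.tp.tens j) ρ ∈ c.B a b := fun j hj ρ => by
    rw [not_or] at hj
    obtain ⟨r, a1, a2⟩ := c.os.exists_iso
    have a3 := c.os.hm.xx_ne_zero a1 a1
    refine c.step.kap_mem (c.inv_B a b) h1 (x := kap (c.tp.tens j) (xx f r r)) ⟨c.tp.inC_kap
      (Ne.symm hj.1) _, c.tp.inC_kap (Ne.symm hj.2) _, fun p δ b1 b2 => ?_⟩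
      (not_inC_of_sq _ a3 (by simp [xx_mul, a2])) ρ
    have b3 : ∀ w w', sk β (kap (c.tp.tens j) (xx f r r) * kap (c.tp.tens a) (xx f w w')) ∈ c.L b :=
      fun w w' => by
        convert c.mul_xx_mem hj.2 (c.one_mem_B hp H' hab.symm hj.2) (c.kap_wd_mem hj.1
          (c.one_mem_B hp H hab hj.1) w w') (c.tp.inC_kap hab.symm _) a1 a2 using 1
        rw [sk_mul_kap (c.tf a) (c.tp.inC_kap (Ne.symm hj.1) _), (c.tf j).adj_kap, c.os.hm.adj_xx,
          c.os.hm.adj_xx, one_smul, one_smul, ← mul_sub, ← map_sub,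
          (c.tp.inC_kap (Ne.symm hj.1) _).comm_kap, wd]
    exact ⟨b3 _ _, b3 _ _⟩
  refine ind_cp (c.tp.tens a) (P := fun x => sk β x ∈ c.L b) (by simp [(c.hm b).sk_zero])
    (fun x y hx hy => by rw [(c.hm b).sk_add]; exact add_mem hx hy) fun φ w γ ψ => ?_
  have h3 : cp (c.tp.tens a) φ w r ∈ c.B a b := c.tp.mem_of_kap H h1 (fun j => j = a ∨ j = b) h2
    (by rintro i (rfl | rfl); exacts [inC_cp _ _ _ _, hr.cp _ (c.tp.tens _) (c.tp.comm _ _ hab) _ _])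
  simpa using c.B_mul hab.symm (by simpa using c.mul_mem_B hab h3 H) H' (rk γ ψ)

end OC

theorem OC.Om_le [DecidableEq τ] {Q : QuadraticForm F V} (c : OC T h f (polarBilin Q) X)
    (hX : X ≤ O Q) (hp : c.tp.Alt X) (hU : 3 ≤ finrank F U) (H : ¬ L0 (c.tp.tens b) f X) :
    Om Q ≤ X :=
  Om_le_of_full (c.tf b) c.os hX (fun _ hr => c.full hp H hr) hU

end Cfsg.Lib.Class.WrO
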