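import Cfsg.Agent.Class.WrO.Step
import Cfsg.Agent.Class.WrO.Bas

/-!
Overgroups of the stabiliser of a tensor power of an orthogonal space: the coefficients of the
central terms.
-/

set_option autoImplicit false
set_option linter.unusedSectionVars false

namespace Cfsg.Lib.Class.WrO

open Module Submodule Tens Tn FE AO Form Wr
open LinearMap (range ker)

variable {F U W V : Type*} [Field F] [AddCommGroup U] [Module F U] [AddCommGroup W] [Module F W]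
  [AddCommGroup V] [Module F V] [FiniteDimensional F U] [FiniteDimensional F W]
  {f : W →ₗ[F] W →ₗ[F] F} {β : V →ₗ[F] V →ₗ[F] F} {X : Subgroup (V ≃ₗ[F] V)}
  {x y m γ : End F V} {p δ : W}

/-- The embedding of the second factor group. -/
noncomputable def ugH {T : U →ₗ[F] W →ₗ[F] V} (hT : IsTens T) : (W ≃ₗ[F] W) →* (V ≃ₗ[F] V) where
  toFun := ug hT
  map_one' := hT.mpE_one
  map_mul' a b := by rw [ug, ug, ug, ← hT.mpE_mul, mul_one]

theorem ug_mul' {T : U →ₗ[F] W →ₗ[F] V} (hT : IsTens T) (a b : W ≃ₗ[F] W) :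
    ug hT (a * b) = ug hT a * ug hT b := map_mul (ugH hT) a b

section One

variable {T : U →ₗ[F] W →ₗ[F] V} {h : U →ₗ[F] U →ₗ[F] F}

theorem uin_ug (hT : IsTens T) {g : W ≃ₗ[F] W} (hg : ug hT g ∈ X) (hγ : InC T γ) {ρ : End F W}
    (H : UIn X (γ * kap hT ρ)) : UIn X (γ * kap hT (cj g ρ)) := by
  simpa only [map_mul, hγ.cj_ug, cj_ug_kap] using H.cj hg

theorem mul_xx_sq (hT : IsTens T) (hγ : InC T γ) (hp : f p p = 0) (m : End F V) :
    m * kap hT (xx f p p) * (γ * kap hT (xx f p p)) = 0 := by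
  simp [mul_kap_mul _ hγ, xx_mul, hp]

theorem skew_of_uin' [Nontrivial U] [Nontrivial W] [Finite F] (t : TF T h 1 f 1 β) (hX : X ≤ isomGroup β) (hγ : InC T γ)
    (hp0 : p ≠ 0) (hp : f p p = 0) (H : UIn X (γ * kap t.hT (xx f p p))) : adj β γ = -γ := by
  have := t.hT.finiteDimensional
  simpa using adj_of_mul t hγ (t.hh.xx_ne_zero hp0 hp0) (s := 1) (t.hh.adj_xx p p) (by simp)
    (t.hm.adj_of_uIn hX H (mul_xx_sq _ hγ hp _))

/-- The coefficients of the central terms. -/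
def LS (hT : IsTens T) (os : OS f) (X : Subgroup (V ≃ₗ[F] V)) : Submodule F (End F V) where
  toAddSubmonoid := (Lam hT f X).toAddSubmonoid
  smul_mem' s γ hγ := smul_of_sq os.two (A := (· ∈ Lam hT f X)) (fun _ _ => sub_mem) (fun l =>
    ⟨hγ.1.smul _, fun w hw => by
      simpa [xx_smul_left, xx_smul_right, smul_smul, pow_two] using hγ.2 (l • w) (by simp [hw])⟩) s

theorem sk_smul (hβ : Hm β 1) [FiniteDimensional F V] (s : F) (x : End F V) :
    sk β (s • x) = s • sk β x := by simp [sk, hβ.adj_smul, smul_sub]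

/-- The skew part as a linear map. -/
noncomputable def skL (hβ : Hm β 1) [FiniteDimensional F V] : End F V →ₗ[F] End F V where
  toFun := sk β
  map_add' := hβ.sk_add
  map_smul' := sk_smul hβ

theorem sk_mul_kap (t : TF T h 1 f 1 β) (hx : InC T x) (ρ : End F W) :
    sk β (x * kap t.hT ρ) = x * kap t.hT ρ - adj β x * kap t.hT (adj f ρ) := by
  have := t.hT.finiteDimensional
  rw [sk, t.hm.adj_mul, t.adj_kap, (t.inC_adj hx).comm_kap]

end One

variable {τ : Type*} {T : τ → U →ₗ[F] W →ₗ[F] V} {h : τ → U →ₗ[F] U →ₗ[F] F} {a b j : τ}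

/-- An overgroup of the factor groups of a tensor power of an orthogonal space. -/
structure OC (T : τ → U →ₗ[F] W →ₗ[F] V) (h : τ → U →ₗ[F] U →ₗ[F] F) (f : W →ₗ[F] W →ₗ[F] F)
    (β : V →ₗ[F] V →ₗ[F] F) (X : Subgroup (V ≃ₗ[F] V)) : Prop where
  tp : TP T
  tf : ∀ i, TF (T i) (h i) 1 f 1 β
  os : OS f
  le : X ≤ isomGroup β
  eich : ∀ i z, f z z = 0 → ∀ g ∈ Rad f (span F {z}), ug (tp.tens i) g ∈ X
  pair : ∀ i j, i ≠ j → ∀ g ∈ isomGroup f, ug (tp.tens i) g * ug (tp.tens j) g⁻¹ ∈ X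

theorem _root_.Cfsg.Lib.Class.Wr.OW.oc [DecidableEq τ] [Fintype τ] (c : OW T h f β X) (os : OS f) :
    OC T h f β X :=
  ⟨c.tp, c.tf, os, c.le, fun i _ hz g hg => c.ge i g (rad_le_OG hz hg), c.pair⟩

namespace OC

variable [Finite F] [Nontrivial U] [Nontrivial W] [Fintype τ] (c : OC T h f β X)
include c

theorem hm (a : τ) : Hm β 1 := by simpa using (c.tf a).hm

theorem hasE (a : τ) : HasE f (X.comap (ugH (c.tp.tens a))) := c.eich a

theorem step : c.tp.Step (isomGroup f) (N1 f) (NS f) := c.os.step c.tp hasE_isom (hasR_isom c.os.hm)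

theorem exists_move (a : τ) {q : W} (hp0 : p ≠ 0) (hp : f p p = 0) (hq0 : q ≠ 0) (hq : f q q = 0) :
    ∃ g, ug (c.tp.tens a) g ∈ X ∧ g ∈ isomGroup f ∧ ∃ s : F, s ≠ 0 ∧ g p = s • q :=
  WrO.exists_move c.os.hm c.os.spanOpp (c.hasE a) hp0 hp hq0 hq

theorem uin_pair (hj : j ≠ a) {g : W ≃ₗ[F] W} (hg : g ∈ isomGroup f) (hγ : InC (T a) γ)
    {ρ : End F W} (H : UIn X (γ * kap (c.tp.tens a) ρ)) :
    UIn X (cj (ug (c.tp.tens j) g) γ * kap (c.tp.tens a) (cj g⁻¹ ρ)) := by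
  simpa only [cj_mul, map_mul, hγ.cj_ug, cj_ug_kap, c.tp.cj_kap hj] using H.cj (c.pair j a hj g hg)

/-- The central coefficients at a factor. -/
abbrev L (a : τ) : Submodule F (End F V) := LS (c.tp.tens a) c.os X

theorem mem_L : γ ∈ c.L a ↔ InC (T a) γ ∧
    ∀ w, f w w = 0 → UIn X (γ * kap (c.tp.tens a) (xx f w w)) := Iff.rfl

theorem L_adj (hγ : γ ∈ c.L a) : adj β γ = -γ :=
  let ⟨w, h0, hw⟩ := c.os.exists_iso
  skew_of_uin' (c.tf a) c.le hγ.1 h0 hw (hγ.2 w hw)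

theorem inv_L (a : τ) : c.tp.Inv (isomGroup f) (· ∈ c.L a) := fun j g hg x hx => by
  by_cases hj : j = a
  · subst hj; rwa [InC.cj_ug _ hx.1]
  refine ⟨c.tp.inC_cj hx.1 j g, fun w hw => ?_⟩
  simpa [cj_xx _ _ (inv_mem hg)] using c.uin_pair hj hg hx.1 (hx.2 (g w) (by rw [iso hg, hw]))

theorem exists_L (H : ¬ L0 (c.tp.tens a) f X) : ∃ γ ∈ c.L a, γ ≠ 0 := by
  have := (c.tp.tens a).finiteDimensional
  simp only [L0, not_forall] at H
  obtain ⟨p, γ, hp, hγ, H, h0⟩ := H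
  have hp0 : p ≠ 0 := by rintro rfl; simp at h0
  let Γ : AddSubgroup (End F V) :=
    { carrier := {γ | InC (T a) γ ∧ UIn X (γ * kap (c.tp.tens a) (xx f p p))}
      zero_mem' := ⟨InC.zero, by simpa using UIn.zero⟩
      add_mem' := fun ha hb => ⟨ha.1.add hb.1, by
        rw [add_mul]; exact ha.2.add hb.2 (mul_xx_sq _ hb.1 hp _)⟩
      neg_mem' := fun ha => ⟨ha.1.neg, by rw [neg_mul]; exact ha.2.neg (mul_xx_sq _ ha.1 hp _)⟩ }
  let G : Subgroup (W ≃ₗ[F] W) :=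
    { carrier := {g | ∀ j, ∀ γ ∈ Γ, cj (ug (c.tp.tens j) g) γ ∈ Γ ∧ cj (ug (c.tp.tens j) g⁻¹) γ ∈ Γ}
      one_mem' := fun j γ hγ => by simpa [ug] using hγ
      mul_mem' := fun ha hb j γ hγ => by
        simp only [mul_inv_rev, ug_mul', cj_mul]
        exact ⟨(ha j _ (hb j _ hγ).1).1, (hb j _ (ha j _ hγ).2).2⟩
      inv_mem' := fun ha j γ hγ => by rw [inv_inv]; exact (ha j γ hγ).symm }
  have h1 : ∀ j g, ug (c.tp.tens j) g ∈ X → ∀ γ ∈ Γ, cj (ug (c.tp.tens j) g) γ ∈ Γ :=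
    fun j g hg γ hγ => by
      by_cases hj : j = a
      · subst hj; rwa [InC.cj_ug _ hγ.1]
      · exact ⟨c.tp.inC_cj hγ.1 j g, by simpa only [map_mul, c.tp.cj_kap hj] using hγ.2.cj hg⟩
  obtain ⟨γ, h2, h3⟩ := line_aux c.tp (G := G) c.tf c.os (fun z hz g hg j γ hγ =>
      ⟨h1 j g (c.eich j z hz g hg) γ hγ, h1 j _ (c.eich j z hz _ (inv_mem hg)) γ hγ⟩)
    (fun z d r a1 a2 a3 a4 hr j γ hγ => by
      rw [hr.inv c.os.hm a4, and_self]
      by_cases hj : j = a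
      · subst hj; rwa [InC.cj_ug _ hγ.1]
      obtain ⟨k, b1, b2, s, b3, b4⟩ := c.exists_move a hp0 hp a1 a2
      have b5 := c.tp.inC_cj hγ.1 j r
      have b6 := uin_ug _ (by rw [← ug_inv]; exact inv_mem b1) b5
        (c.uin_pair hj (hr.isom c.os.hm a4) hγ.1 (uin_ug _ b1 hγ.1 hγ.2))
      rw [hr.inv c.os.hm a4, cj_xx _ _ b2, cj_xx _ _ (hr.isom c.os.hm a4),
        show r (k p) = k p by simp [hr _, b4, c.os.symm d z, a3], ← cj_xx _ _ b2, cj_inv_cj] at b6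
      exact ⟨b5, b6⟩) (c.hm a) Finset.univ Γ (fun j g hg x hx => (hg j x hx).1)
    (fun x hx => skew_of_uin' (c.tf a) c.le hx.1 hp0 hp hx.2) (by simp) γ ⟨hγ, H⟩
    (by rintro rfl; simp at h0)
  have h4 : InC (T a) γ := by simpa using (h3 1).1
  refine ⟨γ, ⟨h4, fun w hw => ?_⟩, h2⟩
  by_cases hw0 : w = 0
  · simpa [hw0] using UIn.zero
  obtain ⟨k, b1, b2, s, b3, b4⟩ := c.exists_move a hp0 hp hw0 hw
  simpa [cj_xx _ _ b2, b4, xx_smul_left, xx_smul_right, smul_smul, b3, mul_mul_mul_comm s s] using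
    uin_ug _ b1 (h4.smul _) (h3 (s⁻¹ * s⁻¹)).2

end OC

end Cfsg.Lib.Class.WrO
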