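import Cfsg.Agent.Class.Tens3.Dih

/-!
A subgroup containing several commuting factors whose involutions fix a unique coset is everything.
-/

set_option autoImplicit false

namespace Cfsg.Lib.Class.T3

open Subgroup

variable {G τ : Type*} [Group G]

/-- The configuration of several commuting factors. -/
structure Multi (H : Subgroup G) (D : τ → Set G) (M N : τ → Subgroup G) : Prop where
  ne : ∀ i, ∀ z ∈ D i, z ≠ 1
  sq : ∀ i, ∀ z ∈ D i, z * z = 1
  memH : ∀ i, ∀ z ∈ D i, z ∈ H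
  memM : ∀ i, ∀ z ∈ D i, z ∈ M i
  memN : ∀ i j, i ≠ j → ∀ z ∈ D i, z ∈ N j
  comm : ∀ i, ∀ a ∈ M i, ∀ b ∈ N i, a * b = b * a
  disj : ∀ i, ∀ a ∈ M i, a ∈ N i → a = 1
  mul : ∀ i, ∀ y ∈ D i, ∀ z ∈ D i, y ≠ z → y * z = z * y → y * z ∈ D i
  four : ∀ i, ∀ z ∈ D i, ∃ y ∈ D i, y ≠ z ∧ y * z = z * y
  perm : ∀ h ∈ H, ∃ σ : τ → τ, Function.Injective σ ∧ ∀ i, ∀ z ∈ D i, h * z * h⁻¹ ∈ D (σ i)
  fix : ∀ i, ∀ z ∈ D i, ∀ g, g * z * g⁻¹ ∈ H → g ∈ H

namespace Multi

variable {H : Subgroup G} {D : τ → Set G} {M N : τ → Subgroup G} (h : Multi H D M N)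
  {i j l : τ} {a b y z g x : G}
include h

theorem cent (hz : z ∈ D i) (e : g * z = z * g) : g ∈ H :=
  h.fix i z hz g (by rw [e, mul_inv_cancel_right]; exact h.memH i z hz)

theorem cm (hij : i ≠ j) (hz : z ∈ D i) (ha : a ∈ D j) : z * a = a * z :=
  h.comm i z (h.memM i z hz) a (h.memN j i hij.symm a ha)

theorem comp {m m' n n' : G} (hm : m ∈ M i) (hm' : m' ∈ M i) (hn : n ∈ N i) (hn' : n' ∈ N i)
    (e : m * n = m' * n') : m = m' := by
  have : m'⁻¹ * m = n' * n⁻¹ := by rw [inv_mul_eq_iff_eq_mul, ← mul_assoc, ← e]; group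
  exact (inv_mul_eq_one.1 (h.disj i _ (mul_mem (inv_mem hm') hm)
    (this ▸ mul_mem hn' (inv_mem hn)))).symm

theorem idx (hz : z ∈ D i) (hz' : z ∈ D j) : i = j := by_contra fun hij =>
  h.ne i z hz (h.disj i z (h.memM i z hz) (h.memN j i (Ne.symm hij) z hz'))

theorem conj_mem (hz : z ∈ D i) (hx : x * z * x⁻¹ ∈ H) : ∃ l, x * z * x⁻¹ ∈ D l :=
  let ⟨σ, _, e⟩ := h.perm x (h.fix i z hz x hx); ⟨σ i, e i z hz⟩

theorem not_mem (hij : i ≠ j) (hz : z ∈ D i) (ha : a ∈ D j) : a * z ∉ D l := fun hl => by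
  by_cases h1 : l = i
  · subst h1
    have := h.comp (h.memM l z hz) (h.memM l _ hl) (h.memN j l hij.symm a ha) (one_mem _)
      (by rw [mul_one, h.cm hij hz ha])
    exact h.ne j a ha (by simpa using this.symm)
  · exact h.ne i z hz (h.comp (h.memM i z hz) (one_mem _) (h.memN j i hij.symm a ha)
      (h.memN l i h1 _ hl) (by rw [one_mul, h.cm hij hz ha]))

theorem conj_eq (hij : i ≠ j) (hz : z ∈ D i) (ha : a ∈ D j) (hx : x ∈ H)
    (e : x * (a * z) = a * z * x) : x * z * x⁻¹ = z ∨ x * z * x⁻¹ = a := by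
  obtain ⟨σ, hσ, k⟩ := h.perm x hx
  have h1 := h.memM _ _ (k i z hz)
  have h2 := h.memN _ _ (hσ.ne hij.symm) _ (k j a ha)
  have e1 : x * z * x⁻¹ * (x * a * x⁻¹) = a * z := by
    calc _ = x * (z * a) * x⁻¹ := by group
      _ = _ := by rw [h.cm hij hz ha, e]; group
  by_cases k1 : σ i = i
  · rw [k1] at h1 h2
    exact Or.inl (h.comp h1 (h.memM i z hz) h2 (h.memN j i hij.symm a ha)
      (by rw [e1, h.cm hij hz ha]))
  by_cases k2 : σ i = j
  · rw [k2] at h1 h2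
    exact Or.inr (h.comp h1 (h.memM j a ha) h2 (h.memN i j hij z hz) e1)
  exact (h.ne _ _ (k i z hz) (h.comp h1 (one_mem _) h2 (mul_mem (h.memN j _ (Ne.symm k2) a ha)
    (h.memN i _ (Ne.symm k1) z hz)) (by rw [e1, one_mul]))).elim

theorem conj_eq3 (hij : i ≠ j) (hil : i ≠ l) (hjl : j ≠ l) (hz : z ∈ D i) (ha : a ∈ D j)
    (hb : b ∈ D l) (hx : x ∈ H) (e : x * (b * a * z) = b * a * z * x) :
    x * z * x⁻¹ = z ∨ x * z * x⁻¹ = a ∨ x * z * x⁻¹ = b := by
  obtain ⟨σ, hσ, k⟩ := h.perm x hx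
  have h1 := h.memM _ _ (k i z hz)
  have h2 := mul_mem (h.memN _ _ (hσ.ne hil.symm) _ (k l b hb))
    (h.memN _ _ (hσ.ne hij.symm) _ (k j a ha))
  have e0 : z * (b * a) = b * a * z := by
    rw [← mul_assoc, h.cm hil hz hb, mul_assoc, h.cm hij hz ha, mul_assoc]
  have e1 : x * z * x⁻¹ * (x * b * x⁻¹ * (x * a * x⁻¹)) = b * a * z := by
    calc _ = x * (z * (b * a)) * x⁻¹ := by group
      _ = _ := by rw [e0, e]; group
  by_cases k1 : σ i = i
  · rw [k1] at h1 h2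
    exact Or.inl (h.comp h1 (h.memM i z hz) h2 (mul_mem (h.memN l i hil.symm b hb)
      (h.memN j i hij.symm a ha)) (by rw [e1, e0]))
  by_cases k2 : σ i = j
  · rw [k2] at h1 h2
    exact Or.inr (Or.inl (h.comp h1 (h.memM j a ha) h2 (mul_mem (h.memN l j hjl.symm b hb)
      (h.memN i j hij z hz)) (by rw [e1, ← mul_assoc, h.cm hjl ha hb])))
  by_cases k3 : σ i = l
  · rw [k3] at h1 h2
    exact Or.inr (Or.inr (h.comp h1 (h.memM l b hb) h2 (mul_mem (h.memN j l hjl a ha)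
      (h.memN i l hil z hz)) (by rw [e1, mul_assoc])))
  exact (h.ne _ _ (k i z hz) (h.comp h1 (one_mem _) h2 (mul_mem (mul_mem
    (h.memN l _ (Ne.symm k3) b hb) (h.memN j _ (Ne.symm k2) a ha))
    (h.memN i _ (Ne.symm k1) z hz)) (by rw [e1, one_mul]))).elim

omit h in
theorem sq_conj (hz : z * z = 1) (g : G) : g * z * g⁻¹ * (g * z * g⁻¹) = 1 := by
  simp [mul_assoc, ← mul_assoc z z, hz]

/-- Centralisers of products of two involutions. -/
theorem mixed [Finite G] (hij : i ≠ j) (hz : z ∈ D i) (ha : a ∈ D j)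
    (e : g * (a * z) = a * z * g) : g ∈ H := by
  by_contra hg
  obtain ⟨y, hy, y2, y4⟩ := h.four i z hz
  have y3 := h.sq i y hy
  have h2 := h.sq i z hz
  have ha2 := h.sq j a ha
  set C := centralizer ({a * z} : Set G)
  have mC : ∀ {x}, x ∈ C ↔ x * (a * z) = a * z * x := mem_centralizer_singleton_iff
  have key : ∀ x ∈ C, x * z * x⁻¹ ∈ H → x * z * x⁻¹ = z ∨ x * z * x⁻¹ = a := fun x hx hx' =>
    h.conj_eq hij hz ha (h.fix i z hz x hx') (mC.1 hx)
  have gC : g ∈ C := mC.2 e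
  have zC : z ∈ C := mC.2 (by rw [← mul_assoc, h.cm hij hz ha])
  have yC : y ∈ C := mC.2 (by rw [← mul_assoc, h.cm hij hy ha, mul_assoc, y4, mul_assoc])
  have ht : g * z * g⁻¹ ∉ H := fun h' => hg (h.fix i z hz g h')
  have hyz := h.cent (g := g * z * g⁻¹) (h.mul i y hy z hz y2 y4)
  have tC := C.mul_mem (C.mul_mem gC zC) (C.inv_mem gC)
  rcases dih y3 (sq_conj h2 g) C yC tC with
    ⟨x, hx, e1⟩ | ⟨f, fC, f1, -, f3, f4, ⟨⟨x, -, e1⟩, x', hx', e2⟩ | ⟨x, hx, e1⟩⟩
  · have e2 : x⁻¹ * g * z * (x⁻¹ * g)⁻¹ = y := by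
      calc _ = x⁻¹ * (g * z * g⁻¹) * x := by group
        _ = _ := by rw [← e1]; group
    rcases key _ (C.mul_mem (C.inv_mem hx) gC) (e2 ▸ h.memH i y hy) with e3 | e3
    · exact y2 (e2.symm.trans e3)
    · exact hij (h.idx hy (e2 ▸ e3 ▸ ha))
  · have e3 : g⁻¹ * x' * g * z * (g⁻¹ * x' * g)⁻¹ = g⁻¹ * f * g * z := by
      calc _ = g⁻¹ * (x' * (g * z * g⁻¹) * x'⁻¹) * g := by group
        _ = _ := by rw [← e2]; group
    have h3 : g⁻¹ * f * g ∈ H := h.cent hz (by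
      calc _ = g⁻¹ * (f * (g * z * g⁻¹)) * g := by group
        _ = _ := by rw [f4.eq]; group)
    rcases key _ (C.mul_mem (C.mul_mem (C.inv_mem gC) hx') gC)
      (e3 ▸ H.mul_mem h3 (h.memH i z hz)) with e4 | e4
    · refine f1 ?_
      calc f = g * (g⁻¹ * f * g * z) * z⁻¹ * g⁻¹ := by group
        _ = _ := by rw [← e3, e4]; group
    · have e5 : f = a * z := by
        calc f = g * (g⁻¹ * f * g * z * z⁻¹) * g⁻¹ := by group
          _ = _ := by rw [← e3, e4, inv_eq_of_mul_eq_one_right h2, e]; group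
      rw [e5] at e1
      obtain ⟨l, h4⟩ := h.conj_mem (x := x) hy
        (e1 ▸ H.mul_mem (H.mul_mem (h.memH j a ha) (h.memH i z hz)) (h.memH i y hy))
      rw [← e1, mul_assoc, ← y4] at h4
      exact h.not_mem hij (h.mul i y hy z hz y2 y4) ha h4
  · have e2 : x * g * z * (x * g)⁻¹ = f * y := by rw [e1]; group
    have h3 : f = f * y * y := by rw [mul_assoc, y3, mul_one]
    rcases key _ (C.mul_mem hx gC) (e2 ▸ H.mul_mem (h.cent hy f3) (h.memH i y hy)) with e3 | e3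
    · rw [← e2, e3, ← y4] at h3
      exact ht (hyz (h3 ▸ f4.symm))
    · rw [← e2, e3] at h3
      have : y * z = f * (a * z) := by
        rw [h3, ← h.cm hij hy ha, mul_assoc y, ← mul_assoc a, ha2, one_mul]
      exact ht (hyz (this ▸ f4.symm.mul_right (mC.1 tC)))

/-- Centralisers of products of three involutions. -/
theorem mixed3 [Finite G] (hij : i ≠ j) (hil : i ≠ l) (hjl : j ≠ l) (hz : z ∈ D i) (ha : a ∈ D j)
    (hb : b ∈ D l) (e : g * (b * a * z) = b * a * z * g) : g ∈ H := by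
  by_contra hg
  obtain ⟨y, hy, y2, y4⟩ := h.four i z hz
  have y3 := h.sq i y hy
  have h2 := h.sq i z hz
  set C := centralizer ({b * a * z} : Set G)
  have mC : ∀ {x}, x ∈ C ↔ x * (b * a * z) = b * a * z * x := mem_centralizer_singleton_iff
  have key : ∀ x ∈ C, x * z * x⁻¹ ∈ H →
      x * z * x⁻¹ = z ∨ x * z * x⁻¹ = a ∨ x * z * x⁻¹ = b := fun x hx hx' =>
    h.conj_eq3 hij hil hjl hz ha hb (h.fix i z hz x hx') (mC.1 hx)
  have gC : g ∈ C := mC.2 e
  have iC : ∀ y ∈ D i, y * z = z * y → y ∈ C := fun y hy y4 => mC.2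
    (((show Commute y b from h.cm hil hy hb).mul_right (h.cm hij hy ha)).mul_right y4)
  have ht : g * z * g⁻¹ ∉ H := fun h' => hg (h.fix i z hz g h')
  have tC := C.mul_mem (C.mul_mem gC (iC z hz rfl)) (C.inv_mem gC)
  have sH : b * a * z ∈ H := mul_mem (mul_mem (h.memH l b hb) (h.memH j a ha)) (h.memH i z hz)
  rcases dih y3 (sq_conj h2 g) C (iC y hy y4) tC with
    ⟨x, hx, e1⟩ | ⟨f, fC, f1, -, f3, f4, ⟨-, x', hx', e2⟩ | ⟨x, hx, e1⟩⟩
  · have e2 : x⁻¹ * g * z * (x⁻¹ * g)⁻¹ = y := by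
      calc _ = x⁻¹ * (g * z * g⁻¹) * x := by group
        _ = _ := by rw [← e1]; group
    rcases key _ (C.mul_mem (C.inv_mem hx) gC) (e2 ▸ h.memH i y hy) with e3 | e3 | e3
    · exact y2 (e2.symm.trans e3)
    · exact hij (h.idx hy (e2 ▸ e3 ▸ ha))
    · exact hil (h.idx hy (e2 ▸ e3 ▸ hb))
  · have e3 : g⁻¹ * x' * g * z * (g⁻¹ * x' * g)⁻¹ = g⁻¹ * f * g * z := by
      calc _ = g⁻¹ * (x' * (g * z * g⁻¹) * x'⁻¹) * g := by group
        _ = _ := by rw [← e2]; group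
    have h3 : g⁻¹ * f * g ∈ H := h.cent hz (by
      calc _ = g⁻¹ * (f * (g * z * g⁻¹)) * g := by group
        _ = _ := by rw [f4.eq]; group)
    have fH := h.cent hy f3
    have fin : ∀ c ∈ D j ∪ D l, ∀ d, g⁻¹ * f * g * z = d → c * d * z = b * a * z → False := by
      rintro c hc d e4 e5
      have e6 : g * c * g⁻¹ = b * a * z * f⁻¹ := by
        have : c = b * a * z * (g⁻¹ * f⁻¹ * g) := by
          rw [← e5, ← e4, mul_assoc c, mul_assoc _ z z, h2]; group
        rw [this, ← mul_assoc, e]; group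
      have := e6 ▸ mul_mem sH (inv_mem fH)
      exact hc.elim (fun hc => hg (h.fix j c hc g this)) fun hc => hg (h.fix l c hc g this)
    rcases key _ (C.mul_mem (C.mul_mem (C.inv_mem gC) hx') gC)
      (e3 ▸ H.mul_mem h3 (h.memH i z hz)) with e4 | e4 | e4
    · refine f1 ?_
      calc f = g * (g⁻¹ * f * g * z) * z⁻¹ * g⁻¹ := by group
        _ = _ := by rw [← e3, e4]; group
    · exact fin b (Or.inr hb) a (e3 ▸ e4) rfl
    · exact fin a (Or.inl ha) b (e3 ▸ e4) (by rw [h.cm hjl ha hb])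
  · have e2 : x * g * z * (x * g)⁻¹ = f * y := by rw [e1]; group
    have h3 : f = f * y * y := by rw [mul_assoc, y3, mul_one]
    rcases key _ (C.mul_mem hx gC) (e2 ▸ H.mul_mem (h.cent hy f3) (h.memH i y hy)) with
      e3 | e3 | e3 <;> rw [← e2, e3] at h3
    · rw [← y4] at h3
      exact ht (h.cent (h.mul i y hy z hz y2 y4) (h3 ▸ f4.symm))
    · exact ht (h.mixed hij hy ha (h3 ▸ f4.symm))
    · exact ht (h.mixed hil hy hb (h3 ▸ f4.symm))

theorem mem [Finite G] (hij : i ≠ j) (hz : z ∈ D i) (ha : a ∈ D j) (g : G) : g ∈ H := by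
  by_contra hg
  have ht : g * z * g⁻¹ ∉ H := fun h' => hg (h.fix i z hz g h')
  have h2 := h.sq i z hz
  have ha2 := h.sq j a ha
  have c2 := Two.mul_invol ha2 h2 (h.cm hij hz ha).symm
  have hc := H.mul_mem (h.memH j a ha) (h.memH i z hz)
  have hcC : ∀ x, x * (a * z) = a * z * x → x ∈ H := fun x => h.mixed hij hz ha
  rcases dih c2 (sq_conj h2 g) ⊤ trivial trivial with
    ⟨x, -, e1⟩ | ⟨f, -, f1, f2, f3, f4, ⟨-, x, -, e2⟩ | ⟨x, -, e1⟩⟩
  · have e2 : x⁻¹ * g * z * (x⁻¹ * g)⁻¹ = a * z := by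
      calc _ = x⁻¹ * (g * z * g⁻¹) * x := by group
        _ = _ := by rw [← e1]; group
    obtain ⟨l, h3⟩ := h.conj_mem hz (e2 ▸ hc)
    exact h.not_mem hij hz ha (e2 ▸ h3)
  · obtain ⟨f, rfl⟩ : ∃ f', f = g * f' * g⁻¹ := ⟨g⁻¹ * f * g, by group⟩
    replace f1 : f ≠ 1 := fun e => f1 (by simp [e])
    replace f2 : f * f = 1 := by simpa [mul_assoc] using congrArg (g⁻¹ * · * g) f2
    replace f4 : f * z = z * f := by simpa [mul_assoc] using congrArg (g⁻¹ * · * g) f4.eq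
    have e3 : g⁻¹ * x * g * z * (g⁻¹ * x * g)⁻¹ = f * z := by
      calc _ = g⁻¹ * (x * (g * z * g⁻¹) * x⁻¹) * g := by group
        _ = _ := by rw [← e2]; group
    have h3 : f = f * z * z := by rw [mul_assoc, h2, mul_one]
    obtain ⟨l, h4⟩ := h.conj_mem hz (e3 ▸ H.mul_mem (h.cent hz f4) (h.memH i z hz))
    rw [e3] at h4
    have y5 : f * z * z = z * (f * z) := by rw [← mul_assoc z, ← f4]
    have y6 : f * z ≠ z := fun e => f1 (by simpa using e)
    generalize f * z = y at h3 h4 y5 y6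
    subst h3
    by_cases hl : l = i
    · subst hl
      exact hg (h.fix l _ (h.mul l y h4 z hz y6 y5) g (hcC _ f3))
    replace hl : i ≠ l := Ne.symm hl
    have y2 := h.sq l y h4
    obtain ⟨c, hc'⟩ : ∃ c, a * z = g * c * g⁻¹ := ⟨g⁻¹ * (a * z) * g, by group⟩
    have tr : ∀ k, k * c = c * k → g * k * g⁻¹ * (a * z) = a * z * (g * k * g⁻¹) := fun k e => by
      rw [hc']; simpa [mul_assoc] using congrArg (g * · * g⁻¹) e
    have c3 : c * c = 1 := by
      rw [hc'] at c2; simpa [mul_assoc] using congrArg (g⁻¹ * · * g) c2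
    have c4 : c * (y * z) = y * z * c := by
      rw [hc'] at f3; simpa [mul_assoc] using congrArg (g⁻¹ * · * g) f3.eq.symm
    have c5 := h.mixed hl hz h4 c4
    rcases h.conj_eq hl hz h4 c5 c4 with e4 | e4
    · exact ht (hcC _ (tr z (mul_inv_eq_iff_eq_mul.1 e4).symm))
    obtain ⟨w, hw, w2, w4⟩ := h.four i z hz
    have w3 := h.sq i w hw
    have ci : c⁻¹ = c := inv_eq_of_mul_eq_one_right c3
    have hw' : c * w * c⁻¹ ∈ D l := by
      obtain ⟨σ, -, k⟩ := h.perm c c5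
      exact h.idx (e4 ▸ k i z hz) h4 ▸ k i w hw
    have c6 : c * (c * w * c⁻¹ * w) = c * w * c⁻¹ * w * c := by
      conv_rhs => rw [← h.cm hl hw hw']
      rw [ci]
      simp only [← mul_assoc, c3, one_mul]
      rw [mul_assoc _ c c, c3, mul_one]
    have fin : ∀ a' ∈ D l, ∀ z' ∈ D i,
        c * (a' * z') = a' * z' * c → g * (a' * z') * g⁻¹ * z * (g * (a' * z') * g⁻¹)⁻¹ = a := by
      intro a' h5 z' h7 e
      refine (h.conj_eq hij hz ha (hcC _ (tr _ e.symm)) (tr _ e.symm)).resolve_left fun e5 => hg ?_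
      refine inv_mem_iff.1 (h.fix i z hz _ (h.mixed hl h7 h5 ?_))
      simpa [mul_assoc] using congrArg (g⁻¹ * · * (g * (a' * z'))) e5.symm
    have k1 := fin y h4 z hz c4
    have k2 := fin _ hw' w hw c6
    have e6 : c * w * c⁻¹ * y * (w * z) = c * w * c⁻¹ * w * (y * z) := by
      rw [mul_assoc _ y, ← mul_assoc y, ← h.cm hl hw h4]; group
    have k3 := fin _ (h.mul l _ hw' y h4 (by rw [← e4]; simpa using w2) (by
        rw [← e4]; simpa [mul_assoc] using congrArg (c * · * c⁻¹) w4)) _ (h.mul i w hw z hz w2 w4)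
      (by rw [e6]; exact (show Commute c _ from c6).mul_right c4)
    rw [e6] at k3
    have k4 : g * (c * w * c⁻¹ * w) * g⁻¹ * a * (g * (c * w * c⁻¹ * w) * g⁻¹)⁻¹ = a := by
      conv_lhs => rw [← k1]
      rw [← k3]; group
    have : z = a := by
      calc z = (g * (c * w * c⁻¹ * w) * g⁻¹)⁻¹ * a * (g * (c * w * c⁻¹ * w) * g⁻¹) := by
            rw [← k2]; group
        _ = a := by conv_lhs => rw [← k4]
                    group
    exact hij (h.idx hz (this ▸ ha))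
  · have e2 : x * g * z * (x * g)⁻¹ = f * (a * z) := by rw [e1]; group
    have h3 : f = f * (a * z) * (a * z) := by rw [mul_assoc, c2, mul_one]
    have y3 : f * (a * z) * (a * z) = a * z * (f * (a * z)) := by
      rw [← mul_assoc (a * z) f, ← f3.eq]
    obtain ⟨l, h4⟩ := h.conj_mem hz (e2 ▸ H.mul_mem (hcC f f3) hc)
    rw [e2] at h4
    generalize f * (a * z) = y at h3 h4 y3
    subst h3
    by_cases k1 : l = j
    · subst k1
      have : y * a = a * y := by
        rw [mul_assoc, h.cm hij hz h4, ← mul_assoc, ← mul_assoc] at y3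
        exact mul_right_cancel y3
      rw [← mul_assoc] at f4
      by_cases e4 : y = a
      · rw [e4, ha2, one_mul] at f4
        exact ht (h.cent hz f4.eq.symm)
      · exact ht (h.mixed hij hz (h.mul l y h4 a ha e4 this) f4.eq.symm)
    by_cases k2 : l = i
    · subst k2
      have e3 : y * (a * z) = a * (y * z) := by rw [← mul_assoc, h.cm hij h4 ha, mul_assoc]
      by_cases e4 : y = z
      · rw [e3, e4, h2, mul_one] at f4
        exact ht (h.cent ha f4.eq.symm)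
      · have : y * z = z * y := by
          rw [e3, mul_assoc] at y3
          exact mul_left_cancel y3
        exact ht (h.mixed hij (h.mul l y h4 z hz e4 this) ha (e3 ▸ f4.eq.symm))
    · rw [← mul_assoc] at f4
      exact ht (h.mixed3 hij (Ne.symm k2) (Ne.symm k1) hz ha h4 f4.eq.symm)

end Multi

end Cfsg.Lib.Class.T3
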