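import Cfsg.Agent.Class.WrO.Loc
import Cfsg.Agent.Class.Tens3.Glob

/-!
Orthogonal spaces of dimension three: frames, root groups, tori and half turns.
-/

set_option autoImplicit false
set_option linter.unusedSectionVars false

namespace Cfsg.Lib.Class.WrO

open Module Submodule Tens Tn FE AO Form Wr
open LinearMap (range ker)

variable {F W : Type*} [Field F] [AddCommGroup W] [Module F W] [FiniteDimensional F W]
  {f : W →ₗ[F] W →ₗ[F] F} {p p' δ v w a b : W} {d : F} {g z : W ≃ₗ[F] W}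

theorem eq_one_of_sq_of_odd {G : Type*} [Group G] {x : G} {n : ℕ} (hn : Odd n) (h1 : x ^ n = 1)
    (h2 : x * x = 1) : x = 1 := by
  obtain ⟨k, rfl⟩ := hn
  rwa [pow_succ, pow_mul, pow_two, h2, one_pow, one_mul] at h1

theorem odd_char (p : ℕ) [hp : Fact p.Prime] [CharP F p] (h2 : (2 : F) ≠ 0) : Odd p :=
  hp.out.odd_of_ne_two fun h => h2 (by simpa [h] using CharP.cast_eq_zero F p)

/-- A similarity of an odd dimensional space has a square multiplier. -/
theorem sq_of_sim (hf : Hm f 1) (ho : Odd (finrank F W)) {x : End F W} {c : F} (hd : d ≠ 0)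
    (H : ∀ u u', f (x u) (x u') * c = f u u' * d) : ∃ s : F, d = s ^ 2 * c := by
  obtain ⟨k, hk⟩ := ho
  let e : W ≃ₗ[F] Dual F W := LinearMap.linearEquivOfInjective f
    ((injective_iff_map_eq_zero _).2 fun u hu => hf.sep u fun y => by simp [hu])
    Subspace.dual_finrank_eq.symm
  have h1 : c • ((e.symm : Dual F W →ₗ[F] W) ∘ₗ x.dualMap ∘ₗ (e.symm.symm : W →ₗ[F] Dual F W)) * x =
      d • 1 := LinearMap.ext fun u => e.injective (LinearMap.ext fun y => by
    simpa [e, mul_comm] using H u y)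
  have h2 := congrArg LinearMap.det h1
  rw [smul_mul_assoc, LinearMap.det_smul, LinearMap.det_smul, map_mul, LinearMap.det_conj,
    LinearMap.det_dualMap, map_one, hk] at h2
  refine ⟨c ^ k * LinearMap.det x / d ^ k, ?_⟩
  field_simp
  linear_combination -h2

theorem exists_witt (hf : Hm f 1) (h2 : (2 : F) ≠ 0) (hv : f v v ≠ 0) (e : f w w = f v v) :
    ∃ r ∈ isomGroup f, r v = w := by
  have key : ∀ w, f w w = f v v → f (v - w) (v - w) ≠ 0 → ∃ r ∈ isomGroup f, r v = w :=
    fun w e h => by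
      obtain ⟨r, hr, e1, -⟩ := hf.exists_refl h
      refine ⟨r, hr, ?_⟩
      rw [e1, show 2 / f (v - w) (v - w) * f (v - w) v = 1 by
        rw [div_mul_eq_mul_div, div_eq_one_iff_eq h]
        simp only [map_sub, LinearMap.sub_apply, e, hf.symm w v]; ring]
      simp
  by_cases h : f (v - w) (v - w) = 0
  · obtain ⟨r, hr, e1⟩ := key (-w) (by simpa using e) fun h' => by
      simp only [map_sub, LinearMap.sub_apply, map_neg, LinearMap.neg_apply, e] at h h'
      exact mul_ne_zero (mul_ne_zero h2 h2) hv (by linear_combination h + h')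
    obtain ⟨s, hs, e2, -⟩ := hf.exists_refl (e ▸ hv : f w w ≠ 0)
    refine ⟨s * r, mul_mem hs hr, ?_⟩
    simp only [LinearEquiv.mul_apply, e1, e2, map_neg, e]
    match_scalars
    field_simp
    ring
  · exact key w e h

/-- A hyperbolic frame of a 3-space. -/
structure Fr (f : W →ₗ[F] W →ₗ[F] F) (p p' δ : W) : Prop where
  os : OS f
  three : finrank F W = 3
  hp : f p p = 0
  hp' : f p' p' = 0
  hpp : f p p' = 1
  h1 : f p δ = 0
  h2 : f p' δ = 0
  hδ : f δ δ ≠ 0

theorem OS.exists_fr (os : OS f) (h3 : finrank F W = 3) (hp0 : p ≠ 0) (hp : f p p = 0) :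
    ∃ p' δ, Fr f p p' δ := by
  obtain ⟨p', h1, h2⟩ := os.hm.exists_partner hp0 hp
  obtain ⟨δ, h4, h5, h6⟩ := os.exists_perp_hyp hp h2
  exact ⟨p', δ, os, h3, hp, h1, h2, h4, h5, h6⟩

namespace Fr

variable (h : Fr f p p' δ)
include h

theorem hpp' : f p' p = 1 := (h.os.symm _ _).trans h.hpp

theorem h1' : f δ p = 0 := (h.os.symm _ _).trans h.h1

theorem h2' : f δ p' = 0 := (h.os.symm _ _).trans h.h2

theorem ne : p ≠ 0 := fun e => by simpa [e] using h.hpp

theorem one : xx f p p' + xx f p' p + (f δ δ)⁻¹ • xx f δ δ = 1 :=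
  h.os.decomp_three h.three h.hp h.hp' h.hpp h.h1 h.h2 h.hδ

theorem dec (y : W) : y = f p' y • p + f p y • p' + ((f δ δ)⁻¹ * f δ y) • δ := by
  simpa [mul_smul] using (LinearMap.congr_fun h.one y).symm

theorem ext {M : Type*} [AddCommGroup M] [Module F M] {x y : W →ₗ[F] M} (e1 : x p = y p)
    (e2 : x p' = y p') (e3 : x δ = y δ) : x = y :=
  LinearMap.ext fun u => by rw [h.dec u]; simp only [map_add, map_smul, e1, e2, e3]

theorem sq : wd f δ p * wd f δ p = -f δ δ • xx f p p := wd_mul_self h.os.hm h.hp h.h1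

theorem wd_xx : wd f δ p * xx f p p = 0 := by simp [wd, sub_mul, xx_mul, h.hp, h.h1']

theorem xx_wd : xx f p p * wd f δ p = 0 := by simp [wd, mul_sub, xx_mul, h.hp, h.h1]

theorem xx_ne : xx f p p ≠ 0 := h.os.hm.xx_ne_zero h.ne h.ne

/-- The root group of a singular point. -/
theorem rad_eq (hg : g ∈ Rad f (span F {p})) :
    ∃ s : F, (g : End F W) = 1 + s • wd f δ p - (s ^ 2 * f δ δ / 2) • xx f p p := by
  obtain ⟨h3, h4, h5⟩ := mem_Rad_span.1 hg
  obtain ⟨c, hc⟩ := h5 δ h.h1
  have h6 : f p (g p') = 1 := by rw [← h.hpp, ← iso h3 p p', h4]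
  have h7 : f δ (g p') = -c := by
    have := iso h3 δ p'
    rw [hc, h.h2'] at this
    simp only [map_add, map_smul, LinearMap.add_apply, LinearMap.smul_apply, h6, smul_eq_mul] at this
    linear_combination this
  have h8 := iso h3 p' p'
  have := h.hδ
  have := h.os.two
  refine ⟨-c / f δ δ, h.ext (by simp [wd_apply, h4, h.hp, h.h1']) ?_ ?_⟩
  · rw [h.dec (g p'), h6, h7] at h8
    rw [LinearEquiv.coe_coe, h.dec (g p'), h6, h7]
    simp only [map_add, map_smul, LinearMap.add_apply, LinearMap.smul_apply, smul_eq_mul, h.hp,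
      h.hp', h.hpp, h.hpp', h.h1, h.h2, h.h1', h.h2'] at h8
    simp only [LinearMap.sub_apply, LinearMap.add_apply, LinearMap.smul_apply, wd_apply, xx,
      rk_apply, h.hpp, h.h2', End.one_apply]
    match_scalars <;> field_simp at h8 ⊢
    linear_combination h8
  · simp only [LinearEquiv.coe_coe, hc, LinearMap.sub_apply, LinearMap.add_apply,
      LinearMap.smul_apply, wd_apply, xx, rk_apply, h.h1, End.one_apply]
    match_scalars <;> field_simp <;> ring

theorem exists_rad (s : F) : ∃ g ∈ Rad f (span F {p}),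
    (g : End F W) = 1 + s • wd f δ p - (s ^ 2 * f δ δ / 2) • xx f p p := by
  have h3 : f p (s • δ) = 0 := by simp [h.h1]
  refine ⟨_, eich_mem h.os.hm h.os.two h.hp h3, ?_⟩
  rw [coe_eich, wd_smul_left]
  simp [pow_two, mul_assoc]

theorem exists_tor {c : F} (hc : c ≠ 0) :
    ∃ g ∈ isomGroup f, g * g ∈ OG f ∧ g p = c • p ∧ g p' = c⁻¹ • p' ∧ g δ = δ := by
  have h2 := h.os.two
  have key : ∀ a : F, a ≠ 0 → ∃ r ∈ isomGroup f, r⁻¹ = r ∧ r p = a • p' ∧ r p' = a⁻¹ • p ∧
      r δ = δ := fun a ha => by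
    have h1 : f (p - a • p') (p - a • p') = -(2 * a) := by
      simp [h.hp, h.hp', h.hpp, h.hpp']; ring
    have h0 : 2 / -(2 * a) = -a⁻¹ := by field_simp
    obtain ⟨r, hr, e, e'⟩ := h.os.hm.exists_refl (w := p - a • p') (by rw [h1]; simp [h2, ha])
    rw [h1, h0] at e
    refine ⟨r, hr, LinearEquiv.ext e', ?_, ?_, by simp [e, h.h1, h.h2]⟩
    all_goals
      simp only [e, map_sub, map_smul, LinearMap.sub_apply, LinearMap.smul_apply, h.hp, h.hp',
        h.hpp, h.hpp', smul_eq_mul]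
      match_scalars <;> field_simp <;> ring
  obtain ⟨r, hr, e0, e1, e2, e3⟩ := key 1 one_ne_zero
  obtain ⟨r', hr', f0, f1, f2, f3⟩ := key c hc
  refine ⟨r * r', mul_mem hr hr', ?_, by simp [f1, e2], by simp [f2, e1], by simp [f3, e3]⟩
  simpa [e0, f0, mul_assoc] using comm_mem_OG hr hr'

theorem tor_eq {x : End F W} {c c' : F} (e1 : x p = c • p) (e2 : x p' = c' • p') (e3 : x δ = δ) :
    x = ((c + c') / 2) • 1 + ((c - c') / 2) • wd f p p' +
      ((1 - (c + c') / 2) / f δ δ) • xx f δ δ := by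
  have := h.hδ
  have := h.os.two
  refine h.ext ?_ ?_ ?_ <;> simp only [e1, e2, e3, LinearMap.add_apply, LinearMap.smul_apply,
    wd_apply, xx, rk_apply, End.one_apply, h.hp, h.hp', h.hpp, h.hpp', h.h1, h.h2, h.h1', h.h2'] <;>
    match_scalars <;> field_simp <;> ring

theorem skew_eq {x : End F W} (e : adj f x = -x) (e3 : x δ = 0) : ∃ c : F, x = c • wd f p p' := by
  have h3 : ∀ u y, f u (x y) = -f (x u) y := fun u y => by
    rw [← h.os.hm.adj_spec', e]; simp
  have h4 : ∀ u, f u (x u) = 0 := fun u => (mul_eq_zero.1 (show 2 * f u (x u) = 0 by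
    linear_combination h3 u u - h.os.symm (x u) u)).resolve_left h.os.two
  refine ⟨f p' (x p), h.ext ?_ ?_ (by simp [e3, wd_apply, h.h1, h.h2])⟩
  · rw [h.dec (x p), h4, h3 δ, e3]
    simp [wd_apply, h.hp, h.hpp']
  · rw [h.dec (x p'), h4, h3 δ, e3, h3 p, h.os.symm (x p)]
    simp [wd_apply, h.hp', h.hpp]

theorem wd_cube : wd f p p' * wd f p p' * wd f p p' = wd f p p' :=
  h.ext (by simp [wd_apply, h.hp, h.hpp']) (by simp [wd_apply, h.hp', h.hpp])
    (by simp [wd_apply, h.h1, h.h2])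

end Fr

/-- Unipotent isometries of a 3-space are root elements. -/
theorem OS.mem_OG_of_pow (os : OS f) (h3 : finrank F W = 3) (q : ℕ) [hq : Fact q.Prime] [CharP F q]
    (hg : g ∈ isomGroup f) (e : g ^ q = 1) : g ∈ OG f := by
  have := os.nontrivial
  obtain ⟨k, hk⟩ := odd_char (F := F) q os.two
  obtain ⟨w, hw0, hw⟩ : ∃ w, w ≠ 0 ∧ g w = w := by
    by_contra! hc
    have h1 : Function.Injective ((g : End F W) - 1 : End F W) := (injective_iff_map_eq_zero _).2
      fun w hw => by_contra fun h0 => hc w h0 (sub_eq_zero.1 hw)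
    have h2 := h1.iterate q
    rw [← End.coe_pow, sub_one_pow_char, e] at h2
    obtain ⟨y, hy⟩ := exists_ne (0 : W)
    exact hy (h2 (by simp))
  by_cases h1 : f w w = 0
  swap
  · exact os.hm.eq_one_of_pow q os.two h3 h1 hg hw e ▸ one_mem _
  obtain ⟨w', δ, h⟩ := os.exists_fr h3 hw0 h1
  obtain ⟨c, hc, h4, h5⟩ : ∃ c ∈ isomGroup f, c w = w ∧ g = c * c :=
    ⟨g ^ (k + 1), pow_mem hg _, (MulAction.stabilizer (W ≃ₗ[F] W) w).pow_mem hw _, by
      rw [← pow_add, show k + 1 + (k + 1) = q + 1 by omega, pow_succ, e, one_mul]⟩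
  have h6 : f w (c δ) = 0 := by rw [← h.h1, ← iso hc w δ, h4]
  have h7 := h.dec (c δ)
  rw [h6] at h7
  generalize f w' (c δ) = s at h7
  generalize (f δ δ)⁻¹ * f δ (c δ) = t at h7
  have h8 : t * t = 1 := mul_right_cancel₀ h.hδ (by
    have := iso hc δ δ
    rw [h7] at this
    simpa [h.hp, h.h1, h.h1', mul_assoc] using this)
  refine rad_le_OG h1 (mem_Rad_span.2 ⟨hg, hw, fun y hy => ⟨(f δ δ)⁻¹ * f δ y * (s + t * s), ?_⟩⟩)
  have h9 : g δ = δ + (s + t * s) • w := by
    simp only [h5, LinearEquiv.mul_apply, h7, map_add, map_smul, h4, smul_add, smul_smul, h8]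
    module
  conv_lhs => rw [h.dec y]
  conv_rhs => rw [h.dec y]
  simp only [map_add, map_smul, hw, h9, hy, h.h1', h.h2', smul_eq_mul]
  have := h.hδ
  match_scalars <;> field_simp
  ring

/-- `z` is the half turn about `v`. -/
def IsNr (f : W →ₗ[F] W →ₗ[F] F) (v : W) (z : W ≃ₗ[F] W) : Prop :=
  ∀ y, z y = (2 / f v v * f v y) • v - y

namespace IsNr

theorem coe (h : IsNr f v z) : (z : End F W) = (2 / f v v) • xx f v v - 1 :=
  LinearMap.ext fun y => by simp [h y, mul_smul]

theorem eq (h : IsNr f v z) (h' : IsNr f v g) : z = g := LinearEquiv.ext fun y => by rw [h, h']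

theorem conj (h : IsNr f v z) (hg : g ∈ isomGroup f) : IsNr f (g v) (g * z * g⁻¹) := fun y => by
  obtain ⟨y, rfl⟩ := g.surjective y
  simp [h y, iso hg]

theorem smul (h : IsNr f v z) {s : F} (hs : s ≠ 0) : IsNr f (s • v) z := fun y => by
  simp only [h y, map_smul, LinearMap.smul_apply, smul_eq_mul, smul_smul]
  congr 2
  by_cases h0 : f v v = 0
  · simp [h0]
  · field_simp

theorem self (h : IsNr f v z) (hv : f v v ≠ 0) : z v = v := by
  rw [h, div_mul_cancel₀ _ hv]; module

theorem perp (h : IsNr f v z) (e : f v w = 0) : z w = -w := by simp [h w, e]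

theorem sq (h : IsNr f v z) (hv : f v v ≠ 0) : z * z = 1 := LinearEquiv.ext fun y => by
  rw [LinearEquiv.mul_apply, h y, map_sub, map_smul, h.self hv, h y]; simp

theorem of_fix (h : IsNr f v z) (h2 : (2 : F) ≠ 0) (e : z w = w) : ∃ c : F, w = c • v :=
  ⟨f v w / f v v, smul_right_injective W h2 (by
    rw [h] at e
    linear_combination (norm := module) -e)⟩

end IsNr

theorem exists_isNr (hf : Hm f 1) (h2 : (2 : F) ≠ 0) (hg : g ∈ isomGroup f) (e : g * g = 1)
    (h1 : finrank F (ker ((g : End F W) - 1)) = 1) : ∃ v, f v v ≠ 0 ∧ IsNr f v g := by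
  have hb2 : ∀ y, g (g y) = y := fun y => congrArg (· y) e
  obtain ⟨⟨v, hv⟩, hv0, h7⟩ := finrank_eq_one_iff'.1 h1
  have h8 : ∀ y, ∃ s : F, g y = s • v - y ∧ s * f v v = 2 * f v y := fun y => by
    obtain ⟨s, hs⟩ := h7 ⟨g y + y, by simp [hb2, add_comm]⟩
    have h9 : s • v = g y + y := congrArg Subtype.val hs
    have h10 := iso hg v y
    rw [show g v = v from sub_eq_zero.1 hv] at h10
    exact ⟨s, by rw [h9]; abel, by simpa [h10, two_mul] using congrArg (f v) h9⟩
  have h9 : f v v ≠ 0 := fun h0 => hv0 (Subtype.ext (hf.sep v fun y => by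
    obtain ⟨s, -, hs⟩ := h8 y
    simpa [h0, h2] using hs))
  refine ⟨v, h9, fun y => ?_⟩
  obtain ⟨s, h10, h11⟩ := h8 y
  rw [h10, div_mul_eq_mul_div, ← h11, mul_div_cancel_right₀ _ h9]

/-- An orthogonal frame of vectors of the same norm. -/
structure F3 (f : W →ₗ[F] W →ₗ[F] F) (d : F) (v a b : W) : Prop where
  os : OS f
  three : finrank F W = 3
  d0 : d ≠ 0
  hv : f v v = d
  ha : f a a = d
  hb : f b b = d
  va : f v a = 0
  vb : f v b = 0
  ab : f a b = 0

theorem OS.dec_orth (os : OS f) (h3 : finrank F W = 3) (hv : f v v ≠ 0) (ha : f a a ≠ 0)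
    (hb : f b b ≠ 0) (va : f v a = 0) (vb : f v b = 0) (ab : f a b = 0) (y : W) :
    y = (f v y / f v v) • v + (f a y / f a a) • a + (f b y / f b b) • b := by
  let φ : W →ₗ[F] Fin 3 → F := LinearMap.pi ![f v, f a, f b]
  have h4 : Function.Injective φ := (LinearMap.injective_iff_surjective_of_finrank_eq_finrank
    (by simp [h3])).2 fun t => ⟨(t 0 / f v v) • v + (t 1 / f a a) • a + (t 2 / f b b) • b, by
      ext i
      fin_cases i <;> simp [φ, va, vb, ab, os.symm a v, os.symm b v, os.symm b a, hv, ha, hb]⟩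
  refine h4 (funext fun i => ?_)
  fin_cases i <;> simp [φ, va, vb, ab, os.symm a v, os.symm b v, os.symm b a, hv, ha, hb]

theorem OS.exists_f3 [Finite F] (os : OS f) (h3 : finrank F W = 3) : ∃ d v a b, F3 f d v a b := by
  obtain ⟨e, -, he⟩ := os.hm.exists_aniso os.two [] (by simp [h3])
  obtain ⟨u, h1, h2⟩ := os.hm.exists_perp_norm os.two h3.ge he
  obtain ⟨v, h4, hv⟩ := exists_aniso' os.hm os.two [e, u] ⊥ (by simp [h3]) fun y hy H => by
    rw [span_list_two] at hy
    obtain ⟨s, t, rfl⟩ := mem_span_pair.1 hy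
    have h5 := H e (by simp)
    have h6 := H u (by simp)
    simp only [map_add, map_smul, h1, h2, os.symm u e, smul_eq_mul] at h5 h6
    simp [show s = 0 by simpa [he] using h5, show t = 0 by simpa [he] using h6]
  have h5 := h4 e (by simp)
  have h6 := h4 u (by simp)
  obtain ⟨a, h7, h8⟩ := os.hm.exists_perp_norm os.two h3.ge hv
  have h9 := os.dec_orth h3 he (h2 ▸ he) hv h1 h5 h6 a
  rw [h7] at h9
  generalize f e a / f e e = s at h9
  generalize f u a / f u u = t at h9
  refine ⟨_, v, a, s • u - t • e, os, h3, hv, rfl, h8, ?_, h7, by simp [os.symm v, h5, h6], ?_⟩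
  · rw [← h8, h9]
    simp [h1, h2, os.symm u e]
  · rw [h9]
    simp [h1, h2, os.symm u e, mul_left_comm]

namespace F3

variable (h : F3 f d v a b)
include h

theorem dec (y : W) : y = (f v y / d) • v + (f a y / d) • a + (f b y / d) • b := by
  simpa only [h.hv, h.ha, h.hb] using h.os.dec_orth h.three (h.hv ▸ h.d0) (h.ha ▸ h.d0)
    (h.hb ▸ h.d0) h.va h.vb h.ab y

theorem of_norm (e : f w w = d) : ∃ a b, F3 f d w a b := by
  obtain ⟨r, hr, rfl⟩ := exists_witt h.os.hm h.os.two (h.hv ▸ h.d0) (e.trans h.hv.symm)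
  exact ⟨r a, r b, h.os, h.three, h.d0, e, (iso hr _ _).trans h.ha, (iso hr _ _).trans h.hb,
    (iso hr _ _).trans h.va, (iso hr _ _).trans h.vb, (iso hr _ _).trans h.ab⟩

theorem swap : F3 f d a v b :=
  ⟨h.os, h.three, h.d0, h.ha, h.hv, h.hb, (h.os.symm _ _).trans h.va, h.ab, h.vb⟩

theorem of_perp (e : f w w = d) (e' : f v w = 0) : ∃ b, F3 f d v w b := by
  have h1 := h.dec w
  rw [e'] at h1
  generalize f a w / d = s at h1
  generalize f b w / d = t at h1
  refine ⟨s • b - t • a, h.os, h.three, h.d0, h.hv, e, ?_, e', by simp [h.va, h.vb], ?_⟩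
  · rw [← e, h1]
    simp [h.ha, h.hb, h.ab, h.os.symm b a]
  · rw [h1]
    simp [h.ha, h.hb, h.ab, h.os.symm b a, mul_left_comm]

theorem exists_nr : ∃ z, IsNr f v z ∧ z ∈ OG f ∧ LinearEquiv.det z = 1 := by
  obtain ⟨r, hr, s, hs, -, e⟩ := h.os.hm.exists_invol h.os.two (h.ha ▸ h.d0) (h.hb.trans h.ha.symm)
    h.ab
  refine ⟨r * s * r⁻¹ * s⁻¹, fun y => (e y).trans ?_, comm_mem_OG hr hs, det_commutator r s⟩
  rw [h.ha, h.hv]
  linear_combination (norm := module) (2 : F) • h.dec y

theorem mul (h1 : IsNr f v z) (h2 : IsNr f a g) : IsNr f b (z * g) := fun y => by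
  simp only [LinearEquiv.mul_apply, h2 y, map_sub, map_smul, h1.perp h.va, h1 y, h.hv, h.ha, h.hb]
  linear_combination (norm := module) (2 : F) • h.dec y

theorem fr {s : F} (hs : s * s = -1) : Fr f (a + s • b) ((2 * d)⁻¹ • (a - s • b)) v := by
  have := h.os.two
  have := h.d0
  refine ⟨h.os, h.three, ?_, ?_, ?_, ?_, ?_, h.hv ▸ h.d0⟩ <;>
    simp only [map_add, map_sub, map_smul, LinearMap.add_apply, LinearMap.sub_apply,
      LinearMap.smul_apply, smul_eq_mul, h.ha, h.hb, h.ab, h.os.symm b a, h.os.symm a v,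
      h.os.symm b v, h.va, h.vb]
  · linear_combination d * hs
  · linear_combination ((2 * d)⁻¹ ^ 2 * d) * hs
  · field_simp
    linear_combination -d * hs
  · ring
  · ring

end F3

/-- Distinct commuting half turns have orthogonal axes. -/
theorem IsNr.perp_of_comm (h2 : (2 : F) ≠ 0) (h : IsNr f v z) (h' : IsNr f w g)
    (hv : f v v ≠ 0) (hw : f w w ≠ 0) (hne : z ≠ g) (e : z * g = g * z) : f v w = 0 := by
  obtain ⟨c, hc⟩ := h'.of_fix h2 (w := z w) (by
    rw [← LinearEquiv.mul_apply, ← e, LinearEquiv.mul_apply, h'.self hw])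
  by_contra h0
  have h3 : w = (2 / f v v * f v w / (c + 1)) • v := by
    rw [h] at hc
    have h4 : c + 1 ≠ 0 := fun h5 => by
      have : (2 / f v v * f v w) • v = 0 := by linear_combination (norm := module) hc + h5 • w
      simp [h2, hv, h0] at this
      simp [this] at hv
    refine smul_right_injective W h4 ?_
    simp only [smul_smul, mul_div_cancel₀ _ h4]
    linear_combination (norm := module) -hc
  generalize 2 / f v v * f v w / (c + 1) = s at h3
  subst h3
  exact hne ((h.smul (by rintro rfl; simp at hw)).eq h')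

end Cfsg.Lib.Class.WrO
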