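import Cfsg.Agent.Class.WrO.G3b

/-!
Tensor decompositions with an orthogonal factor of dimension three: centralisers of root elements,
involutions, and restriction to `U ⊗ v`.
-/

set_option autoImplicit false
set_option linter.unusedSectionVars false

namespace Cfsg.Lib.Class.WrO

open Module Submodule Tens Tn FE AO Form Wr
open LinearMap (range ker)

variable {F U W V : Type*} [Field F] [AddCommGroup U] [Module F U] [AddCommGroup W] [Module F W]
  [AddCommGroup V] [Module F V] [FiniteDimensional F U] [FiniteDimensional F W] [Nontrivial U]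
  [Nontrivial W] {f : W →ₗ[F] W →ₗ[F] F} {β : V →ₗ[F] V →ₗ[F] F} {T T' : U →ₗ[F] W →ₗ[F] V}
  {h h' : U →ₗ[F] U →ₗ[F] F} {p p' δ v : W} {a b c m x : End F V}

namespace Fr

variable (fr : Fr f p p' δ) (hT : IsTens T)
include fr

theorem uniq (ha : InC T a) (hb : InC T b) (hc : InC T c)
    (e : a + b * kap hT (wd f δ p) + c * kap hT (xx f p p) = 0) : a = 0 ∧ b = 0 ∧ c = 0 := by
  have h1 : a = 0 := ha.eq_zero_of_mul hT fr.xx_ne (by
    simpa [add_mul, mul_assoc, ← map_mul, fr.wd_xx, xx_mul, fr.hp] using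
      congrArg (· * kap hT (xx f p p)) e)
  have h2 : b = 0 := hb.eq_zero_of_mul hT (smul_ne_zero (neg_ne_zero.2 fr.hδ) fr.xx_ne) (by
    simpa only [h1, add_mul, mul_assoc, ← map_mul, fr.xx_wd, fr.sq, map_zero, mul_zero, zero_mul,
      zero_add, add_zero] using congrArg (· * kap hT (wd f δ p)) e)
  exact ⟨h1, h2, hc.eq_zero_of_mul hT fr.xx_ne (by simpa [h1, h2] using e)⟩

theorem comm_xx (e : Commute x (kap hT (wd f δ p))) : Commute x (kap hT (xx f p p)) := by
  have := (e.mul_right e).smul_right (-f δ δ)⁻¹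
  rwa [← map_mul, fr.sq, map_smul, inv_smul_smul₀ (neg_ne_zero.2 fr.hδ)] at this

theorem dec3 (e : Commute x (kap hT (wd f δ p))) : ∃ a b c, InC T a ∧ InC T b ∧ InC T c ∧
    x = a + b * kap hT (wd f δ p) + c * kap hT (xx f p p) := by
  have h1 := inC_cp hT (f p) p' x
  have h2 := (inC_cp hT (f δ) p' x).smul (f δ δ)⁻¹
  have h3 := inC_cp hT (f p') p' x
  refine ⟨_, _, _, h1, h2, h3, sub_eq_zero.1 ?_⟩
  set y := x - (cp hT (f p) p' x + (f δ δ)⁻¹ • cp hT (f δ) p' x * kap hT (wd f δ p) +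
    cp hT (f p') p' x * kap hT (xx f p p)) with hy
  have h4 : Commute y (kap hT (wd f δ p)) := e.sub_left (.add_left (.add_left (h1.comm_kap hT _).symm
    (.mul_left (h2.comm_kap hT _).symm rfl)) (.mul_left (h3.comm_kap hT _).symm
      (fr.comm_xx hT rfl).symm))
  have h5 : ∀ u, y (T u p') = 0 := fun u => by
    have := LinearMap.congr_fun (congrArg (kap hT) fr.one) (x (T u p'))
    simp only [map_add, map_smul, map_one, LinearMap.add_apply, LinearMap.smul_apply,
      End.one_apply, kap_eq, xx, rk, hT.mp_smulRight'] at this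
    simp only [hy, LinearMap.sub_apply, LinearMap.add_apply, End.mul_apply, kap_apply, wd_apply,
      xx, rk_apply, fr.hpp, fr.h2', one_smul, zero_smul, sub_zero, LinearMap.smul_apply, cp_apply]
    rw [sub_eq_zero]
    exact this.symm.trans (by abel)
  have h6 : ∀ u w, y (T u w) = 0 → y (T u (wd f δ p w)) = 0 := fun u w hw => by
    simpa [hw] using LinearMap.congr_fun h4.eq (T u w)
  have h7 : ∀ u, y (T u δ) = 0 := fun u => by simpa [wd_apply, fr.hpp, fr.h2'] using h6 u _ (h5 u)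
  exact hT.ext fun u w => LinearMap.congr_fun (fr.ext (x := y ∘ₗ T u) (y := 0)
    (by simpa [wd_apply, fr.h1, fr.hδ] using h6 u _ (h7 u)) (h5 u) (h7 u)) w

theorem dec2 (e : Commute x (kap hT (wd f δ p))) (e' : Commute x (kap hT (xx f δ δ))) :
    ∃ a c, InC T a ∧ InC T c ∧ x = a + c * kap hT (xx f p p) := by
  obtain ⟨a, b, c, ha, hb, hc, rfl⟩ := fr.dec3 hT e
  obtain rfl : b = 0 := hb.eq_zero_of_mul hT (b := xx f δ δ * wd f δ p - wd f δ p * xx f δ δ)
    (fun h0 => by
      have := congrArg (f δ) (LinearMap.congr_fun h0 p')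
      simp [wd_apply, fr.hpp, fr.h2', fr.hδ] at this) (by
    have := e'.eq
    simp only [add_mul, mul_add, ← mul_assoc, ha.comm_kap hT, hb.comm_kap hT, hc.comm_kap hT] at this
    simp only [mul_assoc, ← map_mul, xx_mul, fr.h1, fr.h1', zero_smul, map_zero, mul_zero] at this
    rw [map_sub, mul_sub, sub_eq_zero]
    simpa using this.symm)
  exact ⟨a, c, ha, hc, by simp⟩

theorem comm_ev (ha : InC T a) (hc : InC T c) :
    Commute (a + c * kap hT (xx f p p)) (kap hT (xx f δ δ)) :=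
  .add_left (ha.comm_kap hT _).symm (.mul_left (hc.comm_kap hT _).symm (by
    simp [Commute, SemiconjBy, ← map_mul, xx_mul, fr.h1, fr.h1']))

theorem comm_comp (ha : InC T a) (hc : InC T c) (hm : InC T m)
    (e : Commute (a + c * kap hT (xx f p p)) m) : Commute a m ∧ Commute c m := by
  have := fr.uniq hT ((ha.mul hm).sub (hm.mul ha)) InC.zero ((hc.mul hm).sub (hm.mul hc)) (by
    have := e.eq
    rw [add_mul, mul_add, mul_assoc, hm.comm_kap hT] at this
    rw [zero_mul, add_zero, sub_mul, mul_assoc, mul_assoc]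
    linear_combination (norm := abel) this)
  exact ⟨sub_eq_zero.1 this.1, sub_eq_zero.1 this.2.2⟩

theorem comm_rad (e : Commute x (kap hT (wd f δ p))) {g : W ≃ₗ[F] W}
    (hg : g ∈ Rad f (span F {p})) : Commute x (ug hT g) := by
  obtain ⟨s, hs⟩ := fr.rad_eq hg
  simp only [coe_ug, hs, map_sub, map_add, map_smul, map_one]
  exact ((Commute.one_right _).add_right (e.smul_right _)).sub_right ((fr.comm_xx hT e).smul_right _)

theorem comm_of_rad {g : W ≃ₗ[F] W} {s : F} (h0 : s ≠ 0)
    (hs : (g : End F W) = 1 + s • wd f δ p - (s ^ 2 * f δ δ / 2) • xx f p p)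
    (e : Commute x (ug hT g)) : Commute x (kap hT (wd f δ p)) := by
  have h1 : Commute x (kap hT (g - 1)) := by
    rw [map_sub, map_one, ← coe_ug]; exact e.sub_right (.one_right _)
  have := (h1.sub_right ((h1.mul_right h1).smul_right (2⁻¹ : F))).smul_right s⁻¹
  rw [← map_mul, ← map_smul, ← map_sub, ← map_smul] at this
  refine (congrArg (fun y => Commute x (kap hT y)) ?_).mp this
  have := fr.os.two
  rw [show (g : End F W) - 1 = s • wd f δ p - (s ^ 2 * f δ δ / 2) • xx f p p by rw [hs]; abel]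
  simp only [sub_mul, mul_sub, smul_mul_assoc, mul_smul_comm, fr.sq, fr.wd_xx, fr.xx_wd, xx_mul,
    fr.hp]
  match_scalars <;> field_simp
  ring

end Fr

theorem tensG_of_cj (hT : IsTens T) {g : V ≃ₗ[F] V} (e : ∀ a, InE T a → InE T (cj g a)) :
    g ∈ tensG T := by
  choose θ hθ using fun b => (e _ (inE_kap hT b)).exists_kap hT
  have inj : Function.Injective (kap hT) :=
    (injective_iff_map_eq_zero _).2 fun b hb => by_contra fun h0 => kap_ne_zero hT h0 hb
  let Θ : End F W →ₐ[F] End F W := AlgHom.ofLinearMap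
    { toFun := θ, map_add' := fun a b => inj (by simp only [← hθ, map_add])
      map_smul' := fun c a => inj (by simp only [← hθ, map_smul, RingHom.id_apply]) }
    (inj (by simp [← hθ])) fun a b => inj (by simp [← hθ])
  have h1 : Function.Injective Θ := fun a b hab =>
    inj ((cj g).injective (by rw [hθ, hθ]; exact congrArg _ hab))
  obtain ⟨b, hb⟩ := (AlgEquiv.ofBijective Θ ⟨h1, (LinearMap.injective_iff_surjective
    (f := Θ.toLinearMap)).1 h1⟩).eq_linearEquivConjAlgEquiv
  have h2 : InC T (((ug hT b)⁻¹ * g : V ≃ₗ[F] V) : End F V) := inC_of_comm hT fun a ha => by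
    obtain ⟨a, rfl⟩ := ha.exists_kap hT
    have h3 : cj ((ug hT b)⁻¹ * g) (kap hT a) = kap hT a := by
      rw [cj_mul, hθ, show θ a = cj b a from DFunLike.congr_fun hb a, ← cj_ug_kap, cj_inv_cj]
    exact LinearMap.ext fun y => by simpa using LinearMap.congr_fun h3.symm (((ug hT b)⁻¹ * g) y)
  simpa using mul_mem (ug_mem hT b) (tensG_of_inC hT (x := (ug hT b)⁻¹ * g) (fun z => by simp)
    (h2.sub inC_one))

/-- An involution with small fixed space which preserves the decomposition. -/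
theorem inE_of_invol (hT : IsTens T) (h2 : (2 : F) ≠ 0) (hW : finrank F W = 3) {z : V ≃ₗ[F] V}
    (hz : z ∈ tensG T) (hz2 : z * z = 1) (hr : finrank F (ker ((z : End F V) - 1)) = finrank F U) :
    InE T (z : End F V) ∨ InC T (z : End F V) := by
  have := hT.finiteDimensional
  obtain ⟨a, b, rfl⟩ := hT.mem_tensG.1 hz
  obtain ⟨x₀, hx₀⟩ := exists_ne (0 : U)
  obtain ⟨y₀, hy₀⟩ := exists_ne (0 : W)
  obtain ⟨ξ, hξ⟩ := Module.Projective.exists_dual_eq_one F hx₀
  have h0 : ∀ x y, T (a (a x)) (b (b y)) = T x y := fun x y => by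
    simpa using congrArg (· (T x y)) hz2
  have h1 : ∀ y, ξ (a (a x₀)) • b (b y) = y := fun y => by
    simpa [hξ] using congrArg (hT.cL ξ) (h0 x₀ y)
  generalize ξ (a (a x₀)) = l at h1
  have h3 := congrArg LinearMap.det (show l • ((b : End F W) * b) = 1 from LinearMap.ext h1)
  rw [LinearMap.det_smul, map_mul, hW, map_one] at h3
  set ν := l ^ 2 * LinearMap.det (b : End F W)
  have hν : ν * ν = l := by linear_combination l * h3
  have hν0 : ν ≠ 0 := fun h4 => by rw [← hν, h4] at h3; simp at h3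
  set a' : End F U := ν⁻¹ • (a : End F U)
  set b' : End F W := ν • (b : End F W)
  have hb : ∀ y, b' (b' y) = y := fun y => by simp [b', smul_smul, hν, h1]
  have e : (hT.mpE a b : End F V) = hT.mp a' b' := hT.ext fun x y => by
    simp [a', b', smul_smul, hν0]
  have ha : ∀ x, a' (a' x) = x := fun x => hT.injective' hy₀ (by
    have := congrArg (· (T x y₀)) hz2
    simp only [LinearEquiv.mul_apply, ← LinearEquiv.coe_coe (hT.mpE a b), e] at this
    simpa [hb] using this)
  have h4 := finrank_ker_add h2 ha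
  have h5 := finrank_ker_add h2 hb
  have h6 : ker (hT.mp a' b' - 1) =
      map₂ T (ker (a' - 1)) (ker (b' - 1)) ⊔ map₂ T (ker (a' + 1)) (ker (b' + 1)) := by
    refine le_antisymm (fun t ht => ?_) (sup_le (map₂_le.2 fun x hx y hy => ?_)
      (map₂_le.2 fun x hx y hy => ?_))
    · have h7 : hT.mp (1 + a') (1 + b') t + hT.mp (1 - a') (1 - b') t = (2 * 2 : F) • t := by
        simp only [hT.mp_add_left, hT.mp_add_right, hT.mp_sub_left, hT.mp_sub_right, hT.mp_one,
          LinearMap.add_apply, LinearMap.sub_apply, End.one_apply,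
          show hT.mp a' b' t = t from sub_eq_zero.1 ht]
        module
      rw [← smul_mem_iff _ (mul_ne_zero h2 h2), ← h7]
      exact add_mem_sup
        (hT.mp_mem (A := ⊤) (B := ⊤) (fun x _ => by simp [ha, add_comm])
          (fun x _ => by simp [hb, add_comm]) (hT.span ▸ mem_top))
        (hT.mp_mem (A := ⊤) (B := ⊤) (fun x _ => by simp [ha]) (fun x _ => by simp [hb])
          (hT.span ▸ mem_top))
    · simp [show a' x = x from sub_eq_zero.1 hx, show b' y = y from sub_eq_zero.1 hy]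
    · simp [show a' x = -x from eq_neg_of_add_eq_zero_left hx,
        show b' y = -y from eq_neg_of_add_eq_zero_left hy]
  have h7 : map₂ T (ker (a' - 1)) (ker (b' - 1)) ⊓ map₂ T (ker (a' + 1)) (ker (b' + 1)) = ⊥ := by
    refine eq_bot_iff.2 fun t ⟨h7, h8⟩ => hT.eq_zero_of_cR fun η => ?_
    have h9 := hT.cR_mem h7 η
    have h10 := hT.cR_mem h8 η
    simp only [LinearMap.mem_ker, LinearMap.sub_apply, LinearMap.add_apply, End.one_apply] at h9 h10
    exact (smul_eq_zero.1 (show (2 : F) • hT.cR η t = 0 by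
      linear_combination (norm := module) h10 - h9)).resolve_left h2
  have h8 := finrank_sup_add_finrank_inf_eq (map₂ T (ker (a' - 1)) (ker (b' - 1)))
    (map₂ T (ker (a' + 1)) (ker (b' + 1)))
  rw [h7, ← h6, ← e, hr, finrank_bot, hT.finrank_map₂, hT.finrank_map₂] at h8
  have k1 : ∀ {c : End F U}, finrank F (ker c) = finrank F U → c = 0 := fun hc =>
    LinearMap.ker_eq_top.1 (eq_top_of_finrank_eq hc)
  have k2 : ∀ {c : End F W}, finrank F (ker c) = finrank F W → c = 0 := fun hc =>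
    LinearMap.ker_eq_top.1 (eq_top_of_finrank_eq hc)
  rw [e]
  obtain h10 | h10 | h10 | h10 : finrank F (ker (b' - 1)) = 0 ∨ finrank F (ker (b' - 1)) = 1 ∨
    finrank F (ker (b' + 1)) = 1 ∨ finrank F (ker (b' + 1)) = 0 := by omega
  · rw [eq_neg_of_add_eq_zero_left (k2 (c := b' + 1) (by omega)), hT.mp_neg_right]
    exact Or.inr (inC_mp hT _).neg
  · rw [show finrank F (ker (b' + 1)) = 2 by omega, h10] at h8
    rw [sub_eq_zero.1 (k1 (c := a' - 1) (by omega))]
    exact Or.inl (inE_mp hT _)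
  · rw [show finrank F (ker (b' - 1)) = 2 by omega, h10] at h8
    rw [eq_neg_of_add_eq_zero_left (k1 (c := a' + 1) (by omega)), hT.mp_neg_left]
    exact Or.inl (inE_mp hT _).neg
  · rw [sub_eq_zero.1 (k2 (c := b' - 1) (by omega))]
    exact Or.inr (inC_mp hT _)

theorem isom_of_ug (t : TF T h 1 f 1 β) {g : W ≃ₗ[F] W} (hg : ug t.hT g ∈ isomGroup β) :
    g ∈ isomGroup f := fun y y' => by
  obtain ⟨x, x', hx⟩ := t.hf.exists_ne_pair
  simpa only [ug_apply, t.tens, hx, one_mul] using iso hg (T x y) (T x' y')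

theorem ug_inj (hT : IsTens T) : Function.Injective (ug hT) := fun a b e => by
  obtain ⟨x, hx⟩ := exists_ne (0 : U)
  exact LinearEquiv.ext fun y => hT.injective hx (by simpa using congrArg (· (T x y)) e)

theorem exists_ug (hT : IsTens T) {k : V ≃ₗ[F] V} (hk : InE T (k : End F V)) :
    ∃ g, k = ug hT g :=
  let ⟨g, e⟩ := mem_tensG_of_inE hT hk; ⟨g, hT.extE fun u w => by simp [e]⟩

/-- A unipotent element stabilising the decomposition and `U ⊗ v` acts on the first factor. -/
theorem inC_of_pow (t : TF T h 1 f 1 β) (h2 : (2 : F) ≠ 0) (hW : finrank F W = 3) (q : ℕ)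
    [Fact q.Prime] [CharP F q] {k : V ≃ₗ[F] V} (hk : k ∈ tensG T) (hk' : k ∈ isomGroup β)
    (hp : k ^ q = 1) (hv : f v v ≠ 0) (e : ∀ x, ∃ y, k (T x v) = T y v) : InC T (k : End F V) := by
  have hv0 : v ≠ 0 := fun h0 => by simp [h0] at hv
  obtain ⟨x, x', hx⟩ := t.hf.exists_ne_pair
  have hx0 : x ≠ 0 := fun h0 => by simp [h0] at hx
  obtain ⟨a, b, rfl, hb⟩ : ∃ a b, k = t.hT.mpE a b ∧ b v = v := by
    obtain ⟨a, b, rfl⟩ := t.hT.mem_tensG.1 hk
    obtain ⟨y, hy⟩ := e (a.symm x')
    have h1 : b v = h x y • v := by simpa [hx] using congrArg (t.c x) hy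
    have h2 : h x y ≠ 0 := fun h0 => hv0 (b.map_eq_zero_iff.1 (by rw [h1, h0, zero_smul]))
    exact ⟨a.trans (.smulOfNeZero F U _ h2), b.trans (.smulOfNeZero F W _ (inv_ne_zero h2)),
      t.hT.extE fun x y => by simp [smul_smul, h2], by simp [h1, smul_smul, h2]⟩
  have h1 : ∀ y y', h (a x) (a x') * f (b y) (b y') = f y y' := fun y y' => by
    simpa only [IsTens.mpE_apply, t.tens, hx, one_mul] using iso hk' (T x y) (T x' y')
  have h0 : h (a x) (a x') = 1 := mul_right_cancel₀ hv (by simpa [hb] using h1 v v)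
  have h3 : ∀ y z, T ((a ^ q) y) ((b ^ q) z) = T y z := fun y z => by
    simpa using congrArg (· (T y z)) ((map_pow t.hT.mpHom (a, b) q).trans hp)
  have h4 : (b ^ q) v = v := (MulAction.stabilizer (W ≃ₗ[F] W) v).pow_mem hb q
  have h5 : (a ^ q) x = x := t.hT.injective' hv0 (by simpa [h4] using h3 x v)
  rw [t.hh.eq_one_of_pow q h2 hW hv (fun y y' => by simpa [h0] using h1 y y') hb
    (LinearEquiv.ext fun y => t.hT.injective hx0 (by simpa [h5] using h3 x y))]
  exact ⟨a, by simp⟩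

theorem fix_iff (hT : IsTens T) (h2 : (2 : F) ≠ 0) {z : W ≃ₗ[F] W} (hz : IsNr f v z)
    (hv : f v v ≠ 0) {y : V} : ug hT z y = y ↔ ∃ u, T u v = y := by
  refine ⟨fun e => ⟨hT.cR ((f v v)⁻¹ • f v) y, smul_right_injective V h2 ?_⟩, ?_⟩
  · have := LinearMap.congr_fun (coe_ug hT z) y
    simp only [hz.coe, map_sub, map_smul, map_one, LinearEquiv.coe_coe, e, LinearMap.sub_apply,
      LinearMap.smul_apply, End.one_apply, kap_eq, xx, rk, hT.mp_smulRight'] at this
    simp only [IsTens.cR, IsTens.cL_smul, LinearMap.smul_apply, map_smul] at this ⊢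
    linear_combination (norm := module) -this
  · rintro ⟨u, rfl⟩
    simp [hz.self hv]

theorem finrank_fix (hT : IsTens T) (h2 : (2 : F) ≠ 0) {z : W ≃ₗ[F] W} (hz : IsNr f v z)
    (hv : f v v ≠ 0) (g : V ≃ₗ[F] V) :
    finrank F (ker (((g * ug hT z * g⁻¹ : V ≃ₗ[F] V) : End F V) - 1)) = finrank F U := by
  rw [← LinearMap.finrank_range_of_inj (f := (g : End F V) ∘ₗ T.flip v)
    (g.injective.comp (hT.flip.injective (by rintro rfl; simp at hv)))]
  congr 3
  all_goals
    ext y
    obtain ⟨y, rfl⟩ := g.surjective y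
    simp [sub_eq_zero, fix_iff hT h2 hz hv]

theorem inL_inj (hT : IsTens T) : Function.Injective hT.inL := fun _ _ e =>
  hT.mp_injective_left one_ne_zero e

theorem exists_proj (hT : IsTens T) (hT' : IsTens T') (hc : Comm T T') {η : Dual F W}
    (hη : η v = 1) : ∃ a : End F U, (∀ y, hT'.mp a 1 y = T (hT.cR η y) v) ∧ (∀ u, a (a u) = a u) ∧
      range (T.flip v) = map₂ T' (range a) ⊤ ∧ finrank F U = finrank F (range a) * finrank F W := by
  have hv0 : v ≠ 0 := fun h0 => by simp [h0] at hη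
  obtain ⟨a, ha⟩ := (inC_iff hT').1 (hc.symm.inC hT' (inE_kap hT (rk v η)))
  have h1 : ∀ y, hT'.mp a 1 y = T (hT.cR η y) v := fun y => by
    simp [← ha, kap_eq, rk, hT.mp_smulRight']
  have h4 : range (T.flip v) = map₂ T' (range a) ⊤ := by
    rw [← LinearMap.range_id, ← End.one_eq_id, ← hT'.range_mp]
    ext y
    exact ⟨fun ⟨u, hu⟩ => ⟨T u v, by simp [h1, hη, ← hu]⟩, fun ⟨u, hu⟩ => ⟨_, (h1 u).symm.trans hu⟩⟩
  refine ⟨a, h1, fun u => hT'.injective' hv0 ?_, h4, ?_⟩
  · simpa [hη, ha] using LinearMap.congr_fun (congrArg (kap hT) (rk_mul v v η η)) (T' u v)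
  · simpa only [hT'.finrank_map₂, finrank_top, LinearMap.finrank_range_of_inj
      (hT.flip.injective hv0)] using congrArg (fun S : Submodule F V => finrank F S) h4

/-- Restriction of a commuting decomposition to `U ⊗ v`. -/
theorem exists_res (t : TF T h 1 f 1 β) (t' : TF T' h' 1 f 1 β) (hc : Comm T T') (h2 : (2 : F) ≠ 0)
    (hv : f v v ≠ 0) {U' : Type*} [AddCommGroup U'] [Module F U'] [FiniteDimensional F U']
    (hd : finrank F U' * finrank F W = finrank F U) : ∃ (S : U' →ₗ[F] W →ₗ[F] U)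
      (k : U' →ₗ[F] U' →ₗ[F] F) (s : TF S k 1 f 1 h), ∀ b, kap t'.hT b = t.hT.inL (kap s.hT b) := by
  have hv0 : v ≠ 0 := fun h0 => by simp [h0] at hv
  set η : Dual F W := (f v v)⁻¹ • f v
  obtain ⟨a, h1, h3, h4, h5⟩ := exists_proj t.hT t'.hT hc (show η v = 1 by simp [η, hv])
  replace h5 : finrank F U' = finrank F (range a) :=
    Nat.eq_of_mul_eq_mul_right finrank_pos (hd.trans h5)
  obtain ⟨e⟩ := FiniteDimensional.nonempty_linearEquiv_of_finrank_eq h5
  let ι : U' →ₗ[F] U := (range a).subtype ∘ₗ e.toLinearMap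
  let S : U' →ₗ[F] W →ₗ[F] U := T'.compr₂ (t.hT.cR η) ∘ₗ ι
  have key : ∀ u w, T (S u w) v = T' (ι u) w := fun u w => by
    obtain ⟨y, hy⟩ := (e u).2
    have : ι u = a y := hy.symm
    simpa [h3, this, S] using (h1 (T' (a y) w)).symm
  have h6 : Function.Surjective (TensorProduct.lift S) := fun y => by
    obtain ⟨y', h7, h8⟩ : T y v ∈ (range (TensorProduct.lift S)).map (T.flip v) :=
      (h4.le.trans (map₂_le.2 fun u hu w _ => mem_map.2 ⟨S (e.symm ⟨u, hu⟩) w,
        LinearMap.mem_range.2 ⟨e.symm ⟨u, hu⟩ ⊗ₜ w, rfl⟩, by simpa [ι] using key (e.symm ⟨u, hu⟩) w⟩)) ⟨y, rfl⟩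
    exact t.hT.injective' hv0 h8 ▸ h7
  have hS : IsTens S := ⟨(LinearMap.injective_iff_surjective_of_finrank_eq_finrank
    (by rw [finrank_tensorProduct, hd])).2 h6, h6⟩
  have h7 : ∀ x y x' y', h (S x y) (S x' y') =
      ((f v v)⁻¹ • h'.compl₁₂ ι ι) x x' * f y y' := fun x y x' y' => mul_right_cancel₀ hv (by
    rw [← t.tens, key, key, t'.tens]
    simp only [LinearMap.smul_apply, LinearMap.compl₁₂_apply, smul_eq_mul]
    field_simp)
  refine ⟨S, _, ⟨hS, ⟨fun _ => rfl, one_mul _, fun u u' => by simp [t'.hf.symm (ι u)],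
    fun u hu => (hS.eq_zero_iff.1 (t.hf.sep (S u v) fun y => ?_)).resolve_right hv0,
    fun u => ⟨_ / 2, by rw [one_mul, RingHom.id_apply, ← two_mul, mul_div_cancel₀ _ h2]⟩⟩, t.hh, h7⟩,
    fun b => ?_⟩
  · exact LinearMap.congr_fun (hS.ext (a := h (S u v)) (b := 0) fun x y => by rw [h7, hu, zero_mul]; rfl) y
  · obtain ⟨m, hm⟩ := (inC_iff t.hT).1 (hc.inC t.hT (inE_kap t'.hT b))
    rw [hm, show m = kap hS b from hS.ext fun x y => t.hT.injective' hv0 (by
      have := LinearMap.congr_fun hm (T (S x y) v)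
      rw [IsTens.mp_apply, key] at this
      simpa [key] using this.symm)]
    rfl

end Cfsg.Lib.Class.WrO
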