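import Cfsg.Agent.Class.WrO.G3c

/-!
Overgroups of the stabiliser of a tensor power of an orthogonal 3-space: unipotent elements
centralising a half turn and root elements of the other factors.
-/

set_option autoImplicit false
set_option linter.unusedSectionVars false

namespace Cfsg.Lib.Class.WrO

open Module Submodule Tens Tn FE AO Form Wr
open LinearMap (range ker)

theorem exists_comm_pow {G ι : Type*} [Group G] [Finite G] {q : ℕ} [Fact q.Prime] {u : ι → G}
    (hu : ∀ i, u i ^ q = 1) (hc : ∀ i j, Commute (u i) (u j)) (s : Finset ι) :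
    ∀ Q : Subgroup G, (∀ i, ∀ x ∈ Q, u i * x * (u i)⁻¹ ∈ Q) → q ∣ Nat.card Q →
      ∃ x ∈ Q, x ≠ 1 ∧ x ^ q = 1 ∧ ∀ i ∈ s, Commute x (u i) := by
  classical
  induction s using Finset.induction_on with
  | empty =>
    intro Q _ hd
    obtain ⟨⟨x, hx⟩, h⟩ := exists_prime_orderOf_dvd_card' q hd
    replace h : orderOf x = q := (Subgroup.orderOf_coe _).trans h
    exact ⟨x, hx, by rintro rfl; exact (Fact.out : q.Prime).one_lt.ne (orderOf_one.symm.trans h),
      h ▸ pow_orderOf_eq_one x, by simp⟩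
  | insert l s _ ih =>
    intro Q hQ hd
    have h1 : ∀ {x}, x ∈ Subgroup.centralizer (Subgroup.zpowers (u l) : Set G) ↔ Commute x (u l) :=
      ⟨fun h => (h _ (Subgroup.mem_zpowers _)).symm, fun h _ ⟨n, hn⟩ => hn ▸ (h.zpow_right n).symm⟩
    obtain ⟨x, hx, h2, h3, h4⟩ := ih (Q ⊓ Subgroup.centralizer (Subgroup.zpowers (u l) : Set G))
      (fun i x hx => ⟨hQ i x hx.1, h1.2 (((hc i l).mul_left (h1.1 hx.2)).mul_left (hc i l).inv_left)⟩)
      (((Solv.card_modEq_card_inf_centralizer (by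
        rintro ⟨_, n, rfl⟩
        have : (u l ^ n) ^ q = 1 := by rw [← zpow_natCast, zpow_comm, zpow_natCast, hu, one_zpow]
        exact ⟨1, Subtype.ext (by simpa using this)⟩) (Subgroup.zpowers_le.2
          (Subgroup.mem_normalizer_fintype (hQ l)))).dvd_iff dvd_rfl).1 hd)
    exact ⟨x, hx.1, h2, h3, by simpa [h1.1 hx.2] using h4⟩

theorem comm_of_odd {R : Type*} [Monoid R] {x J d : R} {n : ℕ} (hn : Odd n) (hp : x ^ n = 1)
    (h4 : Commute d x) (h5 : Commute d J) (h6 : J * x = x * d * J) (h9 : J * J * J = J) :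
    Commute x J := by
  obtain ⟨k, rfl⟩ := hn
  have h7 : ∀ m : ℕ, J * x ^ m = x ^ m * d ^ m * J := fun m => by
    induction m with
    | zero => simp
    | succ m ih =>
      rw [pow_succ, ← mul_assoc, ih, mul_assoc, h6, ← mul_assoc, ← mul_assoc, mul_assoc _ _ x,
        (h4.pow_left m).eq, pow_succ d]
      simp only [mul_assoc]
  have h8 : d * d * (d * J) = d * J := by
    have : x * (d * d * (d * (J * J * J))) = J * J * J * x := by
      simp only [mul_assoc, h6, ← mul_assoc J x, h5.symm.left_comm]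
    rw [h9, h6, mul_assoc x] at this
    simpa only [← mul_assoc, ← pow_succ, hp, one_mul] using congrArg (x ^ (2 * k) * ·) this
  have h10 : ∀ k, d ^ (2 * k + 1) * J = d * J := fun k => by
    induction k with
    | zero => simp
    | succ k ih =>
      rw [show 2 * (k + 1) + 1 = 2 * k + 1 + 1 + 1 by ring, pow_succ', pow_succ', mul_assoc,
        mul_assoc, ih, ← mul_assoc, h8]
  have h11 := h7 (2 * k + 1)
  rw [hp, mul_one, one_mul, h10] at h11
  rw [mul_assoc, ← h11] at h6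
  exact h6.symm

variable {F U W V : Type*} [Field F] [AddCommGroup U] [Module F U] [AddCommGroup W] [Module F W]
  [AddCommGroup V] [Module F V] [FiniteDimensional F U] [FiniteDimensional F W] [Nontrivial U]
  [Nontrivial W] {f : W →ₗ[F] W →ₗ[F] F} {β : V →ₗ[F] V →ₗ[F] F} {p p' δ v : W}
  {z : W ≃ₗ[F] W} {x : V ≃ₗ[F] V}

theorem comm_coe {y : V ≃ₗ[F] V} : Commute (x : End F V) y ↔ Commute x y :=
  ⟨fun h => LinearEquiv.toLinearMap_injective h, fun h => congrArg LinearEquiv.toLinearMap h⟩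

theorem comm_inv {m : End F V} (h : Commute (x : End F V) m) :
    Commute ((x⁻¹ : V ≃ₗ[F] V) : End F V) m :=
  LinearMap.ext fun y => by simpa using congrArg x.symm (LinearMap.congr_fun h.symm (x.symm y))

theorem coe_inv_mul (x : V ≃ₗ[F] V) : ((x⁻¹ : V ≃ₗ[F] V) : End F V) * x = 1 := by ext; simp

theorem coe_mul_inv (x : V ≃ₗ[F] V) : (x : End F V) * ((x⁻¹ : V ≃ₗ[F] V) : End F V) = 1 := by
  ext; simp

theorem coe_conj (g x : V ≃ₗ[F] V) : ((g * x * g⁻¹ : V ≃ₗ[F] V) : End F V) = cj g x := rfl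

theorem coe_pow (x : V ≃ₗ[F] V) (n : ℕ) : ((x ^ n : V ≃ₗ[F] V) : End F V) = (x : End F V) ^ n :=
  map_pow LinearEquiv.automorphismGroup.toLinearMapMonoidHom x n

theorem Fr.uniq' {T : U →ₗ[F] W →ₗ[F] V} (fr : Fr f p p' δ) (hT : IsTens T)
    {a b c a' b' c' : End F V} (ha : InC T a) (hb : InC T b) (hc : InC T c) (ha' : InC T a')
    (hb' : InC T b') (hc' : InC T c') (e : a + b * kap hT (wd f δ p) + c * kap hT (xx f p p) =
      a' + b' * kap hT (wd f δ p) + c' * kap hT (xx f p p)) : b = b' :=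
  sub_eq_zero.1 (fr.uniq hT (ha.sub ha') (hb.sub hb') (hc.sub hc') (by
    rw [← sub_eq_zero.2 e, sub_mul, sub_mul]; abel)).2.1

theorem Fr.mul_rad {T : U →ₗ[F] W →ₗ[F] V} (fr : Fr f p p' δ) (hT : IsTens T)
    (a b c : End F V) (r k : F) :
    (a + b * kap hT (wd f δ p) + c * kap hT (xx f p p)) * kap hT (1 + r • wd f δ p - k • xx f p p) =
      a + (b + r • a) * kap hT (wd f δ p) + (c - k • a - (f δ δ * r) • b) * kap hT (xx f p p) := by
  simp only [add_mul, sub_mul, mul_assoc, ← map_mul, mul_add, mul_sub, mul_smul_comm, fr.sq,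
    fr.wd_xx, fr.xx_wd, xx_mul, fr.hp, mul_one, smul_mul_assoc]
  simp only [map_add, map_sub, map_smul, map_one, mul_add, mul_sub, mul_smul_comm, mul_one,
    map_zero, mul_zero]
  module

/-- A frame together with a torus element adapted to `v`. -/
def Gd (f : W →ₗ[F] W →ₗ[F] F) (v p p' δ : W) : Prop :=
  Fr f p p' δ ∧ ∃ (s : F) (g : W ≃ₗ[F] W), s ^ 2 ≠ 1 ∧ g ∈ isomGroup f ∧ g p = s • p ∧
    (g ∈ OG f ∨ δ = v ∧ g δ = δ ∧ g p' = s⁻¹ • p')

theorem F3.exists_gd [Finite F] {d : F} {a b : W} (h : F3 f d v a b) (h4 : 4 ≤ Nat.card F) :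
    ∃ p p' δ, Gd f v p p' δ := by
  obtain ⟨t, ht0, ht⟩ := exists_sq_ne_one h4
  by_cases h1 : ∃ s : F, s * s = -1
  · obtain ⟨s, hs⟩ := h1
    obtain ⟨g, hg, -, e1, e2, e3⟩ := (h.fr hs).exists_tor ht0
    exact ⟨_, _, _, h.fr hs, t, g, ht, hg, e1, Or.inr ⟨rfl, e3, e2⟩⟩
  · obtain ⟨p, hp0, hp⟩ := h.os.exists_iso
    obtain ⟨p', δ, fr⟩ := h.os.exists_fr h.three hp0 hp
    obtain ⟨g, hg, e0, e1, -⟩ := fr.exists_tor ht0
    refine ⟨_, _, _, fr, t * t, g * g, fun e => ?_, mul_mem hg hg, by simp [e1, smul_smul],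
      Or.inl e0⟩
    rcases mul_self_eq_one_iff.1 ((pow_two _).symm.trans e) with e | e
    exacts [ht ((pow_two t).trans e), h1 ⟨t, e⟩]

variable {τ : Type*} [Fintype τ] {T : τ → U →ₗ[F] W →ₗ[F] V} {h : τ → U →ₗ[F] U →ₗ[F] F}
  {X : Subgroup (V ≃ₗ[F] V)} {i j l : τ}

theorem inE_of_forall (t : TP T) {y : End F V} (H : ∀ l, l ≠ i → InC (T l) y) : InE (T i) y := by
  obtain ⟨b, rfl⟩ := t.mem_of_kap (M := range (kap (t.tens i)).toLinearMap) ⟨1, map_one (kap _)⟩
    (by rintro _ ⟨a, rfl⟩ _ ⟨b, rfl⟩; exact ⟨a * b, map_mul (kap _) _ _⟩) (· ≠ i)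
    (fun k hk b => by obtain rfl := not_not.1 hk; exact ⟨b, rfl⟩) H
  exact inE_kap _ b

theorem kap_inj {T : U →ₗ[F] W →ₗ[F] V} (hT : IsTens T) : Function.Injective (kap hT) :=
  (injective_iff_map_eq_zero _).2 fun _ hb => by_contra fun h0 => kap_ne_zero hT h0 hb

/-- `y` is even in all factors other than `i`. -/
def Ev (t : TP T) (f : W →ₗ[F] W →ₗ[F] F) (p δ : W) (i : τ) (y : End F V) : Prop :=
  ∀ l, l ≠ i → Commute y (kap (t.tens l) (wd f δ p)) ∧ Commute y (kap (t.tens l) (xx f δ δ))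

/-- The hypotheses for a tensor power of a 3-space. -/
structure O3 (T : τ → U →ₗ[F] W →ₗ[F] V) (h : τ → U →ₗ[F] U →ₗ[F] F) (f : W →ₗ[F] W →ₗ[F] F)
    (β : V →ₗ[F] V →ₗ[F] F) (X : Subgroup (V ≃ₗ[F] V)) : Prop extends OC T h f β X where
  three : finrank F W = 3
  big : 4 ≤ Nat.card F
  odd : Odd (finrank F U)
  ge : ∀ i, ∀ g ∈ OG f, ug (tp.tens i) g ∈ X
  l0 : ∀ i, L0 (tp.tens i) f X
  all : tp.AllPerm f X

namespace O3

variable [Finite F] (c : O3 T h f β X)
include c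

theorem finite (i : τ) : Finite (V ≃ₗ[F] V) := by
  have := (c.tp.tens i).finiteDimensional
  have : Finite V := Module.finite_of_finite F
  exact Finite.of_injective _ (DFunLike.coe_injective (F := V ≃ₗ[F] V))

theorem exists_ev (fr : Fr f p p' δ) (hx : x ∈ X) (e : Commute (x : End F V) (kap (c.tp.tens l)
    (wd f δ p))) : ∃ g ∈ Rad f (span F {p}),
      Commute ((x * ug (c.tp.tens l) g : V ≃ₗ[F] V) : End F V) (kap (c.tp.tens l) (xx f δ δ)) := by
  obtain ⟨t, ht0, ht⟩ := exists_sq_ne_one c.big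
  obtain ⟨g, hg, e0, e1, -, e3⟩ := fr.exists_tor ht0
  set hT := c.tp.tens l
  obtain ⟨a, b, d, ha, hb, hd, ex⟩ := fr.dec3 hT e
  obtain ⟨a', b', d', ⟨a', ha'⟩, -, -, ex'⟩ := fr.dec3 hT (comm_inv e)
  have h1 : cj (ug hT (g * g)) x = a + (t ^ 2 • b) * kap hT (wd f δ p) +
      (t ^ 4 • d) * kap hT (xx f p p) := by
    simp only [ex, map_add, map_mul (cj _), ha.cj_ug, hb.cj_ug, hd.cj_ug, cj_ug_kap,
      cj_wd _ _ (mul_mem hg hg), cj_xx _ _ (mul_mem hg hg), LinearEquiv.mul_apply, e1, e3, map_smul,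
      wd_smul_right, xx_smul_left, xx_smul_right, mul_smul_comm, smul_mul_assoc, RingHom.id_apply]
    module
  have h2 : ∀ u y, f p y = 0 → (x⁻¹ * (ug hT (g * g) * x * (ug hT (g * g))⁻¹)) (T l u y) =
      T l u y + ((1 - t ^ 2) * f δ y) • x⁻¹ (b (T l u p)) := fun u y hy => by
    rw [LinearEquiv.mul_apply, ← LinearEquiv.coe_coe (_ * _ * _), coe_conj, h1]
    refine x.injective ?_
    simp only [map_add x, map_smul x, LinearEquiv.coe_inv, LinearEquiv.apply_symm_apply]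
    simp only [← LinearEquiv.coe_coe x, ex, LinearMap.add_apply, End.mul_apply, kap_apply,
      wd_apply, xx, rk_apply, hy, map_sub, map_smul, LinearMap.smul_apply]
    module
  have hX := mul_mem (inv_mem hx) (mul_mem (mul_mem (c.ge l _ e0) hx) (inv_mem (c.ge l _ e0)))
  obtain ⟨k, hk, h3⟩ := c.rad (c.l0 l) (Or.inl c.three) fr.ne fr.hp hX
    ((c.tf l).flip.mem_Rad_JL.2 ⟨c.le hX, fun u => by simpa [fr.h1'] using h2 u p fr.hp, fun v =>
      (c.tf l).flip.ind_orth (P := fun v => ∃ u, (x⁻¹ * (ug hT (g * g) * x *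
        (ug hT (g * g))⁻¹)) v = v + T l u p) ⟨0, by simp⟩ (by
        rintro u v ⟨u', hu⟩ ⟨v', hv⟩
        exact ⟨u' + v', by simp only [map_add, hu, hv, LinearMap.add_apply]; abel⟩)
        fun y u hy => by
          obtain ⟨b, hb⟩ := hb
          refine ⟨((1 - t ^ 2) * f δ y) • a' (b u), (h2 u y hy).trans ?_⟩
          simp [hb, ← LinearEquiv.coe_coe x⁻¹, ex', ha', wd_apply, fr.hp, fr.h1']⟩)
  obtain ⟨r, hr⟩ := fr.rad_eq hk
  have h4 : cj (ug hT (g * g)) x = x * kap hT k := by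
    rw [← coe_ug, ← h3, ← coe_conj, ← LinearEquiv.coe_toLinearMap_mul, mul_inv_cancel_left]
  rw [h1, hr, ex, fr.mul_rad hT] at h4
  have h5 := fr.uniq' hT ha (hb.smul _) (hd.smul _) ha (hb.add (ha.smul r))
    ((hd.sub (ha.smul _)).sub (hb.smul _)) h4
  obtain ⟨k, hk, h6⟩ := fr.exists_rad (r / (1 - t ^ 2))
  refine ⟨k, hk, ?_⟩
  rw [LinearEquiv.coe_toLinearMap_mul, coe_ug, h6, ex, fr.mul_rad hT,
    show b + (r / (1 - t ^ 2)) • a = 0 from smul_right_injective _ (sub_ne_zero.2 ht.symm) (by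
      simp only [smul_add, smul_smul, mul_div_cancel₀ _ (sub_ne_zero.2 ht.symm)]
      linear_combination (norm := module) -h5), zero_mul, add_zero]
  exact fr.comm_ev hT ha ((hd.sub (ha.smul _)).sub (hb.smul _))

theorem skew_ev (fr : Fr f p p' δ) (s : Finset τ) : ∀ y, Ev c.tp f p δ i y → adj β y = -y →
    y * kap (c.tp.tens i) (xx f δ δ) = 0 → (∀ l, l ≠ i → l ∉ s → InC (T l) y) →
      ∃ d, y = d * kap (c.tp.tens i) (wd f p p') ∧ ∀ x, Ev c.tp f p δ i x → Commute d x := by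
  classical
  have := (c.tp.tens i).finiteDimensional
  induction s using Finset.induction_on with
  | empty =>
    intro y _ h2 h3 h4
    obtain ⟨b, rfl⟩ := (inE_of_forall c.tp fun l hl => h4 l hl (by simp)).exists_kap (c.tp.tens i)
    obtain ⟨s, rfl⟩ := fr.skew_eq (x := b) (kap_inj (c.tp.tens i) (by
      rw [← (c.tf i).adj_kap, map_neg]; exact h2)) (by
        rw [← map_mul, map_eq_zero_iff _ (kap_inj _)] at h3
        simpa [fr.hδ] using LinearMap.congr_fun h3 δ)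
    exact ⟨s • 1, by simp, fun x _ => (Commute.one_left x).smul_left s⟩
  | insert l s _ ih =>
    intro y h1 h2 h3 h4
    by_cases hl : l = i
    · exact ih y h1 h2 h3 fun m hm hs => h4 m hm (by simp [hs, hl, hm])
    obtain ⟨a, d, ha, hd, rfl⟩ := fr.dec2 _ (h1 l hl).1 (h1 l hl).2
    have h5 := fun {m} (hm : l ≠ m) b => fr.comm_comp (c.tp.tens l) ha hd (c.tp.inC_kap hm b)
    have h6 := fr.uniq (c.tp.tens l) (((c.tf l).inC_adj ha).add ha) InC.zero
      (((c.tf l).inC_adj hd).add hd) (by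
        rw [(c.hm l).adj_add, (c.hm l).adj_mul, (c.tf l).adj_kap, c.os.hm.adj_xx, one_smul,
          ((c.tf l).inC_adj hd).comm_kap] at h2
        rw [add_mul]
        linear_combination (norm := noncomm_ring) h2)
    have h7 := fr.uniq (c.tp.tens l) (ha.mul (c.tp.inC_kap hl (xx f δ δ))) InC.zero
      (hd.mul (c.tp.inC_kap hl (xx f δ δ))) (by
        rw [add_mul, mul_assoc, (c.tp.inC_kap hl _).comm_kap] at h3
        rwa [zero_mul, add_zero, mul_assoc])
    have h8 : Ev c.tp f p δ i a ∧ Ev c.tp f p δ i d := by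
      refine ⟨fun m hm => ?_, fun m hm => ?_⟩ <;> by_cases h9 : l = m
      · exact h9 ▸ ⟨(ha.comm_kap _ _).symm, (ha.comm_kap _ _).symm⟩
      · exact ⟨(h5 h9 _ (h1 m hm).1).1, (h5 h9 _ (h1 m hm).2).1⟩
      · exact h9 ▸ ⟨(hd.comm_kap _ _).symm, (hd.comm_kap _ _).symm⟩
      · exact ⟨(h5 h9 _ (h1 m hm).1).2, (h5 h9 _ (h1 m hm).2).2⟩
    have h9 : ∀ m, m ≠ i → m ∉ s → InC (T m) a ∧ InC (T m) d := fun m hm hs => by
      by_cases h9 : l = m
      · exact h9 ▸ ⟨ha, hd⟩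
      have := fun b => h5 h9 b ((h4 m hm (by simp [hs, Ne.symm h9])).comm_kap _ b).symm
      constructor <;> refine inC_of_comm (c.tp.tens m) fun b hb => ?_ <;>
        obtain ⟨b, rfl⟩ := hb.exists_kap (c.tp.tens m)
      exacts [(this b).1.symm, (this b).2.symm]
    obtain ⟨a', rfl, ha'⟩ := ih a h8.1 (eq_neg_of_add_eq_zero_left h6.1) h7.1
      fun m hm hs => (h9 m hm hs).1
    obtain ⟨d', rfl, hd'⟩ := ih d h8.2 (eq_neg_of_add_eq_zero_left h6.2.2) h7.2.2
      fun m hm hs => (h9 m hm hs).2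
    exact ⟨a' + d' * kap (c.tp.tens l) (xx f p p), by
      rw [add_mul, mul_assoc, mul_assoc, (c.tp.inC_kap hl _).comm_kap], fun x hx =>
        (ha' x hx).add_left ((hd' x hx).mul_left (fr.comm_xx _ (hx l hl).1).symm)⟩

theorem comm_wd (fr : Fr f p p' δ) (hx : x ∈ X) {n : ℕ} (hn : Odd n) (hp : x ^ n = 1)
    (e : Commute (x : End F V) (kap (c.tp.tens i) (xx f δ δ))) (ev : Ev c.tp f p δ i x) :
    Commute (x : End F V) (kap (c.tp.tens i) (wd f p p')) := by
  have := (c.tp.tens i).finiteDimensional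
  set J := kap (c.tp.tens i) (wd f p p') with hJ
  have h1 : Ev c.tp f p δ i J := fun l hl =>
    ⟨((c.tp.inC_kap hl _).comm_kap _ _).symm, ((c.tp.inC_kap hl _).comm_kap _ _).symm⟩
  obtain ⟨d, h2, h3⟩ := c.skew_ev fr Finset.univ (cj x⁻¹ J) (fun l hl =>
    ⟨((comm_inv (ev l hl).1).mul_left (h1 l hl).1).mul_left (ev l hl).1,
      ((comm_inv (ev l hl).2).mul_left (h1 l hl).2).mul_left (ev l hl).2⟩)
    (by rw [(c.hm i).adj_cj _ (inv_mem (c.le hx)), hJ, (c.tf i).adj_kap, adj_wd c.os.hm, map_neg,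
      map_neg])
    (by rw [← cj_eq_self (comm_inv e).eq, ← map_mul, hJ, ← map_mul]
        simp [wd, sub_mul, xx_mul, fr.h1, fr.h2]) (by simp)
  exact comm_of_odd hn (by rw [← coe_pow, hp]; rfl) (h3 _ ev) (h3 _ h1) (by
    rw [mul_assoc, ← h2, cj_eq_mul, inv_inv, ← mul_assoc, ← mul_assoc, coe_mul_inv, one_mul])
    (by rw [hJ, ← map_mul, ← map_mul, fr.wd_cube])

theorem comm_xx (hz : IsNr f v z) (hv : f v v ≠ 0) {y : End F V}
    (e : Commute y (ug (c.tp.tens i) z)) : Commute y (kap (c.tp.tens i) (xx f v v)) := by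
  have := (e.add_right (.one_right y)).smul_right (2 / f v v)⁻¹
  rwa [coe_ug, hz.coe, map_sub, map_one, sub_add_cancel, map_smul,
    inv_smul_smul₀ (div_ne_zero c.os.two hv)] at this

theorem inC_of_ev (gd : Gd f v p p' δ) (hz : IsNr f v z) (hv : f v v ≠ 0) (hx : x ∈ X) {n : ℕ}
    (hn : Odd n) (hp : x ^ n = 1) (e : Commute x (ug (c.tp.tens i) z)) (ev : Ev c.tp f p δ i x)
    (hl : l ≠ i) : InC (T l) (x : End F V) := by
  obtain ⟨fr, s, g, hs, hg, e1, h1⟩ := gd
  obtain ⟨k, hk, h2⟩ : ∃ k, ug (c.tp.tens l) g * k ∈ X ∧ Commute x k := by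
    rcases h1 with h1 | ⟨rfl, e3, e2⟩
    · exact ⟨1, by simpa using c.ge l g h1, .one_right _⟩
    refine ⟨_, c.pair l i hl g hg, ?_⟩
    have h3 := c.comm_xx hz hv (comm_coe.2 e)
    rw [← ug_inv]
    refine (comm_coe.1 ?_).inv_right
    rw [coe_ug, fr.tor_eq (x := g) e1 e2 e3]
    simp only [map_add, map_smul, map_one]
    exact (((Commute.one_right _).smul_right _).add_right
      ((c.comm_wd fr hx hn hp h3 ev).smul_right _)).add_right (h3.smul_right _)
  set hT := c.tp.tens l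
  obtain ⟨a, d, ha, hd, ex⟩ := fr.dec2 hT (ev l hl).1 (ev l hl).2
  obtain ⟨a', d', ha', -, ex'⟩ := fr.dec2 hT (comm_inv (ev l hl).1) (comm_inv (ev l hl).2)
  have h3 : cj (ug hT g * k) x = x + (s ^ 2 - 1) • d * kap hT (xx f p p) := by
    rw [cj_mul, cj_eq_self (comm_coe.2 h2).symm]
    simp only [ex, map_add, map_mul (cj _), ha.cj_ug, hd.cj_ug, cj_ug_kap, cj_xx _ _ hg, e1,
      map_smul, xx_smul_left, xx_smul_right, mul_smul_comm, smul_mul_assoc, RingHom.id_apply]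
    module
  have h4 : ((x⁻¹ : V ≃ₗ[F] V) : End F V) * ((s ^ 2 - 1) • d * kap hT (xx f p p)) =
      a' * (s ^ 2 - 1) • d * kap hT (xx f p p) := by
    rw [ex', add_mul, mul_xx_sq hT (hd.smul _) fr.hp, add_zero, mul_assoc]
  have h5 := c.l0 l p _ fr.hp (ha'.mul (hd.smul (s ^ 2 - 1))) ⟨_, mul_mem (inv_mem hx)
    (mul_mem (mul_mem hk hx) (inv_mem hk)), fun y => by
      rw [← h4, LinearEquiv.mul_apply, ← LinearEquiv.coe_coe (_ * _ * _), coe_conj, h3]; simp⟩
  have h6 := congrArg ((x : End F V) * ·) (h4.trans h5)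
  simp only [← mul_assoc, coe_mul_inv, one_mul, mul_zero, smul_mul_assoc, smul_eq_zero,
    sub_ne_zero.2 hs, false_or] at h6
  rwa [ex, h6, add_zero]

variable (q : ℕ) [Fact q.Prime] [CharP F q]

theorem eq_one_of_inE (hz : IsNr f v z) (hv : f v v ≠ 0) (hx : x ∈ X) (hp : x ^ q = 1)
    (e : Commute x (ug (c.tp.tens i) z)) (H : InE (T i) (x : End F V)) : x = 1 := by
  obtain ⟨g, rfl⟩ := exists_ug (c.tp.tens i) H
  have h1 := isom_of_ug (c.tf i) (c.le hx)
  have h2 : g ^ q = 1 := ug_inj (c.tp.tens i) ((map_pow (ugH _) g q).trans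
    (hp.trans (map_one (ugH _)).symm))
  have h3 : g * z = z * g := ug_inj (c.tp.tens i) (by rw [ug_mul', ug_mul', e.eq])
  obtain ⟨s, hs⟩ := hz.of_fix c.os.two (w := g v) (by
    rw [← LinearEquiv.mul_apply, ← h3, LinearEquiv.mul_apply, hz.self hv])
  have h4 : s * s = 1 := mul_right_cancel₀ hv (by simpa [hs, mul_assoc] using iso h1 v v)
  rw [eq_one_of_sq_of_odd (odd_char (F := F) q c.os.two) h2 (c.os.hm.eq_one_of_pow q c.os.two
    c.three hv (mul_mem h1 h1) (by simp [hs, smul_smul, h4]) (by rw [← pow_two, ← pow_mul,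
      mul_comm, pow_mul, h2, one_pow]))]
  exact map_one (ugH _)

theorem ug_pow {g : W ≃ₗ[F] W} (hg : g ∈ Rad f (span F {p})) : ug (c.tp.tens l) g ^ q = 1 :=
  (map_pow (ugH _) g q).symm.trans (by rw [pow_char_of_Rad q c.os.two hg, map_one])

theorem inC_of_comm_aux (gd : Gd f v p p' δ) (hz : IsNr f v z) (hv : f v v ≠ 0) (s : Finset τ) :
    ∀ x ∈ X, x ^ q = 1 → Commute x (ug (c.tp.tens i) z) →
      (∀ l, l ≠ i → Commute (x : End F V) (kap (c.tp.tens l) (wd f δ p))) →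
      (∀ l, l ≠ i → l ∉ s → Commute (x : End F V) (kap (c.tp.tens l) (xx f δ δ))) →
      InC (T i) (x : End F V) := by
  classical
  induction s using Finset.induction_on with
  | empty =>
    intro x hx hp e h1 h2
    rw [c.eq_one_of_inE q hz hv hx hp e (inE_of_forall c.tp fun l hl => c.inC_of_ev gd hz hv hx
      (odd_char (F := F) q c.os.two) hp e (fun l hl => ⟨h1 l hl, h2 l hl (by simp)⟩) hl)]
    exact inC_one
  | insert l s _ ih =>
    intro x hx hp e h1 h2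
    by_cases hl : l = i
    · exact ih x hx hp e h1 fun m hm hs => h2 m hm (by simp [hs, hl, hm])
    obtain ⟨g, hg, h3⟩ := c.exists_ev gd.1 hx (h1 l hl)
    have h4 : ∀ {m}, m ≠ l → InC (T m) (ug (c.tp.tens l) g : End F V) := fun hm =>
      coe_ug (c.tp.tens l) g ▸ c.tp.inC_kap hm _
    have h5 := (ih _ (mul_mem hx (c.eich l p gd.1.hp g hg)) (by
      rw [(comm_coe.1 (gd.1.comm_rad _ (h1 l hl) hg)).mul_pow, hp, c.ug_pow q hg, mul_one])
      (e.mul_left (comm_coe.1 (by rw [coe_ug _ z]; exact ((h4 (Ne.symm hl)).comm_kap _ _).symm)))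
      (fun m hm => (h1 m hm).mul_left (by
        by_cases h5 : m = l
        · exact h5 ▸ (gd.1.comm_rad _ rfl hg).symm
        · exact ((h4 h5).comm_kap _ _).symm))
      fun m hm hs => by
        by_cases h5 : m = l
        · exact h5 ▸ h3
        · exact (h2 m hm (by simp [hs, h5])).mul_left ((h4 h5).comm_kap _ _).symm).mul
      (c.tp.inC_kap (Ne.symm hl) (g⁻¹ : W ≃ₗ[F] W))
    rwa [← coe_ug, ← LinearEquiv.coe_toLinearMap_mul, ← ug_inv, mul_inv_cancel_right] at h5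

/-- A subgroup of order divisible by `q` which centralises the half turn and is normalised by root
elements of the other factors contains a nontrivial element acting on the cofactor. -/
theorem exists_inC (gd : Gd f v p p' δ) (hz : IsNr f v z) (hv : f v v ≠ 0)
    {Q : Subgroup (V ≃ₗ[F] V)} (hX : Q ≤ X) (e : ∀ x ∈ Q, Commute x (ug (c.tp.tens i) z))
    (H : ∀ l, l ≠ i → ∀ g ∈ Rad f (span F {p}), ∀ x ∈ Q,
      ug (c.tp.tens l) g * x * (ug (c.tp.tens l) g)⁻¹ ∈ Q) (hd : q ∣ Nat.card Q) :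
    ∃ x ∈ Q, x ≠ 1 ∧ InC (T i) (x : End F V) := by
  classical
  have := c.finite i
  obtain ⟨g, hg, h1⟩ := gd.1.exists_rad 1
  obtain ⟨x, hx, h2, h3, h4⟩ := exists_comm_pow (q := q) (u := fun l : {l // l ≠ i} =>
    ug (c.tp.tens l) g) (fun l => c.ug_pow q hg) (fun l m => by
      by_cases h : l = m
      · rw [h]
      · refine comm_coe.1 ?_
        rw [coe_ug, coe_ug]
        exact (c.tp.inC_kap (Subtype.coe_ne_coe.2 h) _).comm_kap _ _) Finset.univ Q
    (fun l => H l l.2 g hg) hd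
  exact ⟨x, hx, h2, c.inC_of_comm_aux q gd hz hv Finset.univ x (hX hx) h3 (e x hx)
    (fun l hl => gd.1.comm_of_rad _ one_ne_zero h1 (comm_coe.2 (h4 ⟨l, hl⟩ (by simp)))) (by simp)⟩

end O3

end Cfsg.Lib.Class.WrO
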