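import Cfsg.Agent.Class.WrO.G3d

/-!
Overgroups of the stabiliser of a tensor power of an orthogonal 3-space: the centraliser of a half
turn, by restriction to its fixed space.
-/

set_option autoImplicit false
set_option linter.unusedSectionVars false

namespace Cfsg.Lib.Class.WrO

open Module Submodule Tens Tn FE AO Form Wr
open LinearMap (range ker)

variable {F U W V : Type*} [Field F] [AddCommGroup U] [Module F U] [AddCommGroup W] [Module F W]
  [AddCommGroup V] [Module F V] [FiniteDimensional F U] [FiniteDimensional F W] [Nontrivial U]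
  [Nontrivial W] {f : W →ₗ[F] W →ₗ[F] F} {β : V →ₗ[F] V →ₗ[F] F} {p p' δ v : W}
  {z : W ≃ₗ[F] W} {x n : V ≃ₗ[F] V} {X : Subgroup (V ≃ₗ[F] V)}

theorem mem_of_rad [Finite F] (os : OS f) (S : Subalgebra F (End F W))
    (hS : ∀ p, p ≠ 0 → f p p = 0 → ∀ g ∈ Rad f (span F {p}), (g : End F W) ∈ S) (b : End F W) :
    b ∈ S :=
  (eq_top_of_rk (S := S.toSubmodule) fun w φ => os.hm.smulRight_mem os.two os.three S
    (fun p hp g hg => by
      by_cases h0 : p = 0
      · rw [show (g : End F W) = 1 from LinearMap.ext fun y => by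
          simpa [h0] using (mem_Rad_span.1 hg).2.2 y]
        exact S.one_mem
      · exact hS p h0 hp g hg) φ w).ge (mem_top (x := b))

theorem inE_cj_of_rad [Finite F] (os : OS f) {T T' : U →ₗ[F] W →ₗ[F] V} (hT : IsTens T)
    (hT' : IsTens T') (H : ∀ p, f p p = 0 → ∀ g ∈ Rad f (span F {p}),
      ∃ g', x * ug hT g * x⁻¹ = ug hT' g') (b : End F W) : InE T' (cj x (kap hT b)) := by
  obtain ⟨b', hb⟩ := (AlgHom.mem_range _).1 ((Subalgebra.mem_comap _ _ _).1 (mem_of_rad os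
    ((kap hT').range.comap ((cj x).toAlgHom.comp (kap hT))) (fun w _ hw g hg => by
      obtain ⟨g', e⟩ := H w hw g hg
      refine (Subalgebra.mem_comap _ _ _).2 ((AlgHom.mem_range _).2 ⟨g', ?_⟩)
      rw [AlgHom.comp_apply, ← coe_ug, ← coe_ug, ← e, coe_conj]
      rfl) b))
  exact (show kap hT' b' = cj x (kap hT b) from hb) ▸ inE_kap _ b'

section One

variable {T : U →ₗ[F] W →ₗ[F] V} (hT : IsTens T)

/-- The embedding `a ↦ a ⊗ 1`. -/
noncomputable def lf : (U ≃ₗ[F] U) →* (V ≃ₗ[F] V) := hT.mpHom.comp (MonoidHom.inl _ _)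

@[simp] theorem lf_apply (a : U ≃ₗ[F] U) (u : U) (w : W) : lf hT a (T u w) = T (a u) w := by
  simp [lf]

theorem coe_lf (a : U ≃ₗ[F] U) : (lf hT a : End F V) = hT.inL a := hT.ext fun u w => by simp

theorem exists_lf (hx : InC T (x : End F V)) : ∃ a, x = lf hT a :=
  let ⟨b, e⟩ := hx
  let ⟨a, ha⟩ := mem_tensG_of_inE hT.flip (x := x) ⟨b, fun w u => e u w⟩
  ⟨a, hT.extE fun u w => (ha w u).trans (lf_apply hT a u w).symm⟩

theorem cj_lf (a : U ≃ₗ[F] U) (m : End F U) : cj (lf hT a) (hT.inL m) = hT.inL (cj a m) :=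
  hT.ext fun u w => by simp [← map_inv]

theorem comm_lf (a : U ≃ₗ[F] U) (g : W ≃ₗ[F] W) : Commute (lf hT a) (ug hT g) :=
  hT.extE fun u w => by simp

/-- The elements centralising `z` and `U ⊗ v`. -/
def KX (X : Subgroup (V ≃ₗ[F] V)) (v : W) (z : W ≃ₗ[F] W) : Subgroup (V ≃ₗ[F] V) where
  carrier := {x | x ∈ X ∧ Commute x (ug hT z) ∧ ∀ u, x (T u v) = T u v}
  one_mem' := ⟨one_mem _, .one_left _, fun _ => rfl⟩
  mul_mem' ha hb := ⟨mul_mem ha.1 hb.1, ha.2.1.mul_left hb.2.1, fun u => by simp [ha.2.2, hb.2.2]⟩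
  inv_mem' {a} ha := ⟨inv_mem ha.1, ha.2.1.inv_left, fun u => a.injective (by simp [ha.2.2])⟩

/-- The group induced on `U ⊗ v` by the centraliser of `z`. -/
def RX (X : Subgroup (V ≃ₗ[F] V)) (v : W) (z : W ≃ₗ[F] W) : Subgroup (U ≃ₗ[F] U) where
  carrier := {a | ∃ x ∈ X, Commute x (ug hT z) ∧ ∀ u, x (T u v) = T (a u) v}
  one_mem' := ⟨1, one_mem _, .one_left _, fun _ => rfl⟩
  mul_mem' := fun ⟨x, a, b, c⟩ ⟨y, d, e, g⟩ => ⟨x * y, mul_mem a d, b.mul_left e, by simp [c, g]⟩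
  inv_mem' := fun ⟨x, a, b, c⟩ => ⟨x⁻¹, inv_mem a, b.inv_left, fun u => x.injective (by simp [c])⟩

variable {hT}

theorem conj_mem_KX (hn : n ∈ X) (hn' : InC T (n : End F V)) (hx : x ∈ KX hT X v z) :
    n * x * n⁻¹ ∈ KX hT X v z := by
  obtain ⟨a, rfl⟩ := exists_lf hT hn'
  exact ⟨mul_mem (mul_mem hn hx.1) (inv_mem hn), ((comm_lf hT a z).mul_left hx.2.1).mul_left
    (comm_lf hT a z).inv_left, fun u => by simp [← map_inv, hx.2.2]⟩

theorem mem_RX {a : U ≃ₗ[F] U} (ha : lf hT a ∈ X) : a ∈ RX hT X v z :=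
  ⟨_, ha, comm_lf hT a z, by simp⟩

theorem exists_induced (h2 : (2 : F) ≠ 0) {v' : W} {z' : W ≃ₗ[F] W} (hz : IsNr f v z)
    (hv : f v v ≠ 0) (hz' : IsNr f v' z') (hv' : f v' v' ≠ 0) (e : x * ug hT z = ug hT z' * x) :
    ∃ a : U ≃ₗ[F] U, ∀ u, x (T u v) = T (a u) v' := by
  have h1 : ∀ u, x (T u v) = T ((hT.cR ((f v' v')⁻¹ • f v') ∘ₗ (x : End F V) ∘ₗ T.flip v) u) v' :=
    fun u => by
      obtain ⟨u', hu⟩ := (fix_iff hT h2 hz' hv' (y := x (T u v))).1 (by
        simpa [hz.self hv] using (congrArg (· (T u v)) e).symm)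
      simp [← hu, hv']
  refine ⟨LinearEquiv.ofInjectiveEndo (hT.cR ((f v' v')⁻¹ • f v') ∘ₗ (x : End F V) ∘ₗ T.flip v)
    ((injective_iff_map_eq_zero _).2 fun u hu => ?_), h1⟩
  have := h1 u
  rw [hu] at this
  simpa [hT.eq_zero_iff, show v ≠ 0 by rintro rfl; simp at hv] using this

end One

variable {τ : Type*} [Fintype τ] {T : τ → U →ₗ[F] W →ₗ[F] V} {h : τ → U →ₗ[F] U →ₗ[F] F}
  {i j l : τ}

theorem inC_ug (t : TP T) (hl : i ≠ l) (g : W ≃ₗ[F] W) : InC (T i) (ug (t.tens l) g : End F V) :=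
  coe_ug (t.tens l) g ▸ t.inC_kap hl _

theorem pm_eq {t : TP T} {σ : Equiv.Perm τ} (e : t.Pm n σ) (h : σ i = j) (b : End F W) :
    cj n (kap (t.tens i) b) = kap (t.tens j) b := h ▸ e i b

theorem comm_of_cj {m : End F V} (e : cj n m = m) : Commute (n : End F V) m :=
  LinearMap.ext fun y => by simpa using LinearMap.congr_fun e (n y)

namespace O3

variable [Finite F] (c : O3 T h f β X) (gd : Gd f v p p' δ) (hz : IsNr f v z) (hv : f v v ≠ 0)
include c gd hz hv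

theorem coprime_KX (q : ℕ) [hq : Fact q.Prime] [CharP F q] :
    (Nat.card (KX (c.tp.tens i) X v z)).Coprime q := by
  refine ((Nat.Prime.coprime_iff_not_dvd hq.out).2 fun hd => ?_).symm
  obtain ⟨x, hx, h1, h2⟩ := c.exists_inC q gd hz hv (Q := KX (c.tp.tens i) X v z)
    (fun x hx => hx.1) (fun x hx => hx.2.1) (fun l hl g hg x => conj_mem_KX (c.eich l p gd.1.hp g hg) (inC_ug c.tp hl.symm g)) hd
  obtain ⟨a, rfl⟩ := exists_lf (c.tp.tens i) h2
  rw [show a = 1 from LinearEquiv.ext fun u => (c.tp.tens i).injective' (y := v)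
    (by rintro rfl; simp at hv) (by simpa using hx.2.2 u), map_one] at h1
  exact h1 rfl

theorem comm_KX (hl : l ≠ i) {w : W} (hw0 : w ≠ 0) (hw : f w w = 0) {g : W ≃ₗ[F] W}
    (hg : g ∈ Rad f (span F {w})) :
    KX (c.tp.tens i) X v z ≤ Subgroup.centralizer {ug (c.tp.tens l) g} := by
  have := c.finite i
  have := (c.tp.tens i).finiteDimensional
  obtain ⟨q, _⟩ := CharP.exists F
  have hq : Fact q.Prime := ⟨CharP.char_is_prime F q⟩
  have h7 := c.coprime_KX gd hz hv q (i := i)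
  have h5 : ∀ g ∈ Rad f (span F {w}), ug (c.tp.tens l) g ∈
      Subgroup.normalizer (KX (c.tp.tens i) X v z : Set (V ≃ₗ[F] V)) := fun g hg =>
    Subgroup.mem_normalizer_fintype fun x =>
      conj_mem_KX (c.eich l w hw g hg) (inC_ug c.tp hl.symm g)
  by_cases h8 : q = 3
  · obtain ⟨w', d, fr⟩ := c.os.exists_fr c.three hw0 hw
    obtain ⟨φ, hφ⟩ := c.os.hm.exists_rootHom c.os.two hw fr.h1
    set ψ := (ugH (c.tp.tens l)).comp φ
    have h3 : ∀ y : ψ.range, y ^ q = 1 := by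
      rintro ⟨_, t, rfl⟩
      exact Subtype.ext (c.ug_pow q (hφ t.toAdd).1)
    refine Solv.Coprime.le_of_forall_centralizer_singleton (A := ψ.range) (fun h9 => ?_)
      (by rintro _ ⟨t, rfl⟩; exact h5 _ (hφ t.toAdd).1) ?_ ?_
    · have h10 : Function.Injective ψ := (injective_iff_map_eq_one _).2 fun t ht => by
        have h11 : φ (.ofAdd t.toAdd) = 1 := ug_inj _ (ht.trans (map_one (ugH _)).symm)
        have := congrArg (f d) (LinearMap.congr_fun (hφ t.toAdd).2 w')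
        rw [h11] at this
        simpa [fr.hpp, fr.h1', fr.h2', fr.hδ] using this
      have h11 := Nat.card_congr (MonoidHom.ofInjective h10).toEquiv
      have h12 := Nat.le_of_dvd hq.out.pos (Monoid.exponent_dvd_of_forall_pow_eq_one h3)
      rw [IsCyclic.exponent_eq_card, ← h11, Nat.card_congr Multiplicative.toAdd] at h12
      have := c.big
      omega
    · obtain ⟨n, hn⟩ := IsPGroup.exists_card_eq (p := q) (G := ψ.range)
        fun y => ⟨1, by simpa using h3 y⟩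
      exact hn ▸ h7.symm.pow_left n
    · rintro _ ⟨t, rfl⟩ ht k hk
      obtain ⟨s, hs⟩ := fr.rad_eq (hφ t.toAdd).1
      exact Subgroup.mem_centralizer_singleton_iff.2 (comm_coe.1 (fr.comm_rad _ (fr.comm_of_rad _
        (fun h0 => ht ((congrArg (ugH _) (LinearEquiv.toLinearMap_injective
          (by simpa [h0, End.one_eq_id] using hs) : φ t = 1)).trans (map_one _))) hs
        (comm_coe.2 (Subgroup.mem_centralizer_singleton_iff.1 hk.2))) hg))
  · have h9 : 5 ≤ q := by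
      refine hq.out.five_le_of_ne_two_of_ne_three (fun h0 => c.os.two ?_) h8
      simpa [h0] using CharP.cast_eq_zero F q
    by_contra h10
    rcases Solv.HH.thmB_of_not_le_centralizer q LinearEquiv.automorphismGroup.toLinearMapMonoidHom
      h7 (fun g _ hg => LinearEquiv.toLinearMap_injective hg) (h5 g hg) (k := 0) (s := 3)
      (by simpa using c.ug_pow q hg) (by simpa using h10) (by
        have := congrArg (kap (c.tp.tens l)) (Rad_pow_three hg)
        rwa [map_pow, map_sub, map_one, map_zero, ← coe_ug] at this)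
      with h11 | ⟨n, -, -, h11, h12, -, -, -, -, h13⟩
    · simp at h11; omega
    · obtain rfl : n = 1 := by omega
      simp at h13; omega

theorem inC_KX (hl : l ≠ i) (hx : x ∈ KX (c.tp.tens i) X v z) : InC (T l) (x : End F V) :=
  inC_of_comm (c.tp.tens l) fun a ha => by
    obtain ⟨b, rfl⟩ := ha.exists_kap (c.tp.tens l)
    refine (mem_of_rad c.os ((Subalgebra.centralizer F {(x : End F V)}).comap (kap _))
      (fun w hw0 hw g hg => ?_) b _ rfl).symm
    rintro _ rfl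
    have := comm_coe.2 (Subgroup.mem_centralizer_singleton_iff.1
      (c.comm_KX gd hz hv hl hw0 hw hg hx))
    rwa [coe_ug] at this

end O3

variable {U' : Type*} [AddCommGroup U'] [Module F U'] [FiniteDimensional F U'] [Nontrivial U']
  {S : {j // j ≠ i} → U' →ₗ[F] W →ₗ[F] U} {k : {j // j ≠ i} → U' →ₗ[F] U' →ₗ[F] F}

/-- The restriction of the other factors to `U ⊗ v`. -/
structure Rs (t : TP T) (h : U →ₗ[F] U →ₗ[F] F) (f : W →ₗ[F] W →ₗ[F] F)
    (S : {j // j ≠ i} → U' →ₗ[F] W →ₗ[F] U) (k : {j // j ≠ i} → U' →ₗ[F] U' →ₗ[F] F) : Prop where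
  tf : ∀ j, TF (S j) (k j) 1 f 1 h
  eq : ∀ j b, kap (t.tens j.1) b = (t.tens i).inL (kap (tf j).hT b)

namespace Rs

variable {t : TP T} (r : Rs t (h i) f S k)
include r

theorem ug_eq (j : {j // j ≠ i}) (g : W ≃ₗ[F] W) :
    ug (t.tens j.1) g = lf (t.tens i) (ug (r.tf j).hT g) :=
  LinearEquiv.toLinearMap_injective (by rw [coe_ug, coe_lf, coe_ug, r.eq])

theorem inC_iff {j : {j // j ≠ i}} {m : End F U} : InC (T j) ((t.tens i).inL m) ↔ InC (S j) m := by
  constructor <;> intro H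
  · refine inC_of_comm (r.tf j).hT fun a ha => inL_inj (t.tens i) ?_
    obtain ⟨b, rfl⟩ := ha.exists_kap (r.tf j).hT
    rw [map_mul, map_mul, ← r.eq, H.comm_kap]
  · refine inC_of_comm (t.tens j) fun a ha => ?_
    obtain ⟨b, rfl⟩ := ha.exists_kap (t.tens j)
    rw [r.eq, ← map_mul, H.comm_kap, map_mul]

theorem tp : TP S where
  tens j := (r.tf j).hT
  comm j l hjl := fun a b ha hb => by
    obtain ⟨b, rfl⟩ := hb.exists_kap (r.tf l).hT
    exact ha.comm (r.tf j).hT (r.inC_iff.1 (r.eq l b ▸ t.inC_kap (Subtype.coe_ne_coe.2 hjl) b))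
  cent m hm := by
    obtain ⟨s, hs⟩ := t.cent ((t.tens i).inL m) fun j => by
      by_cases hj : j = i
      · exact hj ▸ inC_mp _ m
      · exact r.inC_iff.2 (hm ⟨j, hj⟩)
    exact ⟨s, inL_inj (t.tens i) (by rw [hs, map_smul, map_one])⟩

end Rs

namespace O3

variable [Finite F] (c : O3 T h f β X)
include c

theorem exists_rs (hij : j ≠ i) (hv : f v v ≠ 0) : ∃ d, d * 3 = finrank F U ∧
    ∃ (S : {j // j ≠ i} → (Fin d → F) →ₗ[F] W →ₗ[F] U) (k : _), Rs c.tp (h i) f S k := by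
  obtain ⟨a, -, -, -, h1⟩ := exists_proj (c.tp.tens i) (c.tp.tens j) (c.tp.comm i j hij.symm)
    (η := (f v v)⁻¹ • f v) (v := v) (by simp [hv])
  choose S k s e using fun l : {j // j ≠ i} => exists_res (c.tf i) (c.tf l) (c.tp.comm i l l.2.symm)
    c.os.two hv (U' := Fin (finrank F (range a)) → F) (by simp [h1])
  exact ⟨_, by rw [h1, c.three], S, k, s, e⟩

variable (r : Rs c.tp (h i) f S k)
include r

theorem res_oc (hv : f v v ≠ 0) : OC S k f (h i) (RX (c.tp.tens i) X v z) where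
  tp := r.tp
  tf := r.tf
  os := c.os
  le := fun a ⟨x, hx, _, e⟩ u u' => mul_right_cancel₀ hv (by
    rw [← (c.tf i).tens, ← (c.tf i).tens, ← e, ← e, iso (c.le hx)])
  eich j w hw g hg := mem_RX (r.ug_eq j g ▸ c.eich j w hw g hg)
  pair j l hjl g hg := mem_RX (by
    rw [map_mul, ← r.ug_eq, ← r.ug_eq]; exact c.pair _ _ (Subtype.coe_ne_coe.2 hjl) g hg)

theorem res_all : r.tp.AllPerm f (RX (c.tp.tens i) X v z) := fun σ j => by
  classical
  obtain ⟨n, hn, g, hg, e⟩ := c.all (Equiv.Perm.ofSubtype σ) j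
  obtain ⟨a, ha⟩ := exists_lf (c.tp.tens i) (x := ug (c.tp.tens j) g * n)
    (inC_of_comm (c.tp.tens i) fun b hb => by
      obtain ⟨b, rfl⟩ := hb.exists_kap (c.tp.tens i)
      exact (comm_of_cj (pm_eq e (Equiv.Perm.ofSubtype_apply_of_not_mem σ (by simp)) b)).symm)
  refine ⟨(ug (r.tf j).hT g)⁻¹ * a, mem_RX (by
    rwa [map_mul, map_inv, ← r.ug_eq, ← ha, inv_mul_cancel_left]), g, hg, fun l b => ?_⟩
  have := pm_eq e (Equiv.Perm.ofSubtype_apply_coe σ l) b
  rw [ha, r.eq, r.eq, cj_lf] at this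
  rw [mul_inv_cancel_left]
  exact inL_inj _ this

variable (gd : Gd f v p p' δ) (hz : IsNr f v z) (hv : f v v ≠ 0)
include gd hz hv

theorem res_l0 (j : {j // j ≠ i}) : L0 (r.tf j).hT f (RX (c.tp.tens i) X v z) := by
  classical
  by_contra H
  have := c.finite i
  obtain ⟨q, _⟩ := CharP.exists F
  have hq : Fact q.Prime := ⟨CharP.char_is_prime F q⟩
  have hv0 : v ≠ 0 := by rintro rfl; simp at hv
  obtain ⟨γ, hγ, h0⟩ := (c.res_oc r hv).exists_L H
  obtain ⟨h1, h2⟩ := (c.res_oc r hv).mem_L.1 hγ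
  obtain ⟨a, ⟨x, hx, h3, h4⟩, h5⟩ := h2 p gd.1.hp
  set E := kap (r.tf j).hT (xx f p p)
  have hE : ∀ {a b}, InC (S j) b → ∀ u, (a * E) ((b * E) u) = 0 := fun hb u =>
    LinearMap.congr_fun (mul_xx_sq _ hb gd.1.hp _) u
  let Q : Subgroup (V ≃ₗ[F] V) :=
    { carrier := {x | x ∈ X ∧ Commute x (ug (c.tp.tens i) z) ∧ ∃ γ, InC (S j) γ ∧
        ∀ u, x (T i u v) = T i (u + (γ * E) u) v}
      one_mem' := ⟨one_mem _, .one_left _, 0, InC.zero, by simp⟩
      mul_mem' := fun ⟨a1, a2, γ, a3, a4⟩ ⟨b1, b2, γ', b3, b4⟩ => ⟨mul_mem a1 b1, a2.mul_left b2,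
        γ' + γ, b3.add a3, fun u => by
          rw [LinearEquiv.mul_apply, b4, a4, map_add (γ * E), hE b3, add_mul]
          simp [add_assoc]⟩
      inv_mem' := fun {x} ⟨a1, a2, γ, a3, a4⟩ => ⟨inv_mem a1, a2.inv_left, -γ, a3.neg, fun u =>
        x.injective (by rw [a4, map_add (γ * E), hE a3.neg]; simp)⟩ }
  have h6 : ∀ m : ℕ, ∀ u, (x ^ m) (T i u v) = T i (u + (m : F) • (γ * E) u) v := fun m => by
    induction m with
    | zero => simp
    | succ m ih =>
      intro u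
      rw [pow_succ, LinearEquiv.mul_apply, h4, h5, ih, map_add (γ * E), hE h1]
      simp [add_smul, add_assoc, add_comm]
  obtain ⟨y, ⟨hy, -, γ', h7, h8⟩, h9, h10⟩ := c.exists_inC q gd hz hv (Q := Q) (fun x hx => hx.1)
    (fun x hx => hx.2.1) (fun l hl g hg y ⟨a1, a2, γ, a3, a4⟩ => by
      have a5 := c.eich l p gd.1.hp g hg
      rw [r.ug_eq ⟨l, hl⟩] at a5 ⊢
      refine ⟨mul_mem (mul_mem a5 a1) (inv_mem a5), ((comm_lf _ _ z).mul_left a2).mul_left
        (comm_lf _ _ z).inv_left, _, r.tp.inC_cj a3 ⟨l, hl⟩ g, fun u => ?_⟩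
      have a6 : cj (ug (r.tf ⟨l, hl⟩).hT g) E = E := by
        by_cases a7 : ⟨l, hl⟩ = j
        · subst a7; rw [cj_ug_kap, cj_xx _ _ hg.1, (mem_Rad_span.1 hg).2.1]
        · exact r.tp.cj_kap a7 g _
      conv_rhs => rw [← a6, ← map_mul]
      simp [← map_inv, a4])
    (((CharP.cast_eq_zero_iff F q _).1 (by_contra fun h7 => by
      refine h0 (h1.eq_zero_of_mul (r.tf j).hT gd.1.xx_ne (LinearMap.ext fun u => ?_))
      simpa [h7, (c.tp.tens i).eq_zero_iff, hv0] using h6 (orderOf x) u)).trans (Subgroup.orderOf_dvd_natCard Q ⟨hx, h3, γ, h1, fun u => by rw [h4, h5]⟩))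
  obtain ⟨b, rfl⟩ := exists_lf (c.tp.tens i) h10
  have h11 : ∀ u, b u = u + (γ' * E) u := fun u =>
    (c.tp.tens i).injective' hv0 (by rw [← h8, lf_apply])
  have h12 := c.l0 j p _ gd.1.hp (r.inC_iff.2 h7) ⟨_, hy, fun y => by
    rw [r.eq, ← map_mul, ← LinearEquiv.coe_coe, coe_lf, show (b : End F U) = 1 + γ' * E from
      LinearMap.ext h11, map_add, map_one]; rfl⟩
  rw [r.eq, ← map_mul, map_eq_zero_iff _ (inL_inj _)] at h12
  exact h9 (by rw [show b = 1 from LinearEquiv.ext fun u => by simpa [E, h12] using h11 u, map_one])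

theorem conj_rad_eq (hx : x ∈ X) (e : Commute x (ug (c.tp.tens i) z)) {a : U ≃ₗ[F] U}
    (ha : ∀ u, x (T i u v) = T i (a u) v) {l m : {j // j ≠ i}}
    (H : ∀ y, InE (S l) y → InE (S m) (cj a y)) {w : W} (hw : f w w = 0) {g : W ≃ₗ[F] W}
    (hg : g ∈ Rad f (span F {w})) : ∃ g', x * ug (c.tp.tens l) g * x⁻¹ = ug (c.tp.tens m) g' := by
  obtain ⟨q, _⟩ := CharP.exists F
  have hq : Fact q.Prime := ⟨CharP.char_is_prime F q⟩
  have := c.finite i
  obtain ⟨g', hg'⟩ := exists_ug (r.tf m).hT (k := a * ug (r.tf l).hT g * a⁻¹) (by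
    rw [coe_conj, coe_ug]; exact H _ (inE_kap _ _))
  have h0 := (c.res_oc r hv).le (⟨x, hx, e, ha⟩ : a ∈ RX (c.tp.tens i) X v z)
  have h5 : g' ^ q = 1 := ug_inj (r.tf m).hT (by
    rw [show ug _ (g' ^ q) = ug _ g' ^ q from map_pow (ugH _) g' q, ← hg', conj_pow,
      show ug _ g ^ q = ug _ (g ^ q) from (map_pow (ugH _) g q).symm,
      pow_char_of_Rad q c.os.two hg]
    simp [ug])
  have h1 : g' ∈ OG f := c.os.mem_OG_of_pow c.three q (isom_of_ug (r.tf m) (hg' ▸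
    mul_mem (mul_mem h0 ((r.tf l).ug_isom hg.1)) (inv_mem h0))) h5
  have h2 : x * ug (c.tp.tens l) g * x⁻¹ * (ug (c.tp.tens m) g')⁻¹ ∈ KX (c.tp.tens i) X v z := by
    refine ⟨mul_mem (mul_mem (mul_mem hx (c.eich l w hw g hg)) (inv_mem hx)) (inv_mem (c.ge m _ h1)),
      ?_, fun u => ?_⟩ <;> rw [r.ug_eq, r.ug_eq]
    · exact ((e.mul_left (comm_lf _ _ z)).mul_left e.inv_left).mul_left (comm_lf _ _ z).inv_left
    · have h3 : ∀ u, x.symm (T i u v) = T i (a.symm u) v := fun u => x.injective (by simp [ha])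
      simp [← hg', ← map_inv, h3, ha]
  have h3 : Commute (x * ug (c.tp.tens l) g * x⁻¹ * (ug (c.tp.tens m) g')⁻¹)
      (ug (c.tp.tens m) g') := comm_coe.1 (by
    rw [coe_ug]; exact ((c.inC_KX gd hz hv m.2 h2).comm_kap _ _).symm)
  have h4 := h3.mul_pow q
  rw [inv_mul_cancel_right, conj_pow, c.ug_pow q hg, mul_one, mul_inv_cancel,
    show ug _ g' ^ q = 1 from (map_pow (ugH _) g' q).symm.trans (h5 ▸ map_one _), mul_one] at h4
  exact ⟨g', mul_inv_eq_one.1 (orderOf_eq_one_iff.1 (Nat.eq_one_of_dvd_coprimes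
    (c.coprime_KX gd hz hv q) (Subgroup.orderOf_dvd_natCard _ h2)
    (orderOf_dvd_of_pow_eq_one h4.symm)))⟩

theorem cent (IH : ∀ a ∈ RX (c.tp.tens i) X v z, TP.IsWr S a) (hx : x ∈ X)
    (e : Commute x (ug (c.tp.tens i) z)) : TP.IsWr T x := by
  classical
  obtain ⟨a, ha⟩ := exists_induced c.os.two hz hv hz hv e.eq
  obtain ⟨σ, hσ⟩ := IH a ⟨x, hx, e, ha⟩
  have h1 : ∀ l : {j // j ≠ i}, ∀ y, InE (T l) y → InE (T (σ l)) (cj x y) := fun l y hy => by
    obtain ⟨b, rfl⟩ := hy.exists_kap (c.tp.tens l)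
    exact inE_cj_of_rad c.os _ (c.tp.tens _)
      (fun w hw g hg => c.conj_rad_eq r gd hz hv hx e ha (hσ l) hw hg) b
  refine ⟨Equiv.Perm.ofSubtype σ, fun l y hy => ?_⟩
  by_cases hl : l = i
  · subst hl
    rw [Equiv.Perm.ofSubtype_apply_of_not_mem σ (by simp)]
    refine inE_of_forall c.tp fun m hm => inC_of_comm (c.tp.tens m) fun b hb => ?_
    obtain ⟨b, rfl⟩ := hb.exists_kap (c.tp.tens m)
    obtain ⟨m, rfl⟩ : ∃ m', (σ m' : τ) = m := ⟨σ.symm ⟨m, hm⟩, by simp⟩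
    obtain ⟨b, hb⟩ := surj_of_cj (c.tp.tens m) (c.tp.tens _) (h1 m) b
    rw [← hb, ← map_mul, ← map_mul, hy.comm (c.tp.tens _) (c.tp.inC_kap m.2.symm b)]
  · exact Equiv.Perm.ofSubtype_apply_coe σ ⟨l, hl⟩ ▸ h1 ⟨l, hl⟩ y hy

end O3

end Cfsg.Lib.Class.WrO
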