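import Cfsg.Agent.Class.WrO.G3e
import Cfsg.Agent.Class.WrO.G3a

/-!
Overgroups of the stabiliser of a tensor power of an orthogonal 3-space: fusion of half turns and
the global theorem.
-/

set_option autoImplicit false
set_option linter.unusedSectionVars false

namespace Cfsg.Lib.Class.WrO

open Module Submodule Tens Tn FE AO Form Wr
open LinearMap (range ker)

section Main

variable {F U W V : Type*} [Field F] [AddCommGroup U] [Module F U] [AddCommGroup W] [Module F W]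
  [AddCommGroup V] [Module F V] [FiniteDimensional F U] [FiniteDimensional F W] [Nontrivial U]
  [Nontrivial W] {f : W →ₗ[F] W →ₗ[F] F} {β : V →ₗ[F] V →ₗ[F] F} {v w a b : W} {d : F}
  {z z' : W ≃ₗ[F] W} {x g : V ≃ₗ[F] V} {X : Subgroup (V ≃ₗ[F] V)} {τ : Type*} [Fintype τ]
  {T : τ → U →ₗ[F] W →ₗ[F] V} {h : τ → U →ₗ[F] U →ₗ[F] F} {i j l m : τ}

/-- The group of elements permuting the factors. -/
def WrG (t : TP T) : Subgroup (V ≃ₗ[F] V) where
  carrier := {g | TP.IsWr T g}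
  one_mem' := ⟨1, fun _ _ ha => ha⟩
  mul_mem' := fun ⟨σ, h⟩ ⟨σ', h'⟩ => ⟨σ * σ', fun i a ha => h _ _ (h' i a ha)⟩
  inv_mem' := fun ⟨σ, h⟩ => ⟨σ⁻¹, fun i a ha => by
    obtain ⟨i, rfl⟩ := σ.surjective i
    obtain ⟨a, rfl⟩ := ha.exists_kap (t.tens _)
    obtain ⟨b, hb⟩ := surj_of_cj (t.tens i) (t.tens _) (h i) a
    rw [← hb, cj_inv_cj, Equiv.Perm.coe_inv, Equiv.symm_apply_apply]
    exact inE_kap _ b⟩

theorem F3.not_inC (fr : F3 f d v a b) (hz : IsNr f v z) {T : U →ₗ[F] W →ₗ[F] V} (hT : IsTens T) :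
    ¬ InC T (ug hT z : End F V) := fun H => by
  obtain ⟨s, hs⟩ := scalar_of_inC_kap hT (coe_ug hT z ▸ H)
  have h1 := congrArg (f v) (LinearMap.congr_fun hs v)
  have h2 := congrArg (f a) (LinearMap.congr_fun hs a)
  simp only [LinearEquiv.coe_coe, hz.self (fr.hv ▸ fr.d0), hz.perp fr.va, map_neg, fr.hv, fr.ha,
    LinearMap.smul_apply, End.one_apply, map_smul, smul_eq_mul] at h1 h2
  exact mul_ne_zero fr.os.two fr.d0 (by linear_combination h1 - h2)

namespace O3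

variable [Finite F] (c : O3 T h f β X)
include c

theorem exists_mv (i j : τ) : ∃ n ∈ X, n ∈ WrG c.tp ∧ ∃ k ∈ isomGroup f,
    ∀ y, n * ug (c.tp.tens j) y * n⁻¹ = ug (c.tp.tens i) (k * y * k⁻¹) := by
  classical
  obtain ⟨n, hn, k, hk, e⟩ := c.all (Equiv.swap i j) i
  refine ⟨n, hn, (mul_mem_cancel_left (G := V ≃ₗ[F] V) (c.tp.isWr_ug i k : _ ∈ WrG c.tp)).1 e.isWr,
    k⁻¹, inv_mem hk, fun y => LinearEquiv.toLinearMap_injective ?_⟩
  rw [coe_conj, coe_ug, coe_ug, coe_conj, ← cj_ug_kap, ← pm_eq e (Equiv.swap_apply_right i j),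
    ← ug_inv, cj_mul, cj_inv_cj]

theorem exists_nr (hz : IsNr f v z) (hv : f v v ≠ 0) (hg : g ∈ X)
    (H : InE (T j) ((g * ug (c.tp.tens i) z * g⁻¹ : V ≃ₗ[F] V) : End F V))
    (hX : ug (c.tp.tens i) z ∈ X) :
    ∃ w z', f w w = f v v ∧ IsNr f w z' ∧ g * ug (c.tp.tens i) z * g⁻¹ = ug (c.tp.tens j) z' := by
  obtain ⟨y, hy⟩ := exists_ug (c.tp.tens j) H
  have h1 := finrank_fix (c.tp.tens i) c.os.two hz hv g
  rw [hy, coe_ug, ← map_one (kap (c.tp.tens j)), ← map_sub, kap_eq, IsTens.ker_mp_one,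
    (c.tp.tens j).finrank_map₂, finrank_top] at h1
  obtain ⟨w, hw, hy'⟩ := exists_isNr c.os.hm c.os.two (isom_of_ug (c.tf j)
    (hy ▸ c.le (mul_mem (mul_mem hg hX) (inv_mem hg)))) (ug_inj (c.tp.tens j) (by
      rw [ug_mul', ← hy, T3.Multi.sq_conj (by rw [← ug_mul', hz.sq hv]; simp [ug])]; simp [ug]))
    (Nat.eq_of_mul_eq_mul_left finrank_pos (h1.trans (mul_one _).symm))
  obtain ⟨n, hn, -, k, hk, e⟩ := c.exists_mv i j
  obtain ⟨a, ha⟩ := exists_induced (hT := c.tp.tens i) (x := n * g) c.os.two hz hv (hy'.conj hk)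
    (by rwa [iso hk]) (by rw [← e, ← hy]; group)
  obtain ⟨s, hs⟩ := sq_of_sim (c.tf i).hf c.odd (x := a) (c := f w w) hv fun u u' => by
    rw [← iso hk w w, ← (c.tf i).tens, ← (c.tf i).tens, LinearEquiv.coe_coe, ← ha, ← ha,
      iso (c.le (mul_mem hn hg))]
  exact ⟨s • w, y, by simp [hs, pow_two, mul_assoc], hy'.smul (by rintro rfl; simp [hv] at hs), hy⟩

theorem exists_conj (hil : i ≠ l) (hz : IsNr f v z) (hz' : IsNr f w z') (hv : f v v ≠ 0)
    (e : f w w = f v v) : ∃ n ∈ X, n ∈ WrG c.tp ∧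
      n * ug (c.tp.tens i) z * n⁻¹ = ug (c.tp.tens j) z' := by
  obtain ⟨n, hn, hn', k, hk, h1⟩ := c.exists_mv j i
  obtain ⟨r, hr, h2⟩ := exists_witt c.os.hm c.os.two hv (w := k⁻¹ w) (by rw [iso (inv_mem hk), e])
  refine ⟨n * (ug (c.tp.tens i) r * ug (c.tp.tens l) r⁻¹), mul_mem hn (c.pair i l hil r hr),
    mul_mem hn' (mul_mem (c.tp.isWr_ug i r) (c.tp.isWr_ug l _)), ?_⟩
  have h3 : Commute (ug (c.tp.tens l) r⁻¹) (ug (c.tp.tens i) z) := comm_coe.1 (by
    rw [coe_ug _ z]; exact ((inC_ug c.tp hil _).comm_kap _ _).symm)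
  rw [← ((hz.conj hr).conj hk).eq (g := z') (by simpa [h2] using hz'), ← h1, ug_mul', ug_mul',
    ← ug_inv (c.tp.tens i) r, mul_assoc n, mul_assoc (ug _ r), h3.eq]
  group

variable (fr : F3 f d v a b) (hz : IsNr f v z)
  (CH : ∀ x ∈ X, Commute x (ug (c.tp.tens i) z) → TP.IsWr T x)
include fr hz CH

theorem inC_of_cent (q : ℕ) [Fact q.Prime] [CharP F q] (hx : x ∈ X)
    (e : Commute x (ug (c.tp.tens i) z)) (hp : x ^ q = 1) : InC (T i) (x : End F V) := by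
  obtain ⟨σ, hσ⟩ := CH x hx e
  have h1 : σ i = i := by_contra fun h1 => fr.not_inC hz (c.tp.tens i) (by
    have := hσ i _ (coe_ug (c.tp.tens i) z ▸ inE_kap _ _)
    rw [cj_eq_self (comm_coe.2 e)] at this
    exact (c.tp.comm i _ (Ne.symm h1)).inC (c.tp.tens i) this)
  obtain ⟨a, ha⟩ := exists_induced c.os.two hz (fr.hv ▸ fr.d0) hz (fr.hv ▸ fr.d0) e.eq
  exact inC_of_pow (c.tf i) c.os.two c.three q (tensG_of_cj (c.tp.tens i) (by
    simpa only [h1] using hσ i)) (c.le hx) hp (fr.hv ▸ fr.d0) fun u => ⟨_, ha u⟩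

theorem not_swap (hg : g ∈ X) (hlm : l ≠ m)
    (H : ∀ y, InE (T l) y → InE (T m) (cj (g * ug (c.tp.tens i) z * g⁻¹) y)) : False := by
  obtain ⟨q, _⟩ := CharP.exists F
  have hq : Fact q.Prime := ⟨CharP.char_is_prime F q⟩
  have := (c.tp.tens i).finiteDimensional
  have h2 := c.os.two
  have hv : f v v ≠ 0 := fr.hv ▸ fr.d0
  obtain ⟨_, h3, h4, -⟩ := fr.exists_nr
  have hX := mul_mem (mul_mem hg (c.ge i _ (h3.eq hz ▸ h4))) (inv_mem hg)
  have hr := finrank_fix (c.tp.tens i) h2 hz hv g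
  have hE : InE (tr (T i) g) _ := InE.cj (coe_ug (c.tp.tens i) z ▸ inE_kap _ _) g
  rw [← coe_conj] at hE
  have hyy := T3.Multi.sq_conj (show ug (c.tp.tens i) z * ug (c.tp.tens i) z = 1 by
    rw [← ug_mul', hz.sq hv]; simp [ug]) g
  have hC : ∀ x ∈ X, Commute x (g * ug (c.tp.tens i) z * g⁻¹) → x ^ q = 1 →
      InC (tr (T i) g) (x : End F V) := fun x hx e hp => inC_tr.2 (c.inC_of_cent fr hz CH q
    (x := g⁻¹ * x * g⁻¹⁻¹) (mul_mem (mul_mem (inv_mem hg) hx) (inv_mem (inv_mem hg)))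
    (by simpa [mul_assoc] using e.map (MulAut.conj g⁻¹)) (by rw [conj_pow, hp]; simp))
  generalize g * ug (c.tp.tens i) z * g⁻¹ = y at *
  have hy2 : ∀ m, cj y (cj y m) = m := fun m => by rw [← cj_mul, hyy, cj_one]
  set hT := c.tp.tens l
  have hc : ∀ b, InC (T l) (cj y (kap hT b)) := fun b =>
    (c.tp.comm l m hlm).inC hT (H _ (inE_kap hT b))
  obtain ⟨p, hp0, hp⟩ := c.os.exists_iso
  obtain ⟨p', δ, fr'⟩ := c.os.exists_fr c.three hp0 hp
  set A := kap hT (wd f δ p)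
  set E := kap hT (xx f p p) with hE'
  have h5 : ∀ s : F, InC (tr (T i) g) ((1 + s • A - (s ^ 2 * f δ δ / 2) • E) *
      (1 + s • cj y A - (s ^ 2 * f δ δ / 2) • cj y E)) := fun s => by
    obtain ⟨k, hk, e⟩ := fr'.exists_rad s
    have h6 := c.eich l p hp k hk
    have h7 : Commute (ug hT k) (y * ug hT k * y⁻¹) := comm_coe.1 (by
      rw [coe_conj, coe_ug]; exact (hc _).comm_kap hT _)
    have h8 := hC _ (mul_mem h6 (mul_mem (mul_mem hX h6) (inv_mem hX))) (by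
      rw [inv_eq_of_mul_eq_one_right hyy] at h7 ⊢
      rw [Commute, SemiconjBy, h7.eq]
      nth_rw 1 [← h7.eq]
      simp only [← mul_assoc, hyy, one_mul]
      simp only [mul_assoc, hyy, mul_one]) (by
      rw [h7.mul_pow, conj_pow, c.ug_pow q hk]; simp)
    rw [LinearEquiv.coe_toLinearMap_mul, coe_conj] at h8
    simpa only [coe_ug, e, map_sub, map_add, map_smul, map_one] using h8
  obtain ⟨t, ht0, ht⟩ := exists_sq_ne_one c.big
  have h6 : InC (tr (T i) g) (E * cj y E) := by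
    have := ((((h5 t).add (h5 (-t))).sub (inC_smul_one 2)).sub ((((h5 1).add (h5 (-1))).sub
      (inC_smul_one 2)).smul (t ^ 2))).smul (2 / (t ^ 2 * (t ^ 2 - 1) * f δ δ ^ 2))
    refine (congrArg _ ?_).mp this
    have := fr'.hδ
    have := sub_ne_zero.2 ht
    simp only [mul_add, add_mul, mul_sub, sub_mul, smul_mul_assoc, mul_smul_comm, one_mul, mul_one]
    match_scalars <;> field_simp <;> ring
  have h7 : ∀ m, cj (y.trans (LinearEquiv.neg F)) m = cj y m := fun m => by ext; simp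
  let Z := ker (kap hT (xx f p p') - 1) ⊓ ker (cj y (kap hT (xx f p p')) - 1) ⊓ ker (y - 1 : End F V)
  have h8 := rank_of_comm hT (x := y.trans (LinearEquiv.neg F)) (r := -((y : End F V) + 1))
    (fun z => by simp) (by
      have h8 := finrank_ker_add h2 (b := (y : End F V)) fun u => congrArg (· u) hyy
      have h9 := LinearMap.finrank_range_add_finrank_ker ((y : End F V) + 1)
      rw [LinearMap.range_neg]
      omega)
    (fun a b ha hb => by
      obtain ⟨b', hb'⟩ := (inE_tr.1 hb).exists_kap hT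
      rw [← cj_cj_inv (y.trans (LinearEquiv.neg F)) b, hb', h7, ha.comm hT (hc b')])
    fr'.hpp' fr'.hp' fr'.hp fr'.hpp Z (fun u hu => ⟨sub_eq_zero.1 hu.1.1, h7 _ ▸ sub_eq_zero.1 hu.1.2,
      fun e => (smul_eq_zero.1 (show (2 : F) • u = 0 by
        have h9 : y u = u := sub_eq_zero.1 hu.2
        simp only [LinearEquiv.trans_apply, LinearEquiv.neg_apply, h9] at e
        linear_combination (norm := module) -e)).resolve_left h2⟩)
    fun u => by simpa using congrArg (· u) hyy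
  have h9 : Z = ⊥ := finrank_eq_zero.1 (by rw [c.three] at h8; omega)
  have h10 : kap hT (xx f p p') * E = E := by rw [hE', ← map_mul, xx_mul, fr'.hpp', one_smul]
  have h11 : Commute (y : End F V) (E * cj y E) :=
    comm_of_cj (by rw [map_mul, hy2, hE', (hc _).comm_kap])
  have h12 : Commute ((y : End F V) + 1) (E * cj y E) := h11.add_left (.one_left _)
  have h13 : ∀ u, (((y : End F V) + 1) * (E * cj y E)) u ∈ Z := fun u => by
    have h14 : ∀ {m}, m * (E * cj y E) = E * cj y E → m * ((y + 1) * (E * cj y E)) =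
        (y + 1) * (E * cj y E) := fun e => by rw [h12.eq, ← mul_assoc, e]
    refine ⟨⟨sub_eq_zero.2 (LinearMap.congr_fun (h14 (m := kap hT (xx f p p')) ?_) u),
      sub_eq_zero.2 (LinearMap.congr_fun (h14 (m := cj y (kap hT (xx f p p'))) ?_) u)⟩, ?_⟩
    · rw [← mul_assoc, h10]
    · rw [← mul_assoc, hE', ← (hc _).comm_kap, mul_assoc (kap _ _), ← map_mul, h10]
    · have h15 : ∀ u, y (y u) = u := fun u => congrArg (· u) hyy
      simp [h15, add_comm]
  exact kap_ne_zero hT fr'.xx_ne ((cj y).map_eq_zero_iff.1 ((inE_kap hT _).eq_zero hT (hc _)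
    (kap_ne_zero hT fr'.xx_ne) ((hE.add inE_one).eq_zero (isTens_tr (c.tp.tens i) g) h6 (fun h0 => by
      rw [eq_neg_of_add_eq_zero_left h0, ← neg_add', LinearMap.ker_neg, ← two_smul F,
        LinearMap.ker_smul _ _ h2, End.one_eq_id, LinearMap.ker_id, finrank_bot] at hr
      exact finrank_pos.ne hr) (LinearMap.ext fun u => (mem_bot F).1 (h9 ▸ h13 u)))))

theorem fix (hil : i ≠ l) (hg : g ∈ X) (H : TP.IsWr T (g * ug (c.tp.tens i) z * g⁻¹)) :
    TP.IsWr T g := by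
  have hv : f v v ≠ 0 := fr.hv ▸ fr.d0
  obtain ⟨_, h3, h4, -⟩ := fr.exists_nr
  obtain ⟨σ, hσ⟩ := H
  have h1 : ∀ m, σ m = m := fun m => by_contra fun h1 =>
    c.not_swap fr hz CH hg (Ne.symm h1) (hσ m)
  obtain ⟨j, hj⟩ : ∃ j, ¬ InC (T j) ((g * ug (c.tp.tens i) z * g⁻¹ : V ≃ₗ[F] V) : End F V) := by
    by_contra! hc
    obtain ⟨s, hs⟩ := c.tp.cent _ hc
    refine fr.not_inC hz (c.tp.tens i) ?_
    rw [← cj_inv_cj g (ug (c.tp.tens i) z), ← coe_conj g, hs, map_smul, map_one]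
    exact inC_smul_one s
  obtain ⟨w, z', h5, h6, h7⟩ := c.exists_nr hz hv hg ((inE_of_invol (c.tp.tens j) c.os.two c.three
    (tensG_of_cj (c.tp.tens j) (by simpa only [h1] using hσ j)) (T3.Multi.sq_conj (by
      rw [← ug_mul', hz.sq hv]; simp [ug]) g) (finrank_fix _ c.os.two hz hv g)).resolve_right hj)
    (c.ge i _ (h3.eq hz ▸ h4))
  obtain ⟨n, hn, hn', e⟩ := c.exists_conj (j := j) hil hz h6 hv h5
  exact (mul_mem_cancel_left (inv_mem hn')).1 (CH (n⁻¹ * g) (mul_mem (inv_mem hn) hg) (by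
    rw [← h7] at e
    calc _ = n⁻¹ * (g * ug (c.tp.tens i) z * g⁻¹) * g := by group
      _ = _ := by rw [← e]; group) : _ ∈ WrG c.tp)

omit hz CH in
theorem isWr_of_cent (hij : i ≠ j) (CH : ∀ i v z, f v v = d → IsNr f v z → ∀ x ∈ X,
    Commute x (ug (c.tp.tens i) z) → TP.IsWr T x) (hg : g ∈ X) : TP.IsWr T g := by
  have := c.finite i
  have hm : ∀ {i v z}, f v v = d → IsNr f v z → ug (c.tp.tens i) z ∈ X ∧ LinearEquiv.det z = 1 :=
    fun hv hz => by
      obtain ⟨a, b, fr⟩ := fr.of_norm hv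
      obtain ⟨_, h3, h4, h5⟩ := fr.exists_nr
      exact h3.eq hz ▸ ⟨c.ge _ _ h4, h5⟩
  have M : T3.Multi ((WrG c.tp).comap X.subtype)
      (fun i => {y | ∃ v z, f v v = d ∧ IsNr f v z ∧ y.1 = ug (c.tp.tens i) z})
      (fun i => (LinearEquiv.det.ker.map (ugH (c.tp.tens i))).comap X.subtype)
      (fun i => (lf (c.tp.tens i)).range.comap X.subtype) := by
    refine ⟨?_, ?_, ?_, ?_, ?_, ?_, ?_, ?_, ?_, ?_, ?_⟩
    · rintro i y ⟨v, z, hv, hz, e⟩ rfl
      obtain ⟨a, b, fr⟩ := fr.of_norm hv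
      exact fr.not_inC hz (c.tp.tens i) (e ▸ inC_one)
    · rintro i y ⟨v, z, hv, hz, e⟩
      exact Subtype.ext (by
        rw [Subgroup.coe_mul, e, ← ug_mul', hz.sq (hv ▸ fr.d0)]; exact map_one (ugH _))
    · rintro i y ⟨v, z, -, -, e⟩
      exact (e ▸ c.tp.isWr_ug i z : TP.IsWr T y.1)
    · rintro i y ⟨v, z, hv, hz, e⟩
      exact ⟨z, (hm (i := i) hv hz).2, e.symm⟩
    · rintro i j hij y ⟨v, z, -, -, e⟩
      obtain ⟨a, ha⟩ := exists_lf (c.tp.tens j) (inC_ug c.tp hij.symm z)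
      exact ⟨a, (e.trans ha).symm⟩
    · rintro i x ⟨z, -, e⟩ y ⟨a, e'⟩
      refine Subtype.ext ?_
      rw [Subgroup.coe_mul, Subgroup.coe_mul, show x.1 = ug _ z from e.symm,
        show y.1 = lf _ a from e'.symm, (comm_lf _ a z).eq]
    · rintro i x ⟨z, hz, e⟩ ⟨a, e'⟩
      obtain ⟨s, hs⟩ := scalar_of_inC_kap (c.tp.tens i) (b := z) (by
        rw [← coe_ug, show ug _ z = lf _ a from e.trans e'.symm, coe_lf]; exact inC_mp _ _)
      have h1 := isom_of_ug (c.tf i) (g := z) (c.le (show ugH _ z ∈ X from e ▸ x.2)) v v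
      have h2 : LinearMap.det (z : End F W) = 1 := by
        rw [← LinearEquiv.coe_det, show LinearEquiv.det z = 1 from hz, Units.val_one]
      rw [hs, LinearMap.det_smul, c.three, map_one] at h2
      simp only [← LinearEquiv.coe_coe z, hs, LinearMap.smul_apply, End.one_apply, map_smul,
        smul_eq_mul, fr.hv] at h1
      have h3 : s * s = 1 := mul_right_cancel₀ fr.d0 (by linear_combination h1)
      rw [show s = 1 by linear_combination h2 - s * h3, one_smul] at hs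
      exact Subtype.ext (e.symm.trans (by
        rw [show z = 1 from LinearEquiv.toLinearMap_injective hs, map_one]; rfl))
    · rintro i x ⟨v, z, hv, hz, e⟩ y ⟨w, z', hw, hz', e'⟩ h1 h2
      obtain ⟨a, b, fr'⟩ := fr.of_norm hv
      obtain ⟨b, fr'⟩ := fr'.of_perp hw (hz.perp_of_comm c.os.two hz' (hv ▸ fr.d0) (hw ▸ fr.d0)
        (fun h3 => h1 (Subtype.ext (by rw [e, e', h3]))) (ug_inj (c.tp.tens i) (by
          rw [ug_mul', ug_mul', ← e, ← e']; exact congrArg Subtype.val h2)))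
      exact ⟨b, _, fr'.hb, fr'.mul hz hz', by rw [Subgroup.coe_mul, e, e', ug_mul']⟩
    · rintro i y ⟨v, z, hv, hz, e⟩
      obtain ⟨a, b, fr'⟩ := fr.of_norm hv
      obtain ⟨z', hz', -⟩ := fr'.swap.exists_nr
      refine ⟨⟨_, (hm fr'.ha hz').1⟩, ⟨a, z', fr'.ha, hz', rfl⟩, fun h1 => ?_, Subtype.ext ?_⟩
      · obtain rfl := ug_inj _ ((congrArg Subtype.val h1).trans e)
        have := congrArg (f a) ((hz'.self (fr'.ha ▸ fr.d0)).symm.trans (hz.perp fr'.va))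
        rw [map_neg, fr'.ha] at this
        exact mul_ne_zero c.os.two fr.d0 (by linear_combination this)
      · simp only [Subgroup.coe_mul, e, ← ug_mul', (fr'.mul hz hz').eq (fr'.swap.mul hz' hz)]
    · rintro x ⟨σ, hσ⟩
      refine ⟨σ, σ.injective, ?_⟩
      rintro i y ⟨v, z, hv, hz, e⟩
      obtain ⟨w, z', h1, h2, h3⟩ := c.exists_nr hz (hv ▸ fr.d0) x.2
        (hσ i _ (coe_ug (c.tp.tens i) z ▸ inE_kap _ _)) (hm hv hz).1
      exact ⟨w, z', h1.trans hv, h2, by rw [← h3, ← e]; rfl⟩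
    · rintro k y ⟨v, z, hv, hz, e⟩ x hx
      obtain ⟨a, b, fr'⟩ := fr.of_norm hv
      obtain ⟨l, hl⟩ : ∃ l, k ≠ l := by
        by_cases h1 : k = i
        exacts [⟨j, h1 ▸ hij⟩, ⟨i, h1⟩]
      exact c.fix fr' hz (CH k v z hv hz) hl x.2 (e ▸ hx)
  obtain ⟨z, hz, -⟩ := fr.exists_nr
  exact M.mem hij (z := ⟨_, (hm fr.hv hz).1⟩) ⟨v, z, fr.hv, hz, rfl⟩ (a := ⟨_, (hm fr.hv hz).1⟩)
    ⟨v, z, fr.hv, hz, rfl⟩ ⟨g, hg⟩

end O3

end Main

universe u v

variable {F : Type u} {W : Type*} [Field F] [Finite F] [AddCommGroup W] [Module F W]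
  [FiniteDimensional F W] [Nontrivial W] {f : W →ₗ[F] W →ₗ[F] F}

theorem O3.isWr (n : ℕ) : ∀ {τ : Type v} [Fintype τ] {U V : Type u} [AddCommGroup U] [Module F U]
    [AddCommGroup V] [Module F V] [FiniteDimensional F U] [Nontrivial U]
    {T : τ → U →ₗ[F] W →ₗ[F] V} {h : τ → U →ₗ[F] U →ₗ[F] F} {β : V →ₗ[F] V →ₗ[F] F}
    {X : Subgroup (V ≃ₗ[F] V)}, Fintype.card τ = n → O3 T h f β X → ∀ g ∈ X, TP.IsWr T g := by
  classical
  induction n using Nat.strong_induction_on with | _ n ih =>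
  intro τ _ U V _ _ _ _ _ _ T h β X hn c g hg
  by_cases hτ : ∃ i j : τ, i ≠ j
  swap
  · exact ⟨1, fun i a _ => inE_of_forall c.tp fun l hl => (hτ ⟨l, i, hl⟩).elim⟩
  obtain ⟨i, j, hij⟩ := hτ
  obtain ⟨d, v, a, b, fr⟩ := c.os.exists_f3 c.three
  refine c.isWr_of_cent fr hij (fun k w z hw hz x hx e => ?_) hg
  obtain ⟨l, hl⟩ : ∃ l, l ≠ k := by
    by_cases h1 : k = i
    exacts [⟨j, h1 ▸ hij.symm⟩, ⟨i, Ne.symm h1⟩]
  have hw0 : f w w ≠ 0 := hw ▸ fr.d0
  obtain ⟨a', b', fr'⟩ := fr.of_norm hw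
  obtain ⟨p, p', δ, gd⟩ := fr'.exists_gd c.big
  obtain ⟨m, hm, S, s, r⟩ := c.exists_rs hl hw0
  have h1 : Odd (finrank F (Fin m → F)) := by simpa using (Nat.odd_mul.1 (hm ▸ c.odd)).1
  have : Nontrivial (Fin m → F) := Module.nontrivial_of_finrank_pos (R := F) h1.pos
  exact c.cent r gd hz hw0 (ih _ (hn ▸ Fintype.card_subtype_lt (x := k) (by simp)) rfl
    ⟨c.res_oc r hw0, c.three, c.big, h1, fun j g hg => mem_RX (r.ug_eq j g ▸ c.ge j g hg),
      c.res_l0 r gd hz hw0, c.res_all r⟩) hx e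

/-- The global theorem for a tensor power of an orthogonal 3-space. -/
theorem _root_.Cfsg.Lib.Class.Wr.OW.isWr_three {τ : Type v} [Fintype τ] [DecidableEq τ]
    {U V : Type u} [AddCommGroup U] [Module F U] [AddCommGroup V] [Module F V]
    [FiniteDimensional F U] {T : τ → U →ₗ[F] W →ₗ[F] V} {h : τ → U →ₗ[F] U →ₗ[F] F}
    {β : V →ₗ[F] V →ₗ[F] F} {X : Subgroup (V ≃ₗ[F] V)} (c : OW T h f β X) (i : τ)
    (h3 : finrank F W = 3) (hq : 4 ≤ Nat.card F) (ho : Odd (finrank F U))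
    (hL : ∀ i, L0 (c.tp.tens i) f X) (hp : c.tp.AllPerm f X) {g : V ≃ₗ[F] V} (hg : g ∈ X) :
    TP.IsWr T g :=
  have : Nontrivial U := Module.nontrivial_of_finrank_pos (R := F) ho.pos
  O3.isWr _ rfl ⟨c.oc ⟨(c.tf i).hh, c.two, h3.ge, Or.inl (exists_sq_ne_one hq)⟩, h3, hq, ho, c.ge,
    hL, hp⟩ g hg

end Cfsg.Lib.Class.WrO
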