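import Cfsg.Agent.Class.WrO.Loc

/-!
The stabiliser of `U ⊗ p` in an overgroup without central terms, for a large orthogonal factor.
-/

set_option autoImplicit false
set_option linter.unusedSectionVars false

namespace Cfsg.Lib.Class.Tn.TF

open Module Form AO

variable {F U W V : Type*} [Field F] [AddCommGroup U] [Module F U] [AddCommGroup W] [Module F W]
  [AddCommGroup V] [Module F V] {σ : F →+* F} [FiniteDimensional F U] [FiniteDimensional F W]
  {T : U →ₗ[F] W →ₗ[F] V} {f : U →ₛₗ[σ] U →ₗ[F] F} {h : W →ₛₗ[σ] W →ₗ[F] F}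
  {β : V →ₛₗ[σ] V →ₗ[F] F} {ε₁ ε₂ : F}

/-- An isometry normalising the radical of `x` in the first factor group is a tensor product
modulo the radical of `x ⊗ W`. -/
theorem exists_levi' (c : TF T f ε₁ h ε₂ β) [Nontrivial W] {x : U} (hx0 : x ≠ 0) (hx : f x x = 0)
    {u u' : U} (hu : f x u = 0) (hu' : f x u' = 0) (huu : f u u' ≠ 0) {g : V ≃ₗ[F] V} (hgi : g ∈ isomGroup β)
    (hJ : ∀ w, g (T x w) ∈ JL T x) (loc : ∀ a ∈ Rad f (Submodule.span F {x}),
      g * c.hT.mpE a 1 * g⁻¹ ∈ Rad β (JL T x) → g * c.hT.mpE a 1 * g⁻¹ ∈ tensG T) :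
    ∃ (a : U ≃ₗ[F] U) (b : W ≃ₗ[F] W) (μ : F), μ ≠ 0 ∧ (∀ y y', f (a y) (a y') = μ * f y y') ∧
      a x = μ • x ∧ c.hT.mpE a b ∈ isomGroup β ∧ (c.hT.mpE a b)⁻¹ * g ∈ Rad β (JL T x) := by
  have := c.hT.finiteDimensional
  obtain ⟨x', hx', hxx⟩ := c.hf.exists_partner hx0 hx
  have hxx' := c.hf.swap_one hxx
  have e1 := c.hf.eps
  set b : End F W := ε₁ • c.c x' ∘ₗ (g : End F V) ∘ₗ T x
  have hb : ∀ w, g (T x w) = T x (b w) := fun w => by
    obtain ⟨w', hw'⟩ := hJ w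
    simp [b, ← hw', hxx', smul_smul, e1]
  set b₁ : End F W := c.c x ∘ₗ (g : End F V) ∘ₗ T x'
  have h1 : ∀ w w', h (b w) (b₁ w') = h w w' := fun w w' => by
    have := iso hgi (T x w) (T x' w')
    rwa [hb, c.left, c.tens, hxx, one_mul] at this
  let bE := LinearEquiv.ofInjectiveEndo b ((injective_iff_map_eq_zero _).2 fun w hw =>
    c.hh.sep _ fun w' => by rw [← h1, hw]; simp)
  let b' := LinearEquiv.ofInjectiveEndo b₁ ((injective_iff_map_eq_zero _).2 fun w hw =>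
    c.hh.sep' _ fun w' => by rw [← h1, hw]; simp)
  have hb' : ∀ w, c.c x (g (T x' w)) = b' w := fun _ => rfl
  have hJ' : ∀ v ∈ JL T x, g⁻¹ v ∈ JL T x := by
    rintro _ ⟨w, rfl⟩
    obtain ⟨w, rfl⟩ := bE.surjective w
    exact ⟨w, g.injective (by simp [hb]; rfl)⟩
  have h2 : ∀ v, c.c x v = 0 → c.c x (g v) = 0 := fun v hv => c.hh.sep' _ fun w => by
    obtain ⟨w, rfl⟩ := bE.surjective w
    rw [← c.left, show T x (bE w) = g (T x w) from (hb w).symm, iso hgi, c.left, hv, map_zero]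
  have key : ∀ a ∈ Rad f (Submodule.span F {x}), ∃ u, ∀ w, g (T (a x' - x') w) = T u (b' w) +
      ((g * c.hT.mpE a 1 * g⁻¹) (g (T x' w) - T x' (b' w)) - (g (T x' w) - T x' (b' w))) := by
    intro a ha
    have h3 := conj_mem_Rad (c.mpE_mem_Rad ha) hgi (by rintro _ ⟨w, rfl⟩; exact hJ w) hJ'
    obtain ⟨a', ha'⟩ := c.hT.exists_of_fix (loc a ha h3) hx0 (c.mem_Rad_JL.1 h3).2.1
    refine ⟨a' x' - x', fun w => ?_⟩
    rw [map_sub (g * _ * g⁻¹), ha']
    simp only [map_sub, LinearMap.sub_apply, LinearEquiv.mul_apply, LinearEquiv.coe_inv,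
      LinearEquiv.symm_apply_apply, IsTens.mpE_apply, LinearEquiv.coe_one, id]
    abel
  have h3 : ∀ u, f x u = 0 → ∃ u', ∀ w, ∃ w', g (T u w) = T u' (b' w) + T x w' := fun u hu => by
    obtain ⟨a, ha, s, -, e⟩ := c.hf.exists_eich hx hu
    obtain ⟨u', hu'⟩ := key a ha
    refine ⟨u', fun w => ?_⟩
    obtain ⟨w', hw'⟩ := (c.mem_Rad_JL.1 (conj_mem_Rad (c.mpE_mem_Rad ha) hgi
      (by rintro _ ⟨w, rfl⟩; exact hJ w) hJ')).2.2 (g (T x' w) - T x' (b' w)) (by simp [hb', hxx])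
    refine ⟨w' + (ε₁ * f u x' + s) • b w, ?_⟩
    have := hu' w
    simp only [hw', e, hxx, map_add, map_sub, map_smul, LinearMap.add_apply, LinearMap.sub_apply,
      LinearMap.smul_apply, hb, one_smul] at this ⊢
    linear_combination (norm := module) this
  obtain ⟨w₀, w₁, hw⟩ := c.hh.exists_ne_pair
  obtain ⟨η, hη⟩ := Module.Projective.exists_dual_eq_one F
    (x := b' w₀) (fun h0 => by simp [b'.map_eq_zero_iff.1 h0] at hw)
  set π : End F U := 1 - (f x).smulRight x' - (ε₁ • f x').smulRight x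
  have hπ : ∀ y, π y = y - f x y • x' - (ε₁ * f x' y) • x := fun _ => rfl
  have hπ1 : ∀ y, f x (π y) = 0 := fun y => by simp [hπ, hx, hxx]
  have hπ2 : ∀ y, f x' (π y) = 0 := fun y => by
    simp only [hπ, map_sub, map_smul, hx', hxx', smul_eq_mul]; linear_combination -f x' y * e1
  have hπx : π x = 0 := by simp [hπ, hx, hxx', e1]
  set a₁ : End F U := π ∘ₗ c.hT.cR η ∘ₗ (g : End F V) ∘ₗ T.flip w₀ ∘ₗ π
  have ha₁ : ∀ y, a₁ y = π (c.hT.cR η (g (T (π y) w₀))) := fun _ => rfl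
  have h4 : ∀ y w, ∃ w', g (T (π y) w) = T (a₁ y) (b' w) + T x w' := fun y w => by
    obtain ⟨u', hu'⟩ := h3 _ (hπ1 y)
    obtain ⟨w₂, hw₂⟩ := hu' w₀
    obtain ⟨w₃, hw₃⟩ := hu' w
    have h5 : f x u' = 0 := by
      have := congrArg η (h2 (T (π y) w₀) (by simp [hπ1]))
      simpa [hw₂, hx, hη] using this
    refine ⟨w₃ + (ε₁ * f x' u') • b' w, ?_⟩
    rw [ha₁, hw₂, hw₃]
    simp only [map_add, IsTens.cR_apply, hη, one_smul, map_smul, hπx, smul_zero, add_zero]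
    simp only [hπ, h5, map_sub, LinearMap.sub_apply, LinearMap.smul_apply, map_smul]
    module
  have h5 : ∀ y y' w w', f (a₁ y) (a₁ y') * h (b' w) (b' w') = f (π y) (π y') * h w w' := by
    intro y y' w w'
    obtain ⟨v, hv⟩ := h4 y w
    obtain ⟨v', hv'⟩ := h4 y' w'
    have := iso hgi (T (π y) w) (T (π y') w')
    simpa [hv, hv', c.tens, hx, ha₁, hπ1, c.hf.comm (hπ1 _)] using this
  obtain ⟨μ, hμ0, hμ⟩ : ∃ μ : F, μ ≠ 0 ∧ ∀ w w', μ * h (b' w) (b' w') = h w w' := by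
    have h6 : f (π u) (π u') = f u u' := by simp [hπ, hu, hu', hx, c.hf.comm hu]
    have h7 := h5 u u' w₀ w₁
    rw [h6, hw, mul_one] at h7
    refine ⟨f (a₁ u) (a₁ u') / f u u', div_ne_zero (left_ne_zero_of_mul (h7 ▸ huu)) huu,
      fun w w' => ?_⟩
    rw [div_mul_eq_mul_div, h5, h6, mul_div_cancel_left₀ _ huu]
  have hσ : σ μ = μ := by
    have h6 := congrArg σ (hμ w₀ w₁)
    have h7 := hμ w₁ w₀
    rw [map_mul, c.hh.conj, hw, map_one] at h6
    rw [c.hh.swap_one hw] at h7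
    linear_combination μ * h6 - σ μ * ε₂ * h7 - σ μ * c.hh.eps
  have h6 : ∀ w, b w = μ • b' w := fun w => c.hh.ext_left fun w' => by
    obtain ⟨w', rfl⟩ := b'.surjective w'
    rw [map_smulₛₗ h μ, hσ, LinearMap.smul_apply μ, smul_eq_mul, hμ, ← h1 w w']; rfl
  set a₀ : End F U := a₁ + (μ • ε₁ • f x').smulRight x + (f x).smulRight x'
  have ha₀ : ∀ y, a₀ y = a₁ y + (μ * (ε₁ * f x' y)) • x + f x y • x' := fun _ => rfl
  have h7 : ∀ y y', f (a₀ y) (a₀ y') = μ * f y y' := fun y y' => by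
    have h8 := h5 y y' w₀ w₁
    have h9 := hμ w₀ w₁
    rw [hw] at h8 h9
    simp only [hπ, map_sub, map_smulₛₗ, LinearMap.sub_apply, LinearMap.smul_apply, hx, hx', hxx,
      hxx', map_mul, c.hf.σε, c.hf.conj, smul_eq_mul, RingHom.id_apply] at h8
    simp only [ha₀, map_add, map_smulₛₗ, LinearMap.add_apply, LinearMap.smul_apply, hx, hx', hxx,
      hxx', map_mul, c.hf.σε, c.hf.conj, smul_eq_mul, RingHom.id_apply, hσ, ha₁, hπ1, hπ2,
      c.hf.comm (hπ1 _), c.hf.comm (hπ2 _)]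
    simp only [← ha₁]
    linear_combination μ * h8 - f (a₁ y) (a₁ y') * h9 +
      μ * (2 * ε₁ * f y x * f x' y' + f y x' * f x y') * e1
  let a := LinearEquiv.ofInjectiveEndo a₀ ((injective_iff_map_eq_zero _).2 fun y hy =>
    c.hf.sep _ fun y' => by simpa [hy, hμ0] using h7 y y')
  have ha : ∀ y, a y = a₀ y := fun _ => rfl
  have hm : c.hT.mpE a b' ∈ isomGroup β := c.mpE_isom fun y w y' w' => by
    rw [ha, ha, h7, ← hμ w w']; ring
  have h8 : ∀ w, c.hT.mpE a b' (T x w) = g (T x w) := fun w => by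
    simp [ha, ha₀, ha₁, hπx, hb, h6, hx, hxx', e1]
  have h9 : (c.hT.mpE a b')⁻¹ * g ∈ Rad β (JL T x) := by
    refine c.mem_Rad_JL.2 ⟨mul_mem (inv_mem hm) hgi, fun w => by
      rw [LinearEquiv.mul_apply, ← h8]; exact (c.hT.mpE a b').symm_apply_apply _, fun v hv => ?_⟩
    refine c.ind_orth (P := fun v => ∃ w, ((c.hT.mpE a b')⁻¹ * g) v = v + T x w) ⟨0, by simp⟩
      ?_ ?_ hv
    · rintro u v ⟨w, hw⟩ ⟨w', hw'⟩
      exact ⟨w + w', by rw [map_add, hw, hw', map_add]; abel⟩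
    · intro u w hu
      obtain ⟨w', hw'⟩ := h4 u w
      obtain ⟨w', rfl⟩ := bE.surjective w'
      refine ⟨w', (c.hT.mpE a b').injective ?_⟩
      simp only [hπ, hu, map_sub, map_smul, LinearMap.sub_apply, LinearMap.smul_apply, hb,
        show bE w' = b w' from rfl, h6] at hw'
      simp only [LinearEquiv.mul_apply, LinearEquiv.coe_inv, LinearEquiv.apply_symm_apply, map_add,
        h8, hb, h6]
      simp only [IsTens.mpE_apply, ha, ha₀, hu, LinearMap.add_apply, map_smul, LinearMap.smul_apply,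
        map_add]
      linear_combination (norm := module) hw'
  exact ⟨a, b', μ, hμ0, h7, by simp [ha, ha₀, ha₁, hπx, hx, hxx', e1], hm, h9⟩

end Cfsg.Lib.Class.Tn.TF

namespace Cfsg.Lib.Class.WrO

open Module Submodule Tens Tn FE AO Form Wr
open LinearMap (range ker)

variable {F U W V : Type*} [Field F] [AddCommGroup U] [Module F U] [AddCommGroup W] [Module F W]
  [AddCommGroup V] [Module F V] [FiniteDimensional F U] [FiniteDimensional F W]
  {f : W →ₗ[F] W →ₗ[F] F} {β : V →ₗ[F] V →ₗ[F] F} {X : Subgroup (V ≃ₗ[F] V)}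
  {p p' : W} {q y : V ≃ₗ[F] V} [Finite F] [Nontrivial U] [Nontrivial W]

theorem conj_rad_sim {b g : W ≃ₗ[F] W} {μ : F} (hμ : μ ≠ 0) (hb : ∀ u v, f (b u) (b v) = μ * f u v)
    (hg : g ∈ Rad f (span F {p})) : b * g * b⁻¹ ∈ Rad f (span F {b p}) := by
  obtain ⟨h1, h2, h3⟩ := mem_Rad_span.1 hg
  refine mem_Rad_span.2 ⟨fun u v => ?_, by simp [h2], fun v hv => ?_⟩
  · obtain ⟨u, rfl⟩ := b.surjective u
    obtain ⟨v, rfl⟩ := b.surjective v
    simp [hb, iso h1]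
  · obtain ⟨v, rfl⟩ := b.surjective v
    obtain ⟨c, hc⟩ := h3 v (by simpa [hb, hμ] using hv)
    exact ⟨c, by simp [hc]⟩

section One

variable {T : U →ₗ[F] W →ₗ[F] V} {h : U →ₗ[F] U →ₗ[F] F} (t : TF T h 1 f 1 β)
include t

theorem mem_rad_of (hq : q ∈ isomGroup β) (h1 : ∀ u, q (T u p) = T u p)
    (h2 : ∀ u y, f p y = 0 → ∃ u', q (T u y) = T u y + T u' p) : q ∈ Rad β (JL T.flip p) :=
  t.flip.mem_Rad_JL.2 ⟨hq, h1, fun v =>
    t.flip.ind_orth (P := fun v => ∃ u, q v = v + T u p) ⟨0, by simp⟩ (by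
      rintro u v ⟨u', hu⟩ ⟨v', hv⟩
      exact ⟨u' + v', by simp only [map_add, hu, hv, LinearMap.add_apply]; abel⟩)
      fun y u hy => h2 u y hy⟩

/-- An element of the radical of `U ⊗ p` conjugating the factor group into `X`. -/
theorem core_five (os : OS f) (hk : 5 ≤ finrank F W) (hle : X ≤ isomGroup β)
    {G : Subgroup (W ≃ₗ[F] W)} (hG : HasE f G) (hX : ∀ g ∈ G, ug t.hT g ∈ X) (hp0 : p ≠ 0)
    (hp : f p p = 0) (hR : ∀ k ∈ X, k ∈ Rad β (JL T.flip p) → InE T (k : End F V))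
    (hq : q ∈ Rad β (JL T.flip p)) (hP : ∀ g ∈ G, q * ug t.hT g * q⁻¹ ∈ X) : q ∈ tensG T := by
  have := t.hT.finiteDimensional
  have h2 := os.two
  obtain ⟨p', hpp⟩ := os.hm.exists_eq_one hp0
  rw [os.symm] at hpp
  obtain ⟨δ, a1, a2, a3, a4⟩ := exists_iso_orth f hk p p'
  have a5 := os.hm.ne_smul_of (os.hm.swap_one hpp) a1 a4
  have h1 : ∀ k ∈ X, k ∈ Rad β (JL T.flip p) → ∀ y, f p y = 0 → ∃ c : F, lv t.hT f p' k y = c • 1 :=
    fun k hk hk' y hy => (inC_lv _ _).scalar_of_apply t.hT hp0 ((hR k hk hk').sub inE_one) (y := y)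
      fun u => by simp [lv_apply t hpp hk' hy]
  obtain ⟨b, hb, γ, hγ, e⟩ := exists_split t hpp hp hq fun y hy =>
    os.hm.iso_span (K := (span F {1}).comap (lv t.hT f p' q)) hp0 a2 a3 a5 (fun z b1 b2 => by
      obtain ⟨d, b3, b4⟩ := os.hm.exists_aniso h2 [p, z] (by simp; omega)
      have b5 := b3 z (by simp)
      have b6 := b3 p (by simp)
      have b7 := eich_mem os.hm h2 b1 b5
      have b8 : os.hm.eich b1 b5 (f d d / 2) p = p := by
        simp [os.hm.eich_apply, os.symm z p, os.symm d p, b2, b6]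
      obtain ⟨c1, c2⟩ := lv_ug t hpp b7.1 b8 (inv_mem hq) b6
      obtain ⟨c, hc⟩ := h1 _ (by
        simpa [mul_assoc] using mul_mem (hP _ (hG z b1 b7)) (inv_mem (hX _ (hG z b1 b7))))
        (mul_mem hq c1) (os.hm.eich b1 b5 (f d d / 2) d) (by simp [os.hm.eich_apply, b5, b6, b2])
      rw [lv_mul t hpp hq c1 (by simp [os.hm.eich_apply, b5, b6, b2]), c2, lv_inv t hpp hq b6] at hc
      simp only [os.hm.eich_apply, b5, zero_smul, add_zero, mul_zero, one_mul, map_sub,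
        map_smul] at hc
      exact mem_span_singleton.2 ⟨-(f d d)⁻¹ * c, by
        rw [mul_smul, ← hc]; match_scalars <;> field_simp; ring⟩) hy |> mem_span_singleton.1 |>.imp
        fun _ h => h.symm
  have hb' := hG p hp hb
  have h8 : ∀ g ∈ G, ((ug t.hT b)⁻¹ * q) * ug t.hT g * ((ug t.hT b)⁻¹ * q)⁻¹ ∈ X := fun g hg => by
    simpa [mul_assoc] using mul_mem (mul_mem (inv_mem (hX b hb')) (hP g hg)) (hX b hb')
  suffices (ug t.hT b)⁻¹ * q ∈ tensG T by simpa using mul_mem (ug_mem t.hT b) this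
  generalize (ug t.hT b)⁻¹ * q = k at e h8
  have h11 : ∀ z, f z z = 0 → f p z = 0 → (∀ a : F, z ≠ a • p) →
      UIn X (γ * kap t.hT (xx f p p) - γ * kap t.hT (xx f z z)) := fun z b1 b2 b3 => by
    obtain ⟨η, c1, c2, c3⟩ := os.hm.exists_hyp (p := p - z) (δ := p)
      (fun h0 => b3 1 (by rw [one_smul, sub_eq_zero.1 h0])) hp (by simp [hp, os.symm z p, b2])
      (fun a ha => by
        obtain ⟨w, d1, d2⟩ := os.hm.exists_orth_ne hp0 b3
        have := congrArg (f w) ha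
        simp [os.symm w, d1, d2] at this
        exact hp0 (by simpa [this] using ha))
    obtain ⟨g, hg, rfl⟩ := os.hm.exists_move (y := p) (y' := z) c1 (by simp [os.symm η p, c3])
      (by simp only [map_sub, LinearMap.sub_apply] at c2; rw [os.symm η, os.symm η]
          linear_combination -c2) (by rw [b1, hp])
    have hg' := hG η c1 hg
    refine ⟨_, mul_mem (h8 g hg') (inv_mem (hX g hg')), fun v => ?_⟩
    have a4 := inv_apply_of_sq (apply_conj e (ug t.hT g))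
      (by rw [← map_mul, mul_xx_sq _ hγ hp, map_zero]) v
    rw [map_mul, hγ.cj_ug, cj_ug_kap, cj_xx _ _ hg.1] at a4
    have a5 := LinearMap.congr_fun (mul_kap_mul t.hT hγ γ (xx f p p) (xx f (g p) (g p))) v
    simp only [xx_mul, b2, zero_smul, map_zero, mul_zero, LinearMap.zero_apply] at a5
    rw [show k * ug t.hT g * k⁻¹ * (ug t.hT g)⁻¹ = k * (ug t.hT g * k * (ug t.hT g)⁻¹)⁻¹ by group,
      LinearEquiv.mul_apply, a4, e, map_sub, show (γ * kap t.hT (xx f p p)) _ = 0 from a5]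
    simp only [LinearMap.sub_apply]
    abel
  have a6 := os.hm.comm a3
  obtain ⟨n, hn, e'⟩ : UIn X (γ * kap t.hT (xx f δ p + xx f p δ + xx f p p)) := by
    convert UIn.sub (h11 δ a2 a3 a5) (h11 (δ + p) (by simp [a2, a3, a6, hp]) (by simp [a3, hp])
      fun a ha => a5 (a - 1) (by rw [sub_smul, ← ha]; simp)) ?_ ?_ using 1
    · simp only [xx_add_left, xx_add_right, map_add, mul_add]
      abel
    all_goals simp [mul_sub, sub_mul, mul_kap_mul _ hγ, xx_mul, a2, a3, a6, hp]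
  obtain ⟨w, d1, d2⟩ := os.hm.exists_orth_ne hp0 a5
  obtain ⟨γ₀, h0⟩ := hγ
  obtain ⟨c, hc⟩ := InC.scalar_of_apply t.hT ⟨γ₀, h0⟩ hp0 ((hR n hn (mem_rad_of t (hle hn)
    (fun u => by simp [e', hp, a6]) fun u y hy => ⟨f δ y • γ₀ u, by simp [e', hy, h0]⟩)).sub inE_one)
    (y := w) fun u => by simp [e', d1, d2]
  exact tensG_of_inE t.hT e (by rw [hc, smul_mul_assoc, one_mul]; exact (inE_kap _ _).smul c)

/-- The Levi decomposition of an element stabilising `U ⊗ p`. -/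
theorem exists_levi (os : OS f) (hle : X ≤ isomGroup β)
    (hE : ∀ z, f z z = 0 → ∀ g ∈ Rad f (span F {z}), ug t.hT g ∈ X) (hp0 : p ≠ 0)
    (hp : f p p = 0) (hR : ∀ k ∈ X, k ∈ Rad β (JL T.flip p) → ∃ b, k = ug t.hT b) (hy : y ∈ X)
    (e : ∀ u, ∃ u', y (T u p) = T u' p) : ∃ (a : U ≃ₗ[F] U) (b : W ≃ₗ[F] W) (μ : F), μ ≠ 0 ∧
      (∀ u v, f (b u) (b v) = μ * f u v) ∧ b p = μ • p ∧ t.hT.mpE a b ∈ isomGroup β ∧
      (t.hT.mpE a b)⁻¹ * y ∈ Rad β (JL T.flip p) := by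
  obtain ⟨d, d1, d2⟩ := os.exists_perp p
  obtain ⟨b, a, μ, h1, h2, h3, h4, h5⟩ := t.flip.exists_levi' hp0 hp d1 d1 d2 (hle hy)
    (fun u => (e u).imp fun _ h => h.symm) fun b hb hb' => by
      rw [t.hT.mpE_flip] at hb' ⊢
      obtain ⟨b', e⟩ := hR _ (mul_mem (mul_mem hy (hE p hp b hb)) (inv_mem hy)) hb'
      rw [tensG_flip, show y * t.hT.mpE 1 b * y⁻¹ = _ from e]
      exact ug_mem _ _
  rw [t.hT.mpE_flip] at h4 h5
  exact ⟨a, b, μ, h1, h2, h3, h4, h5⟩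

omit [Finite F] in
theorem mpE_conj_ug (a : U ≃ₗ[F] U) (b g : W ≃ₗ[F] W) :
    t.hT.mpE a b * ug t.hT g * (t.hT.mpE a b)⁻¹ = ug t.hT (b * g * b⁻¹) := by
  simp [ug, t.hT.mpE_inv, ← t.hT.mpE_mul]

theorem mem_tensG_five (os : OS f) (hk : 5 ≤ finrank F W) (hle : X ≤ isomGroup β)
    (hE : ∀ z, f z z = 0 → ∀ g ∈ Rad f (span F {z}), ug t.hT g ∈ X) (hp0 : p ≠ 0)
    (hp : f p p = 0) (hR : ∀ k ∈ X, k ∈ Rad β (JL T.flip p) → ∃ b, k = ug t.hT b) (hy : y ∈ X)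
    (e : ∀ u, ∃ u', y (T u p) = T u' p) : y ∈ tensG T := by
  obtain ⟨a, b, μ, h1, h2, h3, h4, h5⟩ := exists_levi t os hle hE hp0 hp hR hy e
  have h7 := core_five t os hk (X := X.comap (MulAut.conj (t.hT.mpE a b)).toMonoidHom)
    (fun g hg => by simpa [mul_assoc] using mul_mem (mul_mem (inv_mem h4) (hle hg)) h4)
    (G := X.comap (ugH t.hT) ⊓
      (X.comap (MulAut.conj (t.hT.mpE a b)).toMonoidHom).comap (ugH t.hT))
    (fun z hz g hg => ⟨hE z hz g hg, by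
      show t.hT.mpE a b * ug t.hT g * (t.hT.mpE a b)⁻¹ ∈ X
      rw [mpE_conj_ug t]
      exact hE _ (by simp [h2, hz]) _ (conj_rad_sim h1 h2 hg)⟩) (fun g hg => hg.2) hp0 hp
    (fun k hk hk' => by
      obtain ⟨b', e⟩ := hR _ hk (conj_rad t hk' h4 fun u => ⟨μ • a u, by simp [h3]⟩)
      obtain rfl : k = ug t.hT (b⁻¹ * b' * b⁻¹⁻¹) := by
        rw [← mpE_conj_ug t a⁻¹, ← t.hT.mpE_inv, ← e]; simp [mul_assoc]
      rw [coe_ug]
      exact inE_kap _ _) h5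
    (fun g hg => by
      have := mul_mem (mul_mem hy (show ug t.hT g ∈ X from hg.1)) (inv_mem hy)
      simpa [mul_assoc] using this)
  simpa using mul_mem (t.hT.mpE_mem a b) h7

end One

variable {τ : Type*} {T : τ → U →ₗ[F] W →ₗ[F] V} {h : τ → U →ₗ[F] U →ₗ[F] F} {a : τ} [Fintype τ]

theorem OC.pt_five (c : OC T h f β X) (hL : L0 (c.tp.tens a) f X) (hk : 5 ≤ finrank F W)
    (hp0 : p ≠ 0) (hp : f p p = 0) (hp0' : p' ≠ 0) (hp' : f p' p' = 0) (hy : y ∈ X)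
    (e : ∀ u, ∃ u', y (T a u p) = T a u' p') : y ∈ tensG (T a) := by
  obtain ⟨k, a1, -, s, -, a4⟩ := c.exists_move a hp0' hp' hp0 hp
  have := mem_tensG_five (c.tf a) c.os hk c.le (c.eich a) hp0 hp (fun q h1 h2 =>
    (c.rad hL (Or.inr (Or.inl hk)) hp0 hp h1 h2).imp fun _ h => h.2) (mul_mem a1 hy) fun u =>
      let ⟨u', h⟩ := e u; ⟨s • u', by simp [h, a4]⟩
  simpa using mul_mem (inv_mem (ug_mem (c.tp.tens a) k)) this

end Cfsg.Lib.Class.WrO
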