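import Cfsg.Agent.Class.WrO.CaseA
import Cfsg.Agent.Class.WrO.Levi
import Cfsg.Agent.Class.WrO.G5
import Cfsg.Agent.Class.Wr.FormMat
import Cfsg.Agent.Known.OrthOmega

/-!
The stabiliser in `Ω` of a tensor power of an orthogonal space: passage to matrices.
-/

set_option autoImplicit false
set_option linter.unusedSectionVars false

namespace Cfsg.Lib.Class.WrO

open Module Submodule Tens Tn FE AO Form Wr QuadraticMap Orth OMax Known
open scoped commutatorElement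

section Abs

variable {F U W V : Type*} [Field F] [AddCommGroup U] [Module F U] [AddCommGroup W] [Module F W]
  [AddCommGroup V] [Module F V] [FiniteDimensional F U] [FiniteDimensional F W]
  {f : W →ₗ[F] W →ₗ[F] F} {X : Subgroup (V ≃ₗ[F] V)} {Q : QuadraticForm F V} {g n : V ≃ₗ[F] V}

theorem isom_le_O (h2 : (2 : F) ≠ 0) : isomGroup (polarBilin Q) ≤ O Q := fun _ hm =>
  mem_O.2 fun v => mul_left_cancel₀ h2 (by rw [← polar_self', ← polar_self']; exact hm v v)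

theorem comm_mem_Om (hg : g ∈ O Q) (hn : n ∈ O Q) : g * n * g⁻¹ * n⁻¹ ∈ Om Q :=
  (mem_Om (g := ⁅⟨g, hg⟩, ⟨n, hn⟩⁆)).2 (Subgroup.commutator_mem_commutator trivial trivial)

theorem list_refl {vs : List V} (h0 : ∀ v ∈ vs, Q v ≠ 0)
    (hp : vs.Pairwise fun u v => polar Q u v = 0) :
    (∀ v ∈ vs, (vs.map (refl Q)).prod.1 v = -v) ∧
      ∀ x, (∀ v ∈ vs, polar Q v x = 0) → (vs.map (refl Q)).prod.1 x = x := by
  induction vs with
  | nil => simp
  | cons a l ih =>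
    rw [List.pairwise_cons] at hp
    obtain ⟨h1, h3⟩ := ih (fun v hv => h0 v (by simp [hv])) hp.2
    simp only [List.map_cons, List.prod_cons, O_mul_apply, List.mem_cons, forall_eq_or_imp]
    refine ⟨⟨?_, fun v hv => ?_⟩, fun x hx => ?_⟩
    · rw [h3 a fun v hv => pc (hp.1 v hv), refl_apply_self (h0 a (by simp))]
    · rw [h1 v hv, map_neg, refl_apply_of_orth (pc (hp.1 v hv))]
    · rw [h3 x hx.2, refl_apply_of_orth (pc hx.1)]

section One

variable {T : U →ₗ[F] W →ₗ[F] V} {h : U →ₗ[F] U →ₗ[F] F} (t : TF T h 1 f 1 (polarBilin Q))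
  (h2 : (2 : F) ≠ 0)
include t h2

theorem Q_tens (u : U) (w : W) : Q (T u w) = h u u / 2 * f w w := by
  have := t.tens u w u w
  rw [polarBilin_apply_apply, polar_self'] at this
  field_simp
  linear_combination this

theorem ug_mem_O {b : W ≃ₗ[F] W} (hb : b ∈ isomGroup f) : ug t.hT b ∈ O Q :=
  isom_le_O h2 (t.ug_isom hb)

theorem ug_mem_Om (h5 : 5 ≤ finrank F V) {b : W ≃ₗ[F] W} (hb : b ∈ OG f) : ug t.hT b ∈ Om Q := by
  have := t.hT.finiteDimensional
  refine (sup_le (Subgroup.commutator_le.2 fun a ha a' ha' => ?_) (iSup₂_le fun p hp b hb => ?_) :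
    OG f ≤ (Om Q).comap (ugH t.hT)) hb
  · rw [Subgroup.mem_comap, map_commutatorElement]
    exact comm_mem_Om (ug_mem_O t h2 ha) (ug_mem_O t h2 ha')
  · refine (mem_Om (g := ⟨_, ug_mem_O t h2 hb.1⟩)).2 (rad_mem_commutator t.hm.nondeg h5 _ _ rfl ?_ _
      (ug_mem_Rad t hb))
    rintro _ ⟨u, rfl⟩
    simp [Q_tens t h2, hp]

/-- The Dickson invariant and the spinor norm of a reflection of the factor. -/
theorem exists_spin [Finite F] [FiniteDimensional F V] :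
    ∃ D : F, D ≠ 0 ∧ ∀ c r, f c c ≠ 0 → IsRf f c r → ∀ hr : ug t.hT r ∈ O Q,
      dick ⟨_, hr⟩ = (-1) ^ finrank F U ∧
        spinA t.hm.nondeg ⟨_, hr⟩ = sqs (D * f c c ^ finrank F U) := by
  have := invertibleOfNonzero h2
  obtain ⟨u, hu⟩ := LinearMap.BilinForm.exists_orthogonal_basis (B := h) ⟨t.hf.symm⟩
  have h0 : ∀ i, h (u i) (u i) ≠ 0 := fun i =>
    hu.not_isOrtho_basis_self_of_separatingLeft t.hf.nondeg.1 i
  refine ⟨∏ i, h (u i) (u i) / 2, Finset.prod_ne_zero_iff.2 fun i _ => div_ne_zero (h0 i) h2,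
    fun c r hc hr hr' => ?_⟩
  have h1 : ∀ v ∈ List.ofFn fun i => T (u i) c, Q v ≠ 0 := by
    simp [Q_tens t h2, h0, h2, hc]
  obtain ⟨h3, h4⟩ := list_refl h1 (List.pairwise_ofFn.2 fun i j hij => by
    rw [← polarBilin_apply_apply, t.tens, hu hij.ne, zero_mul])
  have e : (⟨_, hr'⟩ : O Q) = ((List.ofFn fun i => T (u i) c).map (refl Q)).prod := by
    refine Subtype.ext (t.hT.extE fun x w => ?_)
    have h5 : T x w = T x (w - (f c w / f c c) • c) + (f c w / f c c) • T x c := by simp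
    have h7 : f c (w - (f c w / f c c) • c) = 0 := by simp [hc]
    conv_rhs => rw [h5, map_add, map_smul, h4 _ (by
      simp only [List.forall_mem_ofFn_iff, ← polarBilin_apply_apply, t.tens, h7, mul_zero,
        implies_true])]
    have h6 : ((List.ofFn fun i => T (u i) c).map (refl Q)).prod.1 (T x c) = -T x c := by
      rw [← u.sum_repr x]
      simp only [map_sum, map_smul, LinearMap.sum_apply, LinearMap.smul_apply,
        ← Finset.sum_neg_distrib, ← smul_neg]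
      exact Finset.sum_congr rfl fun i _ => congrArg _ (h3 _ (List.mem_ofFn.2 ⟨i, rfl⟩))
    rw [h6, ug_apply, hr w]
    simp only [map_sub, map_smul]
    match_scalars <;> ring
  rw [e, dick_list_prod t.hm.nondeg _ h1, spinA_list_prod _ _ h1]
  simp [List.prod_ofFn, Q_tens t h2, Finset.prod_mul_distrib]

end One

variable {τ : Type*} {T : τ → U →ₗ[F] W →ₗ[F] V} {h : τ → U →ₗ[F] U →ₗ[F] F}

theorem isWr_mul (hg : TP.IsWr T g) (hn : TP.IsWr T n) : TP.IsWr T (g * n) :=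
  let ⟨σ, a⟩ := hg
  let ⟨σ', b⟩ := hn
  ⟨σ * σ', fun i x hx => by rw [cj_mul]; exact a _ _ (b i x hx)⟩

theorem pm_conj_ug {tp : TP T} {σ : Equiv.Perm τ} (hn : tp.Pm n σ) (i : τ) (b : W ≃ₗ[F] W) :
    n * ug (tp.tens i) b * n⁻¹ = ug (tp.tens (σ i)) b := LinearEquiv.ext fun v => by
  simpa [← coe_ug] using LinearMap.congr_fun (hn i b) v

variable [Finite F] [Nontrivial U] [Nontrivial W] [Fintype τ] [DecidableEq τ] (tp : TP T)
  (tf : ∀ i, TF (T i) (h i) 1 f 1 (polarBilin Q)) (h2 : (2 : F) ≠ 0)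
  (hK : ∀ σ, ∃ n ∈ O Q, tp.Pm n σ) (hX' : ∀ g ∈ Om Q, TP.IsWr T g → g ∈ X)
include tp tf h2 hK hX'

theorem ow_of (h5 : 5 ≤ finrank F V) (hX : X ≤ Om Q) : OW T h f (polarBilin Q) X where
  tp := tp
  tf := tf
  two := h2
  le := hX.trans (Om_le.trans O_le_isom)
  ge i g hg := hX' _ (ug_mem_Om (tf i) h2 h5 hg) (tp.isWr_ug i g)
  pair i j _ g hg := by
    obtain ⟨n, hn, e⟩ := hK (Equiv.swap i j)
    refine hX' _ ?_ (isWr_mul (tp.isWr_ug _ _) (tp.isWr_ug _ _))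
    have := comm_mem_Om (ug_mem_O (tf i) h2 hg) hn
    rwa [mul_assoc, mul_assoc, ← mul_assoc n, ug_inv, pm_conj_ug e, Equiv.swap_apply_left] at this
  alt := TP.alt_of_comm hK fun _ hn _ hn' => hX' _ (comm_mem_Om hn hn')

theorem allPerm (os : OS f) (hU : Odd (finrank F U)) : tp.AllPerm f X := fun σ j => by
  have := (tp.tens j).finiteDimensional
  obtain ⟨n, hn, e⟩ := hK σ
  obtain ⟨D, hD, H⟩ := exists_spin (tf j) h2
  obtain ⟨p, a1, a2⟩ := os.exists_iso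
  obtain ⟨p', a3, a4⟩ := os.hm.exists_partner a1 a2
  have h1 : ∀ a : F, a ≠ 0 → ∃ r : O Q, r.1 ∈ (isomGroup f).map (ugH (tp.tens j)) ∧ dick r = -1 ∧
      spinA (tf j).hm.nondeg r = sqs D * sqs a := fun a ha => by
    have b1 : f (p + (a / 2) • p') (p + (a / 2) • p') = a := by
      simp [a2, a3, a4, os.symm p' p, ← two_mul, mul_div_cancel₀ _ h2]
    obtain ⟨r, hr⟩ := exists_rf os.hm (b1.trans_ne ha)
    have b2 := hr.isom os.hm (b1.trans_ne ha)
    obtain ⟨b3, b4⟩ := H _ r (b1.trans_ne ha) hr (ug_mem_O (tf j) h2 b2)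
    refine ⟨⟨_, ug_mem_O (tf j) h2 b2⟩, ⟨r, b2, rfl⟩, b3.trans hU.neg_one_pow, b4.trans ?_⟩
    rw [b1, sqs_mul hD (pow_ne_zero _ ha), sqs_pow ha, Int.units_pow_eq_pow_mod_two,
      Nat.odd_iff.1 hU, pow_one]
  obtain ⟨a, ha⟩ := Known.exists_not_isSquare h2
  obtain ⟨r, b1, b2, b3⟩ := h1 1 one_ne_zero
  obtain ⟨r', c1, c2, c3⟩ := h1 a (by rintro rfl; simp at ha)
  have hE : ¬ Exc Q := not_exc_of_two_ne_zero h2
  obtain ⟨k, ⟨g, hg, e'⟩, hk⟩ := exists_mul_mem_commutator (tf j).hm.nondeg hE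
    (((isomGroup f).map (ugH (tp.tens j))).subgroupOf (O Q)) (⟨n, hn⟩⁻¹) (Or.inr ⟨r, b1, b2⟩)
    fun _ => ⟨r * r', mul_mem b1 c1, by
      rw [← dickHom_apply (tf j).hm.nondeg hE, map_mul, dickHom_apply, dickHom_apply, b2, c2]; simp,
      by rw [map_mul, b3, c3, sqs_of_not_isSquare ha]; simp⟩
  have b4 : (ug (tp.tens j) g)⁻¹ * n ∈ Om Q := by
    have := inv_mem (mem_Om.2 hk)
    rwa [Subgroup.coe_mul, ← show ug (tp.tens j) g = k from e', mul_inv_rev, Subgroup.coe_inv,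
      inv_inv] at this
  exact ⟨_, hX' _ b4 (isWr_mul (by rw [ug_inv]; exact tp.isWr_ug _ _) e.isWr), g, hg, by
    rwa [mul_inv_cancel_left]⟩

end Abs

open Asch Matrix Cfsg.Geo
open scoped MatrixGroups

variable {F : Type*} [Field F] [Fintype F] {ι : Type} [Fintype ι] [DecidableEq ι] {s k : ℕ}
  {e : ι ≃ (Fin (s + 1) → Fin k)} {P : GL ι F} {Q : QuadraticForm F (ι → F)}
  {f : (Fin k → F) → (Fin k → F) → F}

theorem isMaximalIn_orth_of (hQ : (polarBilin Q).Nondegenerate) (hs : 1 ≤ s)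
    (hf : IsSymmetricForm f) (os : OS (geoBilin hf.bilinear))
    (hT : IsTensorPowerFormStructure id (polar Q) f e P)
    (main : ∀ [Nonempty (Fin k)] h X (c : OW (tw e P) h (geoBilin hf.bilinear) (polarBilin Q) X),
      (∀ σ, ∃ n ∈ O Q, c.tp.Pm n σ) → (∀ g ∈ Om Q, TP.IsWr (tw e P) g → g ∈ X) →
      (∀ i, L0 (c.tp.tens i) (geoBilin hf.bilinear) X) → ∀ g ∈ X, TP.IsWr (tw e P) g) :
    IsMaximalIn (omegaGL Q) (tensorWreathSubgroup k (s + 1) e P ⊓ omegaGL Q) := by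
  have hk : 3 ≤ k := by simpa using os.three
  have : Nonempty (Fin k) := ⟨⟨0, by omega⟩⟩
  have h2 := os.two
  have hU := three_le_pow (F := F) (k := k) (s := s) (by omega) hs (by omega)
  obtain ⟨c, -, H⟩ := IsTensorPowerFormStructure.ptw (σ := RingEquiv.refl F)
    (preSesq_of_isBilinearForm hf.bilinear) hT
  replace H : ∀ x y, polarBilin Q (vec e P (ptw x)) (vec e P (ptw y)) =
    c * ∏ i, geoBilin hf.bilinear (x i) (y i) := H
  obtain ⟨h, t⟩ := exists_tf_tw (ε' := 1) H (by simpa using hm_of_symm h2 hQ (polar_comm Q)) os.hm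
    fun i u w w' _ => ⟨_ / 2, by rw [one_mul, RingHom.id_apply, ← two_mul, mul_div_cancel₀ _ h2]⟩
  have hn : 9 ≤ finrank F (ι → F) := by rw [(t 0).hT.finrank_eq]; nlinarith [os.three]
  have hK : ∀ σ, ∃ n ∈ O Q, (tp_tw e P).Pm n σ := fun π => (exists_pm_isom H π).imp fun n h =>
    ⟨isom_le_O h2 h.1, h.2.1⟩
  refine isMaximalIn_wreath e P (by omega) (G' := Om Q) (fun g => mem_omegaGL_iff.trans
      ⟨by rintro ⟨k, hk, rfl⟩; exact ⟨k, hk, (glLin_toGL k).symm⟩, fun ⟨k, hk, e⟩ =>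
        ⟨k, hk, (glLin ι F).injective ((glLin_toGL k).trans e)⟩⟩) ?_ fun X hX hX' => ?_
  · obtain ⟨QA, QB, H', -⟩ := Tens.exists_sym (Q := Q) (T := tw e P 0) ⟨(t 0).tens, (t 0).hf.nondeg,
      os.hm.nondeg, eq_top_iff.2 fun v _ => (t 0).hT.mem_map₂_top_left.2 fun _ => trivial,
      (t 0).hT.finrank_eq⟩ h2 (t 0).hf.symm os.symm
    obtain ⟨-, w, a2, a3, a4⟩ := H'.exists_singular h2 hU os.three
    obtain ⟨p, a5, a6⟩ := os.exists_iso
    have h3 : ∀ x, vec e P (ptw x) = tw e P 0 (ptw (Fin.removeNth 0 x)) (x 0) := fun x => by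
      rw [tw_ptw, Fin.insertNth_self_removeNth]
    exact not_le_of_pure hQ (by simpa using hn.trans' (by norm_num))
      (T := fun x (_ : Unit) => vec e P (ptw x))
      (fun g hg x _ => (AL.wreath_mulVec_pure hg x).imp fun y h => ⟨(), h⟩)
      ⟨⟨fun _ => p, (), AL.vec_ne_zero e P (ptw_ne_zero fun _ => a5), by
        rw [h3, Q_tens (t 0) h2, a6, mul_zero]⟩, w, a2, a3, fun x _ h => a4 _ _ (h.trans (h3 x))⟩
  · have c := ow_of (tp_tw e P) t h2 hK hX' (by omega) hX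
    by_cases hL : ∀ i, L0 (c.tp.tens i) (geoBilin hf.bilinear) X
    · exact Or.inl (main h X c hK hX' hL)
    · obtain ⟨i, hi⟩ := not_forall.1 hL
      exact Or.inr ((c.oc os).Om_le (hX.trans Om_le) c.alt hU hi)

theorem isMaximalIn_orth_five (hQ : (polarBilin Q).Nondegenerate) (h2 : (2 : F) ≠ 0) (hs : 1 ≤ s)
    (hk : 5 ≤ k) (hf : IsSymmetricForm f) (hT : IsTensorPowerFormStructure id (polar Q) f e P) :
    IsMaximalIn (omegaGL Q) (tensorWreathSubgroup k (s + 1) e P ⊓ omegaGL Q) := by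
  have h5 : 5 ≤ finrank F (Fin k → F) := by simpa
  have os : OS (geoBilin hf.bilinear) := ⟨hm_of_symm h2 (geoBilin_nondegenerate _ hf.nondegenerate)
    hf.symm, h2, by omega, Or.inr (Or.inl h5)⟩
  exact isMaximalIn_orth_of hQ hs hf os hT fun _ _ c _ _ hL _ => c.isWr_five h5
    fun i _ _ a1 a2 a3 a4 _ => (c.oc os).pt_five (hL i) h5 a1 a2 a3 a4

end Cfsg.Lib.Class.WrO
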