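import Cfsg.Agent.Class.WrO.G3f
import Cfsg.Agent.Class.WrO.Mat

/-!
The orthogonal 4-space of minus type: frames, involutions and unipotent elements.
-/

set_option autoImplicit false
set_option linter.unusedSectionVars false

namespace Cfsg.Lib.Class.WrO

open Module Submodule Tens Tn FE AO Form Wr
open LinearMap (range ker)

variable {F W : Type*} [Field F] [AddCommGroup W] [Module F W] [FiniteDimensional F W]
  {f : W →ₗ[F] W →ₗ[F] F} {a b c d p p' u v : W} {g z r r' : W ≃ₗ[F] W}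

theorem uni [Finite F] (h2 : (2 : F) ≠ 0) {s t : F} (hs : s ≠ 0) (ht : t ≠ 0) (k : F) :
    ∃ x y, x ^ 2 * s + y ^ 2 * t = k := by
  have := Fintype.ofFinite F
  obtain ⟨x, y, e⟩ := FiniteField.exists_root_sum_quadratic (f := .C s * .X ^ 2)
    (g := .C t * .X ^ 2 - .C k) (Polynomial.degree_C_mul_X_pow 2 hs) (by
      rw [Polynomial.degree_sub_C (by rw [Polynomial.degree_C_mul_X_pow 2 ht]; norm_num),
        Polynomial.degree_C_mul_X_pow 2 ht]; rfl)
    (FiniteField.odd_card_of_char_ne_two fun h => h2 (by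
      simpa [h] using (ringChar.spec F 2).2 (by rw [h])))
  exact ⟨x, y, by simp at e; linear_combination e⟩

theorem sq_or_sq [Finite F] {s t : F} (hs : s ≠ 0) (ht : t ≠ 0) (h : ¬ IsSquare (s * t)) :
    IsSquare s ∨ IsSquare t := by
  by_contra! hc
  rw [← Known.sqs_eq_one_iff, Known.sqs_mul hs ht, Known.sqs_of_not_isSquare hc.1,
    Known.sqs_of_not_isSquare hc.2] at h
  exact h (by simp)

theorem sq_of_not [Finite F] {s t : F} (hs : ¬ IsSquare s) (ht : ¬ IsSquare t) :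
    IsSquare (s * t) := by_contra fun h =>
  (sq_or_sq (by rintro rfl; simp at hs) (by rintro rfl; simp at ht) h).elim hs ht

/-- The 4-space of Witt index one. -/
structure M4 (f : W →ₗ[F] W →ₗ[F] F) : Prop extends OS f where
  dim : finrank F W = 4
  idx : IdxOne f

/-- An orthogonal frame. -/
structure F4 (f : W →ₗ[F] W →ₗ[F] F) (a b c d : W) : Prop where
  m : M4 f
  ha : f a a ≠ 0
  hb : f b b ≠ 0
  hc : f c c ≠ 0
  hd : f d d ≠ 0
  ab : f a b = 0
  ac : f a c = 0
  ad : f a d = 0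
  bc : f b c = 0
  bd : f b d = 0
  cd : f c d = 0

namespace F4

variable (h : F4 f a b c d)
include h

theorem ba : f b a = 0 := h.m.hm.comm h.ab
theorem ca : f c a = 0 := h.m.hm.comm h.ac
theorem da : f d a = 0 := h.m.hm.comm h.ad
theorem cb : f c b = 0 := h.m.hm.comm h.bc
theorem db : f d b = 0 := h.m.hm.comm h.bd
theorem dc : f d c = 0 := h.m.hm.comm h.cd

theorem s12 : F4 f b a c d := ⟨h.m, h.hb, h.ha, h.hc, h.hd, h.ba, h.bc, h.bd, h.ac, h.ad, h.cd⟩
theorem s23 : F4 f a c b d := ⟨h.m, h.ha, h.hc, h.hb, h.hd, h.ac, h.ab, h.ad, h.cb, h.cd, h.bd⟩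
theorem s34 : F4 f a b d c := ⟨h.m, h.ha, h.hb, h.hd, h.hc, h.ab, h.ad, h.ac, h.bd, h.bc, h.dc⟩
theorem rot : F4 f c d a b := h.s23.s12.s34.s23

theorem dec (y : W) : y = (f a y / f a a) • a + (f b y / f b b) • b + (f c y / f c c) • c +
    (f d y / f d d) • d := by
  let φ : W →ₗ[F] Fin 4 → F := LinearMap.pi ![f a, f b, f c, f d]
  have h4 : Function.Injective φ := (LinearMap.injective_iff_surjective_of_finrank_eq_finrank
    (by simp [h.m.dim])).2 fun t => ⟨(t 0 / f a a) • a + (t 1 / f b b) • b + (t 2 / f c c) • c +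
      (t 3 / f d d) • d, by
      ext i
      fin_cases i <;> simp [φ, h.ab, h.ac, h.ad, h.bc, h.bd, h.cd, h.ba, h.ca, h.da, h.cb, h.db,
        h.dc, h.ha, h.hb, h.hc, h.hd]⟩
  refine h4 (funext fun i => ?_)
  fin_cases i <;> simp [φ, h.ab, h.ac, h.ad, h.bc, h.bd, h.cd, h.ba, h.ca, h.da, h.cb, h.db,
        h.dc, h.ha, h.hb, h.hc, h.hd]

theorem ext {M : Type*} [AddCommGroup M] [Module F M] {x y : W →ₗ[F] M} (e1 : x a = y a)
    (e2 : x b = y b) (e3 : x c = y c) (e4 : x d = y d) : x = y := LinearMap.ext fun w => by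
  rw [h.dec w]; simp only [map_add, map_smul, e1, e2, e3, e4]

theorem extE (e1 : g a = z a) (e2 : g b = z b) (e3 : g c = z c) (e4 : g d = z d) : g = z :=
  LinearEquiv.toLinearMap_injective (h.ext e1 e2 e3 e4)

theorem mem {S : Submodule F W} (e1 : a ∈ S) (e2 : b ∈ S) (e3 : c ∈ S) (e4 : d ∈ S) (y : W) :
    y ∈ S := by
  rw [h.dec y]
  exact add_mem (add_mem (add_mem (S.smul_mem _ e1) (S.smul_mem _ e2)) (S.smul_mem _ e3))
    (S.smul_mem _ e4)

theorem smul {s : F} (hs : s ≠ 0) : F4 f a (s • b) c d :=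
  ⟨h.m, h.ha, by simp [hs, h.hb], h.hc, h.hd, by simp [h.ab], h.ac, h.ad, by simp [h.bc],
    by simp [h.bd], h.cd⟩

/-- The discriminant is a non-square. -/
theorem disc [Finite F] : ¬ IsSquare (f a a * f b b * (f c c * f d d)) := fun ⟨s, hs⟩ => by
  obtain ⟨x, y, e⟩ := uni h.m.two h.hc h.hd (-f a a)
  obtain ⟨k, hk⟩ := h.m.idx (a + x • c + y • d) (s • b + f b b • ((y * f d d) • c - (x * f c c) • d))
    (fun h0 => h.ha (by simpa [h.ac, h.ad] using congrArg (f a) h0))
    (by simp [h.ac, h.ad, h.cd, h.ca, h.da, h.dc]; linear_combination e)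
    (by simp [h.bc, h.bd, h.cd, h.cb, h.db, h.dc]
        linear_combination -f b b * hs + f b b ^ 2 * f c c * f d d * e)
    (by simp [h.ab, h.ac, h.ad, h.cd, h.cb, h.db, h.dc]; ring)
  have h1 := congrArg (f a) hk
  have h2 := congrArg (f b) hk
  simp [h.ab, h.ac, h.ad, h.ba, h.bc, h.bd, h.ha, h.hb] at h1 h2
  simp [h2, h.ha, h.hb, h.hc, h.hd] at hs

end F4

theorem orth_eq_zero (l : List W) (hl : l.Pairwise (f · · = 0))
    (h0 : ∀ x ∈ l, f x x ≠ 0) : ∀ u ∈ span F {x | x ∈ l}, (∀ x ∈ l, f x u = 0) → u = 0 := by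
  induction l with
  | nil => simp
  | cons a l ih =>
    intro u hu H
    rw [List.pairwise_cons] at hl
    rw [show {x | x ∈ a :: l} = insert a {x | x ∈ l} by ext; simp] at hu
    obtain ⟨s, w, hw, rfl⟩ := mem_span_insert.1 hu
    have h1 : f a w = 0 := (span_le (p := ker (f a))).2 hl.1 hw
    obtain rfl : s = 0 := by simpa [h1, h0 a] using H a (by simp)
    simpa using ih hl.2 (fun x hx => h0 x (by simp [hx])) w hw fun x hx => by
      simpa using H x (by simp [hx])

/-- Eigenvectors of a self-adjoint involution. -/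
theorem M4.exists_ev (m : M4 f) {x : End F W} (hx : ∀ u v, f (x u) v = f u (x v))
    (h2 : ∀ u, x (x u) = u) (l : List W) (hn : l.length < 4) (hl : l.Pairwise (f · · = 0))
    (h0 : ∀ w ∈ l, f w w ≠ 0 ∧ (x w = w ∨ x w = -w)) :
    ∃ d, (∀ w ∈ l, f w d = 0) ∧ f d d ≠ 0 ∧ (x d = d ∨ x d = -d) := by
  obtain ⟨d, h3, h4⟩ := exists_aniso' m.hm m.two l ⊥ (by simpa [m.dim])
    (orth_eq_zero l hl fun w hw => (h0 w hw).1)
  have h5 : ∀ w ∈ l, f w (x d) = 0 := fun w hw => by
    rcases (h0 w hw).2 with e | e <;> simp [← hx, e, h3 w hw]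
  by_cases h6 : f (d + x d) (d + x d) = 0
  · refine ⟨d - x d, fun w hw => by simp [h3 w hw, h5 w hw], fun h7 => ?_, Or.inr (by simp [h2])⟩
    simp only [map_add, map_sub, LinearMap.add_apply, LinearMap.sub_apply, hx, h2] at h6 h7
    exact mul_ne_zero (mul_ne_zero m.two m.two) h4 (by linear_combination h6 + h7)
  · exact ⟨_, fun w hw => by simp [h3 w hw, h5 w hw], h6, Or.inl (by simp [h2, add_comm])⟩

theorem M4.exists_eframe (m : M4 f) {x : End F W} (hx : ∀ u v, f (x u) v = f u (x v))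
    (h2 : ∀ u, x (x u) = u) : ∃ a b c d, F4 f a b c d ∧ (x a = a ∨ x a = -a) ∧
      (x b = b ∨ x b = -b) ∧ (x c = c ∨ x c = -c) ∧ (x d = d ∨ x d = -d) := by
  obtain ⟨a, -, a1, a2⟩ := m.exists_ev hx h2 [] (by simp) (by simp) (by simp)
  obtain ⟨b, b0, b1, b2⟩ := m.exists_ev hx h2 [a] (by simp) (by simp) (by simp [a1, a2])
  simp only [List.mem_cons, List.not_mem_nil, or_false, forall_eq] at b0
  obtain ⟨c, c0, c1, c2⟩ := m.exists_ev hx h2 [a, b] (by simp) (by simp [b0])
    (by simp [a1, a2, b1, b2])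
  simp only [List.mem_cons, List.not_mem_nil, or_false, forall_eq_or_imp, forall_eq] at c0
  obtain ⟨d, d0, d1, d2⟩ := m.exists_ev hx h2 [a, b, c] (by simp) (by simp [b0, c0])
    (by simp [a1, a2, b1, b2, c1, c2])
  simp only [List.mem_cons, List.not_mem_nil, or_false, forall_eq_or_imp, forall_eq] at d0
  exact ⟨a, b, c, d, ⟨m, a1, b1, c1, d1, b0, c0.1, d0.1, c0.2, d0.2.1, d0.2.2⟩, a2, b2, c2, d2⟩

theorem M4.ext3 (m : M4 f) (ha : f a a ≠ 0) (hb : f b b ≠ 0) (hc : f c c ≠ 0) (ab : f a b = 0)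
    (ac : f a c = 0) (bc : f b c = 0) : ∃ d, F4 f a b c d := by
  obtain ⟨d, d0, d1, -⟩ := m.exists_ev (x := 1) (by simp) (by simp) [a, b, c] (by simp)
    (by simp [ab, ac, bc]) (by simp [ha, hb, hc])
  simp only [List.mem_cons, List.not_mem_nil, or_false, forall_eq_or_imp, forall_eq] at d0
  exact ⟨d, m, ha, hb, hc, d1, ab, ac, d0.1, bc, d0.2.1, d0.2.2⟩

theorem M4.ext2 (m : M4 f) (ha : f a a ≠ 0) (hb : f b b ≠ 0) (ab : f a b = 0) :
    ∃ c d, F4 f a b c d := by
  obtain ⟨c, c0, c1, -⟩ := m.exists_ev (x := 1) (by simp) (by simp) [a, b] (by simp)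
    (by simp [ab]) (by simp [ha, hb])
  exact ⟨c, m.ext3 ha hb c1 ab (c0 a (by simp)) (c0 b (by simp))⟩

theorem M4.exists_frame (m : M4 f) : ∃ a b c d, F4 f a b c d :=
  let ⟨a, b, c, d, h, _⟩ := m.exists_eframe (x := 1) (by simp) (by simp); ⟨a, b, c, d, h⟩

/-- A nontrivial element of the radical of the stabiliser of the singular point `p`. -/
structure IsP (f : W →ₗ[F] W →ₗ[F] F) (p : W) (g : W ≃ₗ[F] W) : Prop where
  ne : p ≠ 0
  hp : f p p = 0
  rad : g ∈ Rad f (span F {p})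
  one : g ≠ 1

theorem rad_eq (os : OS f) (hp : f p p = 0) (hp' : f p' p' = 0) (hpp : f p p' = 1)
    (hg : g ∈ Rad f (span F {p})) : ∃ u, f p u = 0 ∧ f p' u = 0 ∧
      (g : End F W) = 1 + wd f u p - (f u u / 2) • xx f p p := by
  obtain ⟨h1, h2, h3⟩ := mem_Rad_span.1 hg
  have h4 : f p (g p') = 1 := by rw [← h2, iso h1, hpp]
  have h5 := iso h1 p' p'
  refine ⟨g p' - p' - f p' (g p') • p, by simp [h4, hp, hpp], by simp [hp', os.symm p' p, hpp],
    LinearMap.ext fun y => os.hm.ext_right fun w => ?_⟩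
  obtain ⟨s, hs⟩ := h3 (y - f p y • p') (by simp [hpp])
  have h6 := iso h1 p' (y - f p y • p')
  rw [hs] at h6
  have h7 : g y = y - f p y • p' + s • p + f p y • g p' := by rw [← hs]; simp
  simp only [LinearEquiv.coe_coe, h7, LinearMap.sub_apply, LinearMap.add_apply, End.one_apply,
    wd_apply, LinearMap.smul_apply, xx_apply, map_add, map_sub, map_smul, smul_eq_mul, h4, h5,
    os.symm (g p') p, os.symm (g p') p', os.symm p' p, hp, hp', hpp] at h6 ⊢
  have := os.two
  field_simp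
  linear_combination 2 * f w p * h6

namespace IsP

variable (h : IsP f p g)
include h

theorem eq (m : M4 f) (hp' : f p' p' = 0) (hpp : f p p' = 1) : ∃ u, f p u = 0 ∧ f p' u = 0 ∧
    f u u ≠ 0 ∧ (g : End F W) = 1 + wd f u p - (f u u / 2) • xx f p p := by
  obtain ⟨u, h1, h2, h3⟩ := rad_eq m.toOS h.hp hp' hpp h.rad
  refine ⟨u, h1, h2, fun h0 => h.one (LinearEquiv.toLinearMap_injective ?_), h3⟩
  obtain ⟨s, rfl⟩ := m.idx p u h.ne h.hp h0 h1
  simp [h3, wd_smul_left, h.hp, End.one_eq_id]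

theorem sq (m : M4 f) : ∃ k : F, k ≠ 0 ∧ ((g : End F W) - 1) * (g - 1) = k • xx f p p := by
  obtain ⟨p', a1, a2⟩ := m.hm.exists_partner h.ne h.hp
  obtain ⟨u, h1, -, h2, h3⟩ := h.eq m a1 a2
  refine ⟨-f u u, neg_ne_zero.2 h2, LinearMap.ext fun y => ?_⟩
  simp [h3, wd_apply, h.hp, h1, m.symm u p, smul_smul, mul_comm]

theorem gen (m : M4 f) : ∃ p' a, g a = a ∧ ∀ S : Submodule F W, p' ∈ S → a ∈ S →
    (∀ y ∈ S, g y ∈ S) → S = ⊤ := by
  obtain ⟨p', a1, a2⟩ := m.hm.exists_partner h.ne h.hp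
  obtain ⟨u, h1, h4, h2, h3⟩ := h.eq m a1 a2
  have a3 := m.symm p' p
  have e : ∀ y, g y = y + (f p y • u - f u y • p) - (f u u / 2 * f p y) • p := fun y => by
    simpa [wd_apply, smul_smul] using LinearMap.congr_fun h3 y
  obtain ⟨a, fr⟩ := m.ext3 (a := p + p') (b := p - p') (c := u)
    (by simpa [h.hp, a1, a2, a3, ← two_mul, one_add_one_eq_two] using m.two)
    (by simpa [h.hp, a1, a2, a3, ← neg_add', one_add_one_eq_two] using m.two) h2
    (by simp [h.hp, a1, a2, a3]) (by simp [h1, h4]) (by simp [h1, h4])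
  have h5 : f p a = 0 := mul_left_cancel₀ m.two (by
    have := fr.ad; have := fr.bd; simp only [map_add, map_sub, LinearMap.add_apply,
      LinearMap.sub_apply] at *; linear_combination ‹_ + _ = (0 : F)› + this)
  refine ⟨p', a, by simp [e, h5, fr.cd], fun S b1 b2 b3 => eq_top_iff.2 fun y _ => ?_⟩
  have c1 : u - (f u u / 2) • p ∈ S := by
    convert sub_mem (b3 _ b1) b1 using 1
    simp only [e, a2, m.symm u p', h4]; module
  have c2 : p ∈ S := by
    rw [← S.smul_mem_iff (neg_ne_zero.2 h2)]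
    convert sub_mem (b3 _ c1) c1 using 1
    simp [e, h1, h.hp, m.symm u p]
  exact fr.mem (add_mem c2 b1) (sub_mem c2 b1) (by simpa using add_mem c1 (S.smul_mem (f u u / 2) c2))
    b2 y

theorem pow (m : M4 f) (q : ℕ) [Fact q.Prime] [CharP F q] : g ^ q = 1 := pow_char_of_Rad q m.two h.rad

end IsP

theorem isP_eich (m : M4 f) (hp0 : p ≠ 0) (hp : f p p = 0) (hu : f p u = 0) (h0 : f u u ≠ 0) :
    IsP f p (m.hm.eich hp hu (f u u / 2)) :=
  ⟨hp0, hp, eich_mem m.hm m.two hp hu, fun e => by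
    simpa [m.hm.eich_apply, hu, h0, hp0] using congrArg (· u) e⟩

theorem M4.exists_isP (m : M4 f) (hp0 : p ≠ 0) (hp : f p p = 0) : ∃ g, IsP f p g :=
  let ⟨_, h1, h2⟩ := m.exists_perp p; ⟨_, isP_eich m hp0 hp h1 h2⟩

/-- Unipotent isometries. -/
theorem M4.rad_of_pow [Finite F] (m : M4 f) (q : ℕ) [hq : Fact q.Prime] [CharP F q]
    (hg : g ∈ isomGroup f) (e : g ^ q = 1) (h1 : g ≠ 1) : ∃ p, IsP f p g := by
  set N : End F W := (g : End F W) - 1
  have eN : ∀ y, g y = y + N y := fun y => by simp [N]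
  have h0 : N ^ q = 0 := by rw [sub_one_pow_char, e]; exact sub_self _
  have key : ∀ S : Submodule F W, ∀ A : W → Prop, (∀ w, A w → A (N w)) →
      (∀ w, A w → N (N w) ∈ S → N w ∈ S) → ∀ w, A w → N w ∈ S := fun S A hA H w hw => by
    have h2 : ∀ k w, A w → (N ^ (k + 1)) w ∈ S → N w ∈ S := fun k => by
      induction k with
      | zero => simp
      | succ k ih => exact fun w a hw => H w a (ih _ (hA w a) (by simpa [pow_succ] using hw))
    exact h2 q w hw (by simp [pow_succ, h0])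
  obtain ⟨w, h2, h3⟩ : ∃ w, N (N w) = 0 ∧ N w ≠ 0 := by
    by_contra! hc
    exact h1 (LinearEquiv.ext fun w => by
      simpa [eN] using key ⊥ (fun _ => True) (by simp) (fun w _ => hc w) w trivial)
  have h4 : ∀ y, f (N w) (N y) = 0 := fun y => by
    simpa [eN, h2] using iso hg (N w) y
  refine ⟨N w, h3, h4 w, mem_Rad_span.2 ⟨hg, by simp [eN, h2], fun y hy => ?_⟩, h1⟩
  obtain ⟨s, hs⟩ := mem_span_singleton.1 (key (span F {N w}) (f (N w) · = 0) (fun y _ => h4 y)
    (fun y hy hy' => by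
      obtain ⟨s, hs⟩ := mem_span_singleton.1 hy'
      obtain ⟨t, ht⟩ := m.idx (N w) (N y) h3 (h4 w) (by
        simpa [eN, ← hs, m.symm _ (N w), hy, h4] using iso hg y (N y)) (h4 y)
      exact mem_span_singleton.2 ⟨t, ht.symm⟩) y hy)
  exact ⟨s, by rw [eN, hs]⟩

theorem isP_rf (m : M4 f) (hp0 : p ≠ 0) (hp : f p p = 0) (ha : f a a ≠ 0) (hpa : f p a = 0)
    (hr : IsRf f a r) (hr' : IsRf f (a + p) r') : IsP f p (r * r') := by
  have h1 : f (a + p) (a + p) = f a a := by simp [hp, hpa, m.symm a p]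
  have e : ∀ y, f p y = 0 → (r * r') y = y + (-(2 / f a a * f a y)) • p := fun y hy => by
    rw [LinearEquiv.mul_apply, hr' y, h1]
    simp only [hr _, map_sub, map_smul, map_add, hy,
      LinearMap.add_apply, m.symm a p, hpa, smul_eq_mul]
    match_scalars <;> field_simp
    all_goals ring
  refine ⟨hp0, hp, mem_Rad_span.2 ⟨mul_mem (hr.isom m.hm ha) (hr'.isom m.hm (h1 ▸ ha)),
    by simp [e p hp, m.symm a p, hpa], fun y hy => ⟨_, e y hy⟩⟩, fun h0 => ?_⟩
  simpa [h0, ha, m.two, hp0] using e a hpa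

/-- An isometry acting as a sign on three frame vectors centralises a root element. -/
theorem F4.exists_comm [Finite F] (h : F4 f a b c d) (hz : z ∈ isomGroup f) {s : F} (hs : s * s = 1)
    (e1 : z a = s • a) (e2 : z b = s • b) (e3 : z c = s • c) : ∃ p g, IsP f p g ∧ Commute g z := by
  obtain ⟨x, y, e⟩ := uni h.m.two h.ha h.hb (-f c c)
  have h1 : f (x • a + y • b + c) (x • a + y • b + c) = 0 := by
    simp [h.ab, h.ac, h.bc, h.ba, h.ca, h.cb]; linear_combination e
  have h2 : f (x • a + y • b + c) ((y * f b b) • a - (x * f a a) • b) = 0 := by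
    simp [h.ab, h.ba, h.ca, h.cb]; ring
  have h3 : z (x • a + y • b + c) = s • (x • a + y • b + c) := by
    simp only [map_add, map_smul, e1, e2, e3]; module
  have h4 : z ((y * f b b) • a - (x * f a a) • b) = s • ((y * f b b) • a - (x * f a a) • b) := by
    simp only [map_sub, map_smul, e1, e2]; module
  refine ⟨_, _, isP_eich h.m (fun h0 => h.hc (by simpa [h.ca, h.cb] using congrArg (f c) h0)) h1 h2
    fun h0 => mul_ne_zero (mul_ne_zero h.ha h.hb) h.hc ?_, LinearEquiv.ext fun w => ?_⟩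
  · simp [h.ab, h.ba] at h0
    linear_combination f a a * f b b * e - h0
  generalize x • a + y • b + c = p at *
  generalize (y * f b b) • a - (x * f a a) • b = u at *
  have h5 : ∀ v, z v = s • v → f v (z w) = s * f v w := fun v hv => by
    rw [← iso hz v w, hv]; simp [← mul_assoc, hs]
  simp only [LinearEquiv.mul_apply, Hm.eich_apply, map_add, map_sub, map_smul, h3, h4, h5 _ h3,
    h5 _ h4]
  module

/-- An involution with two eigenplanes. -/
structure EF (f : W →ₗ[F] W →ₗ[F] F) (z : W ≃ₗ[F] W) (a b c d : W) : Prop extends F4 f a b c d where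
  za : z a = -a
  zb : z b = -b
  zc : z c = c
  zd : z d = d

/-- An involution with two eigenplanes. -/
def IsE (f : W →ₗ[F] W →ₗ[F] F) (z : W ≃ₗ[F] W) : Prop := ∃ a b c d, EF f z a b c d

/-- The negative of an automorphism. -/
abbrev ng (z : W ≃ₗ[F] W) : W ≃ₗ[F] W := LinearEquiv.neg F * z

theorem coe_ng (z : W ≃ₗ[F] W) : (ng z : End F W) = -(z : End F W) := rfl

theorem ng_ng (z : W ≃ₗ[F] W) : ng (ng z) = z := LinearEquiv.ext fun y => by simp

theorem self_adj (hz : z ∈ isomGroup f) (h2 : z * z = 1) (u v : W) : f (z u) v = f u (z v) := by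
  rw [← iso hz u, show z (z v) = v from congrArg (· v) h2]

namespace EF

variable (h : EF f z a b c d)
include h

theorem neg : EF f (ng z) c d a b := ⟨h.rot, by simp [h.zc], by simp [h.zd], by simp [h.za],
  by simp [h.zb]⟩

theorem sq : z * z = 1 := h.extE (by simp [h.za]) (by simp [h.zb]) (by simp [h.zc]) (by simp [h.zd])

theorem eq (hr : IsRf f a r) (hr' : IsRf f b r') : z = r * r' := by
  refine h.extE ?_ ?_ ?_ ?_ <;>
    simp [h.za, h.zb, h.zc, h.zd, hr _, hr' _, h.ab, h.ba, h.ac, h.ad, h.bc, h.bd, h.ha, h.hb] <;>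
    module

theorem isom : z ∈ isomGroup f := by
  obtain ⟨r, hr⟩ := exists_rf h.m.hm h.ha
  obtain ⟨r', hr'⟩ := exists_rf h.m.hm h.hb
  exact h.eq hr hr' ▸ mul_mem (hr.isom h.m.hm h.ha) (hr'.isom h.m.hm h.hb)

theorem of_neg (hy : z v = -v) : v = (f a v / f a a) • a + (f b v / f b b) • b := by
  have h1 : ∀ u, z u = u → f u v = 0 := fun u hu => mul_left_cancel₀ h.m.two (by
    have := iso h.isom u v
    rw [hu, hy, map_neg] at this
    linear_combination -this)
  simpa [h1 c h.zc, h1 d h.zd] using h.dec v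

theorem of_fix (hy : z v = v) : v = (f c v / f c c) • c + (f d v / f d d) • d :=
  h.neg.of_neg (by simp [hy])

theorem finrank_ker : finrank F (ker ((z : End F W) - 1)) = 2 := by
  have h1 : ker ((z : End F W) - 1) = span F (Set.range ![c, d]) := by
    refine le_antisymm (fun v hv => ?_) (span_le.2 ?_)
    · rw [h.of_fix (sub_eq_zero.1 hv)]
      exact add_mem (smul_mem _ _ (subset_span ⟨0, rfl⟩)) (smul_mem _ _ (subset_span ⟨1, rfl⟩))
    · rintro _ ⟨i, rfl⟩
      fin_cases i <;> simp [h.zc, h.zd]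
  rw [h1, finrank_span_eq_card (LinearIndependent.pair_iff.2 fun s t e => ⟨by
    simpa [h.cd, h.hc] using congrArg (f c) e, by simpa [h.dc, h.hd] using congrArg (f d) e⟩)]
  simp

theorem exists_anti : ∃ k : W ≃ₗ[F] W, k * z = ng (z * k) := by
  let k : End F W := (f c c)⁻¹ • xx f a c + (f d d)⁻¹ • xx f b d + (f a a)⁻¹ • xx f c a +
    (f b b)⁻¹ • xx f d b
  have e : k a = c ∧ k b = d ∧ k c = a ∧ k d = b := by
    simp [k, h.ab, h.ac, h.ad, h.bc, h.bd, h.cd, h.ba, h.ca, h.da, h.cb, h.db, h.dc, h.ha, h.hb,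
      h.hc, h.hd]
  have h1 : k * k = 1 := h.ext (by simp [e]) (by simp [e]) (by simp [e]) (by simp [e])
  obtain ⟨k', h2⟩ : ∃ k' : W ≃ₗ[F] W, ∀ y, k' y = k y :=
    ⟨.ofInvolutive k (LinearMap.congr_fun h1), fun _ => rfl⟩
  simp only [← h2] at e
  exact ⟨k', h.extE (by simp [e, h.za, h.zc])
    (by simp [e, h.zb, h.zd]) (by simp [e, h.za, h.zc]) (by simp [e, h.zb, h.zd])⟩

theorem not_scalar (s : F) : (z : End F W) ≠ s • 1 := fun e => by
  have h1 := congrArg (f a) (LinearMap.congr_fun e a)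
  have h2 := congrArg (f c) (LinearMap.congr_fun e c)
  simp [h.za, h.zc, h.hc] at h1 h2
  exact mul_ne_zero h.m.two h.ha (by linear_combination -h1 - f a a * h2)

end EF

theorem F4.ef (h : F4 f a b c d) (hr : IsRf f a r) (hr' : IsRf f b r') : EF f (r * r') a b c d := by
  refine ⟨h, ?_, ?_, ?_, ?_⟩ <;>
    simp [hr _, hr' _, h.ab, h.ba, h.ac, h.ad, h.bc, h.bd, h.ha, h.hb] <;> module

theorem F4.exists_ef (h : F4 f a b c d) : ∃ z, EF f z a b c d :=
  let ⟨_, hr⟩ := exists_rf h.m.hm h.ha; let ⟨_, hr'⟩ := exists_rf h.m.hm h.hb; ⟨_, h.ef hr hr'⟩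

theorem IsE.neg (h : IsE f z) : IsE f (ng z) := let ⟨_, _, _, _, h⟩ := h; ⟨_, _, _, _, h.neg⟩

/-- The types of isometric involutions. -/
theorem M4.invol (m : M4 f) (hz : z ∈ isomGroup f) (h2 : z * z = 1) : IsE f z ∨
    ∃ a b c d, ∃ s t : F, F4 f a b c d ∧ s * s = 1 ∧ t * t = 1 ∧ z a = s • a ∧ z b = s • b ∧
      z c = s • c ∧ z d = t • d := by
  obtain ⟨a, b, c, d, h, e1, e2, e3, e4⟩ := m.exists_eframe (x := z) (self_adj hz h2)
    fun u => congrArg (· u) h2
  have k : ∀ {a b c d}, F4 f a b c d → ∀ s : F, s * s = 1 → z a = s • a → z b = s • b →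
      z c = s • c → (z d = d ∨ z d = -d) → ∃ a b c d, ∃ s t : F, F4 f a b c d ∧ s * s = 1 ∧
        t * t = 1 ∧ z a = s • a ∧ z b = s • b ∧ z c = s • c ∧ z d = t • d :=
    fun h s hs e1 e2 e3 e4 => e4.elim (fun e => ⟨_, _, _, _, s, 1, h, hs, by simp, e1, e2, e3,
      by simpa⟩) fun e => ⟨_, _, _, _, s, -1, h, hs, by simp, e1, e2, e3, by simpa⟩
  have k1 := fun {a b c d} (h : F4 f a b c d) (e1 : z a = a) (e2 : z b = b) (e3 : z c = c) =>
    k h 1 (by simp) (by simpa) (by simpa) (by simpa)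
  have k2 := fun {a b c d} (h : F4 f a b c d) (e1 : z a = -a) (e2 : z b = -b) (e3 : z c = -c) =>
    k h (-1) (by simp) (by simpa) (by simpa) (by simpa)
  rcases e1 with e1 | e1 <;> rcases e2 with e2 | e2 <;> rcases e3 with e3 | e3
  · exact .inr (k1 h e1 e2 e3 e4)
  · exact e4.elim (fun e4 => .inr (k1 h.s34 e1 e2 e4 (.inr e3)))
      fun e4 => .inl ⟨_, _, _, _, h.rot, e3, e4, e1, e2⟩
  · exact e4.elim (fun e4 => .inr (k1 h.s23.s34 e1 e3 e4 (.inr e2)))
      fun e4 => .inl ⟨_, _, _, _, h.s23.rot, e2, e4, e1, e3⟩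
  · exact e4.elim (fun e4 => .inl ⟨_, _, _, _, h.s12.s23, e2, e3, e1, e4⟩)
      fun e4 => .inr (k2 h.s12.s23.s34 e2 e3 e4 (.inl e1))
  · exact e4.elim (fun e4 => .inr (k1 h.s12.s23.s34 e2 e3 e4 (.inr e1)))
      fun e4 => .inl ⟨_, _, _, _, h.s12.s23.rot, e1, e4, e2, e3⟩
  · exact e4.elim (fun e4 => .inl ⟨_, _, _, _, h.s23, e1, e3, e2, e4⟩)
      fun e4 => .inr (k2 h.s23.s34 e1 e3 e4 (.inl e2))
  · exact e4.elim (fun e4 => .inl ⟨_, _, _, _, h, e1, e2, e3, e4⟩)
      fun e4 => .inr (k2 h.s34 e1 e2 e4 (.inl e3))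
  · exact .inr (k2 h e1 e2 e3 e4)

theorem M4.invol' [Finite F] (m : M4 f) (hz : z ∈ isomGroup f) (h2 : z * z = 1) :
    IsE f z ∨ ∃ p g, IsP f p g ∧ Commute g z :=
  (m.invol hz h2).imp_right fun ⟨_, _, _, _, _, _, h, hs, _, e1, e2, e3, _⟩ =>
    h.exists_comm hz hs e1 e2 e3

theorem M4.isE_of (m : M4 f) (hz : z ∈ isomGroup f) (h2 : z * z = 1)
    (h3 : finrank F (ker ((z : End F W) - 1)) = 2) : IsE f z :=
  (m.invol hz h2).resolve_right fun ⟨a, b, c, d, s, t, h, hs, _, e1, e2, e3, _⟩ => by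
    have h4 := finrank_ker_add m.two (b := (z : End F W)) fun u => congrArg (· u) h2
    have h5 : 3 ≤ finrank F (ker ((z : End F W) - s • 1)) := by
      have : LinearIndependent F ![(⟨a, by simp [e1]⟩ : ker ((z : End F W) - s • 1)),
          ⟨b, by simp [e2]⟩, ⟨c, by simp [e3]⟩] := Fintype.linearIndependent_iff.2 fun k hk i => by
        have := congrArg Subtype.val hk
        simp only [Fin.sum_univ_three] at this
        fin_cases i
        · simpa [h.ab, h.ac, h.ha] using congrArg (f a) this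
        · simpa [h.ba, h.bc, h.hb] using congrArg (f b) this
        · simpa [h.ca, h.cb, h.hc] using congrArg (f c) this
      simpa using this.fintype_card_le_finrank
    rcases mul_self_eq_one_iff.1 hs with rfl | rfl
    · rw [one_smul] at h5; omega
    · rw [neg_one_smul, sub_neg_eq_add] at h5; have := m.dim; omega

/-- One of the two eigenplanes is hyperbolic. -/
theorem IsE.hyp [Finite F] (h : IsE f z) : ∃ z' p p', (z' = z ∨ z' = ng z) ∧ IsE f z' ∧
    f p p = 0 ∧ f p' p' = 0 ∧ f p p' = 1 ∧ z' p = -p ∧ z' p' = -p' := by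
  have k : ∀ {z a b c d}, EF f z a b c d → IsSquare (-(f a a * f b b)) → ∃ p p',
      f p p = 0 ∧ f p' p' = 0 ∧ f p p' = 1 ∧ z p = -p ∧ z p' = -p' := fun {z a b c d} h ⟨s, hs⟩ => by
    have := h.ha
    have := h.hb
    have := h.m.two
    refine ⟨s • a + f a a • b, (-(2 * f a a ^ 2 * f b b)⁻¹) • (s • a - f a a • b), ?_, ?_, ?_,
      by simp [h.za, h.zb, add_comm], by simp only [map_smul, map_sub, h.za, h.zb]; module⟩ <;>
      simp only [map_add, map_sub, map_smul, LinearMap.add_apply, LinearMap.sub_apply,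
        LinearMap.smul_apply, h.ab, h.ba, smul_eq_mul] <;> field_simp
    · linear_combination -f a a * hs
    · linear_combination -hs
    · linear_combination hs
  obtain ⟨a, b, c, d, h⟩ := h
  rcases sq_or_sq (s := -(f a a * f b b)) (t := -(f c c * f d d)) (by simp [h.ha, h.hb])
    (by simp [h.hc, h.hd]) (by simpa using h.disc) with e | e
  · exact (k h e).elim fun p ⟨p', e⟩ => ⟨z, p, p', .inl rfl, ⟨_, _, _, _, h⟩, e⟩
  · exact (k h.neg e).elim fun p ⟨p', e⟩ => ⟨_, p, p', .inr rfl, ⟨_, _, _, _, h.neg⟩, e⟩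

/-- One of the two eigenplanes has an orthogonal basis of vectors of the same norm. -/
theorem IsE.eqn [Finite F] (h : IsE f z) : ∃ z' a b c d, (z' = z ∨ z' = ng z) ∧ EF f z' a b c d ∧
    f b b = f a a := by
  have k : ∀ {z a b c d}, EF f z a b c d → IsSquare (f a a * f b b) → ∃ b, EF f z a b c d ∧
      f b b = f a a := fun {z a b c d} h ⟨s, hs⟩ => by
    have := h.hb
    refine ⟨(s / f b b) • b, ⟨h.smul (div_ne_zero (by rintro rfl; simp [h.ha, h.hb] at hs) h.hb),
      h.za, by simp [h.zb], h.zc, h.zd⟩, ?_⟩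
    simp only [map_smul, LinearMap.smul_apply, smul_eq_mul]
    field_simp
    linear_combination -hs
  obtain ⟨a, b, c, d, h⟩ := h
  rcases sq_or_sq (mul_ne_zero h.ha h.hb) (mul_ne_zero h.hc h.hd) h.disc with e | e
  · exact (k h e).elim fun b e => ⟨z, a, b, c, d, .inl rfl, e⟩
  · exact (k h.neg e).elim fun d e => ⟨_, c, d, a, b, .inr rfl, e⟩

/-- A quarter turn. -/
theorem EF.exists_rot (h : EF f z a b c d) (e : f b b = f a a) : ∃ r r', f (a - b) (a - b) ≠ 0 ∧
    IsRf f (a - b) r ∧ IsRf f b r' ∧ (r * r') a = b ∧ (r * r') b = -a ∧ (r * r') c = c ∧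
      (r * r') d = d ∧ r * r' * (r * r') = z := by
  have h1 : f (a - b) (a - b) = 2 * f a a := by simp [h.ab, h.ba, e]; ring
  have h2 := h1 ▸ mul_ne_zero h.m.two h.ha
  obtain ⟨r, hr⟩ := exists_rf h.m.hm h2
  obtain ⟨r', hr'⟩ := exists_rf h.m.hm h.hb
  have := h.m.two
  have := h.ha
  have h3 : r a = b := by rw [hr, h1]; simp [h.ba]; match_scalars <;> field_simp; ring
  have h4 : r b = a := by rw [hr, h1]; simp [h.ab, e]; match_scalars <;> field_simp; ring
  have h5 : (r * r') a = b := by simp [hr' a, h.ba, h3]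
  have h6 : (r * r') b = -a := by simp [hr' b, h.hb, h4]; module
  have h7 : (r * r') c = c := by simp [hr' c, hr c, h.bc, h.ac]
  have h8 : (r * r') d = d := by simp [hr' d, hr d, h.bd, h.ad]
  refine ⟨r, r', h2, hr, hr', h5, h6, h7, h8, h.extE ?_ ?_ ?_ ?_⟩ <;>
    simp only [LinearEquiv.mul_apply (r * r'), h5, h6, h7, h8, map_neg, h.za, h.zb, h.zc, h.zd]

/-- A similarity. -/
def Sim (f : W →ₗ[F] W →ₗ[F] F) (g : W ≃ₗ[F] W) (k : F) : Prop := ∀ u v, f (g u) (g v) = k * f u v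

theorem IsE.not_anti [Finite F] (h : IsE f z) {k : F} (hg : Sim f g k) : g * z ≠ ng (z * g) := by
  intro e
  obtain ⟨z', p, p', h1, ⟨a, b, c, d, h⟩, h2, -, h3, h4, -⟩ := h.hyp
  have h5 : z' (g p) = g p := by
    have := congrArg (· p) e
    rcases h1 with rfl | rfl
    · simpa [h4] using this.symm
    · simpa [show z p = p by simpa using h4] using this.symm
  have h6 := iso h.isom p (g p)
  rw [h4, h5, map_neg, LinearMap.neg_apply] at h6
  have hp : p ≠ 0 := by rintro rfl; simp at h3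
  obtain ⟨s, hs⟩ := h.m.idx p (g p) hp h2 (by simp [hg p, h2])
    (mul_left_cancel₀ h.m.two (by linear_combination -h6))
  rw [hs, map_smul, h4, ← hs] at h5
  exact hp (g.map_eq_zero_iff.1 ((smul_eq_zero.1 (show (2 : F) • g p = 0 by
    rw [hs] at h5 ⊢; linear_combination (norm := module) -h5)).resolve_left h.m.two))

/-- A similarity with scalar square is self-adjoint. -/
theorem M4.sim_adj [Finite F] (m : M4 f) {k s : F} (hg : Sim f g k) (e : ∀ y, g (g y) = s • y) :
    k = s ∧ s ≠ 0 ∧ ∀ u v, f (g u) v = f u (g v) := by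
  obtain ⟨a, _, _, _, h⟩ := m.exists_frame
  have h0 : s ≠ 0 := by
    rintro rfl
    exact h.ha (by simp [show a = 0 by simpa using e a])
  have h1 : ∀ u v, s * f (g u) v = k * f u (g v) := fun u v => by rw [← hg, e]; simp
  have h2 : k * k = s * s := mul_right_cancel₀ h.ha (by
    have := hg (g a) (g a)
    simp only [e, hg a, map_smul, LinearMap.smul_apply, smul_eq_mul] at this
    linear_combination -this)
  rcases mul_self_eq_mul_self_iff.1 h2 with rfl | rfl
  · exact ⟨rfl, h0, fun u v => mul_left_cancel₀ h0 (h1 u v)⟩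
  obtain ⟨t, ht⟩ := m.scalar_of_iso (b := g) fun p hp0 hp => m.idx p (g p) hp0 hp
    (by simp [hg p, hp]) (mul_left_cancel₀ (mul_ne_zero m.two h0) (by
      linear_combination h1 p p + s * m.symm p (g p)))
  have h3 : ∀ y, g y = t • y := LinearMap.congr_fun ht
  have h4 := h1 a a
  have h5 := congrArg (f a) (e a)
  simp only [h3, map_smul, LinearMap.smul_apply, smul_eq_mul] at h4 h5
  exact (mul_ne_zero (mul_ne_zero m.two h0) (mul_ne_zero h0 h.ha) (by
    linear_combination t * h4 - 2 * s * h5)).elim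

theorem EF.sq_plane (h : EF f z a b c d) {k : F} (hg : Sim f g k) (e : Commute g z)
    (H : ∀ u v, f (g (g u)) v = f u (g (g v))) : ∃ t : F, g (g a) = t • a ∧ g (g b) = t • b := by
  have h1 := h.of_neg (v := g a) (by simpa [h.za] using congrArg (· a) e.eq.symm)
  have h2 := h.of_neg (v := g b) (by simpa [h.zb] using congrArg (· b) e.eq.symm)
  generalize f a (g a) / f a a = α, f b (g a) / f b b = β, f a (g b) / f a a = γ,
    f b (g b) / f b b = δ at h1 h2
  have e1 := hg a a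
  have e2 := hg b b
  have e3 := hg a b
  have e4 := H a b
  simp only [h1, h2, map_add, map_smul, LinearMap.add_apply, LinearMap.smul_apply, h.ab, h.ba,
    smul_eq_mul] at e1 e2 e3 e4 ⊢
  by_cases h3 : α + δ = 0
  · obtain rfl := eq_neg_of_add_eq_zero_right h3
    exact ⟨α * α + β * γ, by module, by module⟩
  have h4 : β * f b b = γ * f a a := mul_left_cancel₀ h3 (by linear_combination e4)
  obtain rfl : β = 0 := mul_left_cancel₀ (mul_ne_zero h3 h.hb) (by linear_combination e3 + α * h4)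
  obtain rfl : γ = 0 := by simpa [h.ha] using h4.symm
  have h5 : α * α = k := mul_right_cancel₀ h.ha (by linear_combination e1)
  have h6 : δ * δ = k := mul_right_cancel₀ h.hb (by linear_combination e2)
  exact ⟨k, by simp [smul_smul, h5], by simp [smul_smul, h6]⟩

/-- The square of a similarity centralising `z`. -/
theorem IsE.sq_eq [Finite F] (h : IsE f z) {k s : F} (hg : Sim f g k) (e : Commute g z)
    (H : ∀ y, g (g (g (g y))) = s • y) :
    ∃ t : F, (g : End F W) * g = t • 1 ∨ (g : End F W) * g * z = t • 1 := by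
  obtain ⟨a, b, c, d, h⟩ := h
  obtain ⟨-, -, h1⟩ := h.m.sim_adj (g := g * g) (k := k * k) (fun u v => by simp [hg _, mul_assoc]) H
  obtain ⟨t, a1, a2⟩ := h.sq_plane hg e h1
  obtain ⟨t', a3, a4⟩ := h.neg.sq_plane hg (LinearEquiv.ext fun y => by
    simpa using congrArg (· y) e.eq) h1
  have h2 := congrArg (f a) (H a)
  have h3 := congrArg (f c) (H c)
  simp only [a1, a3, map_smul, smul_eq_mul, ← mul_assoc] at h2 h3
  rcases mul_self_eq_mul_self_iff.1 ((mul_right_cancel₀ h.ha h2).trans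
    (mul_right_cancel₀ h.hc h3).symm) with rfl | rfl
  · exact ⟨t, .inl (h.ext a1 a2 a3 a4)⟩
  · exact ⟨t', .inr (h.ext (by simp [h.za, a1]) (by simp [h.zb, a2]) (by simp [h.zc, a3])
      (by simp [h.zd, a4]))⟩

end Cfsg.Lib.Class.WrO
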