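import Cfsg.Agent.Class.WrO.K4a

/-!
The orthogonal 4-space of minus type: similarities with non-square multiplier, and the commutator
subgroup.
-/

set_option autoImplicit false
set_option linter.unusedSectionVars false

namespace Cfsg.Lib.Class.WrO

open Module Submodule Tens Tn FE AO Form Wr
open LinearMap (range ker)
open scoped commutatorElement

variable {F W : Type*} [Field F] [AddCommGroup W] [Module F W] [FiniteDimensional F W]
  {f : W →ₗ[F] W →ₗ[F] F} {a b c d e p p' u v : W} {g z z' r r' : W ≃ₗ[F] W} {s : F}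

/-- A reflection. -/
def IsR (f : W →ₗ[F] W →ₗ[F] F) (r : W ≃ₗ[F] W) : Prop := ∃ a, f a a ≠ 0 ∧ IsRf f a r

theorem IsR.isom (hf : Hm f 1) (h : IsR f r) : r ∈ isomGroup f := let ⟨_, h1, h2⟩ := h; h2.isom hf h1

theorem IsR.inv (hf : Hm f 1) (h : IsR f r) : r⁻¹ = r := let ⟨_, h1, h2⟩ := h; h2.inv hf h1

theorem IsRf.comm (hr : IsRf f a r) (hz : z ∈ isomGroup f) (h : z a = a ∨ z a = -a) :
    Commute r z := LinearEquiv.ext fun y => by
  have := iso hz a y
  rcases h with h | h <;> rw [h] at this <;> simp [hr _, ← this, h, sub_eq_add_neg]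

theorem EF.neg_of (h : EF f z a b c d) (h1 : f c v = 0) (h2 : f d v = 0) : z v = -v := by
  rw [h.dec v]; simp [h1, h2, h.za, h.zb, add_comm]

theorem EF.fix_of (h : EF f z a b c d) (h1 : f a v = 0) (h2 : f b v = 0) : z v = v := by
  simpa using h.neg.neg_of h1 h2

/-- A self-adjoint map whose square is a non-square scalar. -/
structure IsS (f : W →ₗ[F] W →ₗ[F] F) (g : W ≃ₗ[F] W) (s : F) : Prop where
  m : M4 f
  adj : ∀ u v, f (g u) v = f u (g v)
  sq : ∀ y, g (g y) = s • y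
  ns : ¬ IsSquare s

/-- The half turn about the line through `e`. -/
def IsG (f : W →ₗ[F] W →ₗ[F] F) (g : W ≃ₗ[F] W) (e : W) (z : W ≃ₗ[F] W) : Prop :=
  z e = -e ∧ z (g e) = -g e ∧ ∀ y, f e y = 0 → f e (g y) = 0 → z y = y

/-- The second vector of the line through `e`. -/
abbrev lv2 (f : W →ₗ[F] W →ₗ[F] F) (g : W ≃ₗ[F] W) (e : W) : W := f e e • g e - f e (g e) • e

/-- The discriminant of the line through `e`. -/
abbrev dsc (f : W →ₗ[F] W →ₗ[F] F) (g : W ≃ₗ[F] W) (s : F) (e : W) : F :=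
  s * f e e ^ 2 - f e (g e) ^ 2

namespace IsS

variable (h : IsS f g s)
include h

theorem ne : s ≠ 0 := by rintro rfl; simpa using h.ns

theorem eq_zero {x y : F} (e : s * y ^ 2 = x ^ 2) : y = 0 := by_contra fun h0 =>
  h.ns ⟨x / y, by field_simp; exact e⟩

theorem dsc_ne (he : f e e ≠ 0) : dsc f g s e ≠ 0 := fun h0 => he (h.eq_zero (sub_eq_zero.1 h0))

theorem norm_lv : f (lv2 f g e) (lv2 f g e) = f e e * dsc f g s e := by
  simp [h.adj, h.sq]; ring

theorem frame (he : f e e ≠ 0) (hc : f c c ≠ 0) (h1 : f e c = 0) (h2 : f e (g c) = 0) :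
    F4 f e (lv2 f g e) c (lv2 f g c) :=
  ⟨h.m, he, h.norm_lv ▸ mul_ne_zero he (h.dsc_ne he), hc, h.norm_lv ▸ mul_ne_zero hc (h.dsc_ne hc),
    by simp [mul_comm], h1, by simp [h1, h2], by simp [h.adj, h1, h2],
    by simp [h.adj, h.sq, h1, h2], by simp [mul_comm]⟩

theorem exists_perp (he : f e e ≠ 0) : ∃ c, f c c ≠ 0 ∧ f e c = 0 ∧ f e (g c) = 0 := by
  obtain ⟨c, d, fr⟩ := h.m.ext2 he (h.norm_lv ▸ mul_ne_zero he (h.dsc_ne he)) (by simp [mul_comm])
  exact ⟨c, fr.hc, fr.ac, by simpa [h.adj, fr.ac, he] using fr.bc⟩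

theorem dsc_mul [Finite F] (he : f e e ≠ 0) (hc : f c c ≠ 0) (h1 : f e c = 0) (h2 : f e (g c) = 0) :
    ¬ IsSquare (dsc f g s e * dsc f g s c) := fun ⟨t, ht⟩ => (h.frame he hc h1 h2).disc
  ⟨f e e * f c c * t, by simp only [h.norm_lv]; linear_combination (f e e * f c c) ^ 2 * ht⟩

theorem exists_orth [Finite F] (hc : f c c ≠ 0) (H : ¬ IsSquare (dsc f g s c)) :
    ∃ x y : F, f (x • c + y • g c) (x • c + y • g c) ≠ 0 ∧
      f (x • c + y • g c) (g (x • c + y • g c)) = 0 := by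
  obtain ⟨t, h1, h2⟩ : ∃ t, s * dsc f g s c = t * t ∧ t - s * f c c ≠ 0 := by
    obtain ⟨t, ht⟩ := sq_of_not h.ns H
    by_cases h2 : t - s * f c c = 0
    · exact ⟨-t, by simpa, fun h3 => mul_ne_zero h.m.two (mul_ne_zero h.ne hc)
        (by linear_combination -h2 - h3)⟩
    · exact ⟨t, ht, h2⟩
  have h3 : f ((t - s * f c c) • c + f c (g c) • g c)
      (g ((t - s * f c c) • c + f c (g c) • g c)) = 0 := by
    simp [h.adj, h.sq]; linear_combination -f c (g c) * h1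
  refine ⟨_, _, fun h0 => h2 ?_, h3⟩
  generalize t - s * f c c = x, f c (g c) = y at *
  by_cases h4 : x • c + y • g c = 0
  · have h5 : (s * y ^ 2 - x ^ 2) • c = 0 := by
      have := congrArg g h4
      simp only [map_add, map_smul, h.sq, map_zero] at this
      linear_combination (norm := module) y • this - x • h4
    have h6 := sub_eq_zero.1 ((smul_eq_zero.1 h5).resolve_right (by rintro rfl; simp at hc))
    simpa [h.eq_zero h6] using h6.symm
  obtain ⟨k, hk⟩ := h.m.idx _ _ h4 h0 (by rw [h.adj, h.sq, map_smul, h0, smul_zero]) h3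
  have h5 := h.sq (x • c + y • g c)
  rw [hk, map_smul, hk, smul_smul] at h5
  exact (h.ns ⟨k, (smul_left_injective F h4 h5).symm⟩).elim

theorem core (he : f e e ≠ 0) (hc : f c c ≠ 0) (h1 : f e c = 0) (h2 : f e (g c) = 0)
    (h3 : f c (g c) = 0) (H : IsSquare (dsc f g s e)) : ∃ r₁ r₂ r₃ b, IsR f r₁ ∧ IsR f r₂ ∧
      IsR f r₃ ∧ r₁ * r₂ * r₃ * g = ng (g * (r₁ * r₂ * r₃)) ∧
        EF f (r₁ * r₂ * r₃ * (r₁ * r₂ * r₃)) e b c (g c) := by
  obtain ⟨t, ht⟩ := H
  have t0 : t ≠ 0 := by rintro rfl; exact h.dsc_ne he (by simpa using ht)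
  have fr : F4 f e (t⁻¹ • lv2 f g e) c (g c) := by
    have := ((h.frame he hc h1 h2).smul (inv_ne_zero t0)).rot.smul (inv_ne_zero hc)
    rw [show (f c c)⁻¹ • lv2 f g c = g c by simp [lv2, h3, smul_smul, hc]] at this
    exact this.rot
  have h4 : g e = (t / f e e) • t⁻¹ • lv2 f g e + (f e (g e) / f e e) • e := by
    match_scalars <;> field_simp
    ring
  have h5 : g (t⁻¹ • lv2 f g e) = (t / f e e) • e - (f e (g e) / f e e) • t⁻¹ • lv2 f g e := by
    simp only [map_smul, map_sub, h.sq]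
    match_scalars <;> field_simp
    linear_combination ht
  have h6 : f (t⁻¹ • lv2 f g e) (t⁻¹ • lv2 f g e) = f e e := by
    rw [map_smul, map_smul f, LinearMap.smul_apply, h.norm_lv, ht, smul_eq_mul, smul_eq_mul]
    field_simp
  generalize t⁻¹ • lv2 f g e = b, t / f e e = α, f e (g e) / f e e = β at fr h4 h5 h6
  obtain ⟨z, hz⟩ := fr.exists_ef
  obtain ⟨r, r', a1, a2, a3, a4, a5, a6, a7, -⟩ := hz.exists_rot h6
  obtain ⟨r₃, a8⟩ := exists_rf h.m.hm hc
  have b1 : (r * r' * r₃) e = b := by simp only [LinearEquiv.mul_apply (r * r'), a8 e]; simp [fr.ca, -LinearEquiv.mul_apply, a4]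
  have b2 : (r * r' * r₃) b = -e := by simp only [LinearEquiv.mul_apply (r * r'), a8 b]; simp [fr.cb, -LinearEquiv.mul_apply, a5]
  have b3 : (r * r' * r₃) c = -c := by
    simp only [LinearEquiv.mul_apply (r * r'), a8 c, map_sub, map_smul, a6, div_mul_cancel₀ _ hc]; module
  have b4 : (r * r' * r₃) (g c) = g c := by simp only [LinearEquiv.mul_apply (r * r'), a8 (g c)]; simp [h3, -LinearEquiv.mul_apply, a7]
  refine ⟨r, r', r₃, b, ⟨_, a1, a2⟩, ⟨_, fr.hb, a3⟩, ⟨_, hc, a8⟩, ?_, fr, ?_, ?_, ?_, ?_⟩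
  all_goals generalize r * r' * r₃ = k at *
  · refine fr.extE ?_ ?_ ?_ ?_ <;>
      simp only [LinearEquiv.mul_apply, LinearEquiv.neg_apply, h4, h5, b1, b2, b3, b4, h.sq,
        map_add, map_sub, map_smul, map_neg] <;> module
  all_goals simp [b1, b2, b3, b4]

theorem exists_anti [Finite F] (he : f e e ≠ 0) : ∃ r₁ r₂ r₃ z, IsR f r₁ ∧ IsR f r₂ ∧ IsR f r₃ ∧
    r₁ * r₂ * r₃ * g = ng (g * (r₁ * r₂ * r₃)) ∧ IsG f g e z ∧
      (r₁ * r₂ * r₃ * (r₁ * r₂ * r₃) = z ∨ r₁ * r₂ * r₃ * (r₁ * r₂ * r₃) = ng z) := by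
  obtain ⟨c, hc, h1, h2⟩ := h.exists_perp he
  have h3 := h.dsc_mul he hc h1 h2
  have sy := h.m.symm
  by_cases h4 : IsSquare (dsc f g s e)
  · obtain ⟨x, y, a1, a2⟩ := h.exists_orth hc fun h5 => h3 (h4.mul h5)
    have a3 : f e (x • c + y • g c) = 0 := by simp [h1, h2]
    have a4 : f e (g (x • c + y • g c)) = 0 := by simp [h1, h2, h.sq]
    generalize x • c + y • g c = c at *
    obtain ⟨r₁, r₂, r₃, b, b1, b2, b3, b4, b5⟩ := h.core he a1 a3 a4 a2 h4
    refine ⟨r₁, r₂, r₃, _, b1, b2, b3, b4, ⟨b5.za, b5.neg_of (by rw [← h.adj, sy, a4])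
      (by simp [h.adj, h.sq, sy c e, a3]), fun w c1 c2 => ?_⟩, .inl rfl⟩
    have := (h.frame he a1 a3 a4).dec w
    simp only [map_sub, map_smul, LinearMap.sub_apply, LinearMap.smul_apply, h.adj e, c1, c2,
      smul_zero, sub_zero, zero_div, zero_smul, zero_add] at this
    rw [this]
    simp only [map_add, map_sub, map_smul, b5.zc, b5.zd]
  · obtain ⟨x, y, a1, a2⟩ := h.exists_orth he h4
    have a5 : f c e = 0 := by rw [sy, h1]
    have a6 : f c (g e) = 0 := by rw [← h.adj, sy, h2]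
    obtain ⟨r₁, r₂, r₃, b, b1, b2, b3, b4, b5⟩ := h.core hc a1 (by simp [a5, a6])
      (by simp [a5, a6, h.sq]) a2
      ((sq_or_sq (h.dsc_ne he) (h.dsc_ne hc) h3).resolve_left h4)
    have k : ∀ w, f c w = 0 → f c (g w) = 0 → (r₁ * r₂ * r₃ * (r₁ * r₂ * r₃)) w = w :=
      fun w c1 c2 => by
        have := (h.frame hc a1 (by simp [a5, a6]) (by simp [a5, a6, h.sq])).dec w
        simp only [map_sub, map_smul, LinearMap.sub_apply, LinearMap.smul_apply, h.adj c, c1, c2,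
          smul_zero, sub_zero, zero_div, zero_smul, zero_add] at this
        rw [this]
        simp only [map_add (r₁ * r₂ * r₃ * _) (_ • _) (_ • (_ - _)), map_sub, map_smul, b5.zc, b5.zd]
    exact ⟨r₁, r₂, r₃, _, b1, b2, b3, b4, ⟨congrArg (-·) (k e a5 a6), congrArg (-·)
      (k _ a6 (by simp [h.sq, a5])), fun w c1 c2 => b5.neg.fix_of (by simp [h.adj, c1, c2])
        (by simp [h.adj, h.sq, c1, c2])⟩, .inr (ng_ng _).symm⟩

theorem ef (he : f e e ≠ 0) (hc : f c c ≠ 0) (h1 : f e c = 0) (h2 : f e (g c) = 0)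
    (hz : IsG f g e z) : EF f z e (lv2 f g e) c (lv2 f g c) :=
  ⟨h.frame he hc h1 h2, hz.1, by simp only [map_sub, map_smul, hz.1, hz.2.1]; module,
    hz.2.2 c h1 h2, hz.2.2 _ (by simp [h1, h2]) (by simp [h1, h2, h.sq])⟩

theorem isE (he : f e e ≠ 0) (hz : IsG f g e z) : IsE f z :=
  let ⟨_, hc, h1, h2⟩ := h.exists_perp he; ⟨_, _, _, _, h.ef he hc h1 h2 hz⟩

theorem comm (he : f e e ≠ 0) (hz : IsG f g e z) (y : W) : z (g y) = g (z y) := by
  obtain ⟨c, hc, h1, h2⟩ := h.exists_perp he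
  have h3 := hz.2.2 c h1 h2
  have h4 := hz.2.2 (g c) h2 (by simp [h.sq, h1])
  refine congrArg (· y) ((h.frame he hc h1 h2).extE (g := z * g) (z := g * z) ?_ ?_ ?_ ?_) <;>
    simp [hz.1, hz.2.1, h3, h4, h.sq]

/-- The algebra generated by products of half turns contains `g`. -/
theorem mem [Finite F] (S : Subalgebra F (End F W)) (H : ∀ e e' z z', f e e ≠ 0 → f e' e' ≠ 0 →
    IsG f g e z → IsG f g e' z' → (z : End F W) * z' ∈ S) : (g : End F W) ∈ S := by
  obtain ⟨e, _, _, _, fr⟩ := h.m.exists_frame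
  have he := fr.ha
  obtain ⟨c, hc, h1, h2, h3⟩ : ∃ c, f c c ≠ 0 ∧ f e c = 0 ∧ f e (g c) = 0 ∧ f e e + f c c ≠ 0 := by
    obtain ⟨c, hc, h1, h2⟩ := h.exists_perp he
    by_cases h3 : f e e + f c c = 0
    · refine ⟨g c, by simp [h.adj, h.sq, h.ne, hc], h2, by simp [h.sq, h1], fun h4 => h.ns ⟨1, ?_⟩⟩
      simp only [h.adj, h.sq, map_smul, smul_eq_mul] at h4
      exact mul_right_cancel₀ hc (by linear_combination h4 - h3)
    · exact ⟨c, hc, h1, h2, h3⟩
  have sy := h.m.symm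
  have a5 : f c e = 0 := by rw [sy, h1]
  have a6 : f c (g e) = 0 := by rw [← h.adj, sy, h2]
  have hv : f (e + c) (e + c) ≠ 0 := by simpa [h1, a5]
  obtain ⟨-, -, -, z, -, -, -, -, hz, -⟩ := h.exists_anti he
  obtain ⟨-, -, -, z', -, -, -, -, hz', -⟩ := h.exists_anti hv
  obtain ⟨c', b1, b2, b3⟩ := h.exists_perp hv
  have ef := h.ef hv b1 b2 b3 hz'
  obtain ⟨x, y, h4⟩ : ∃ x y : F, z' e = e + x • (e + c) + y • g (e + c) := by
    have := ef.of_neg (v := z' e - e) (by simp [show z' (z' e) = e from congrArg (· e) ef.sq])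
    generalize f (e + c) (z' e - e) / _ = x, f (lv2 f g _) (z' e - e) / _ = y at this
    exact ⟨x - y * f (e + c) (g (e + c)), y * f (e + c) (e + c), by
      linear_combination (norm := module) this⟩
  have h5 : z' c = -(e + c) - z' e := by rw [← hz'.1]; simp
  have h6 : y ≠ 0 := by
    rintro rfl
    have h6 : z' ((2 : F) • e + x • (e + c)) = (2 : F) • e + x • (e + c) := by
      rw [map_add, map_smul, map_smul, hz'.1, h4]; module
    have h7 := iso ef.isom (e + c) ((2 : F) • e + x • (e + c))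
    have h8 := iso ef.isom (g (e + c)) ((2 : F) • e + x • (e + c))
    simp only [h6, hz'.1, hz'.2.1] at h7 h8
    simp only [map_add, map_smul, map_neg, LinearMap.add_apply, LinearMap.neg_apply, h1, h2, a5,
      a6, h.adj, smul_eq_mul] at h7 h8
    have h9 : (2 + x) * f e e + x * f c c = 0 := mul_left_cancel₀ h.m.two (by linear_combination -h7)
    have h10 : (2 + x) * f e (g e) + x * f c (g c) = 0 :=
      mul_left_cancel₀ h.m.two (by linear_combination -h8)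
    have h11 : x ≠ 0 := by rintro rfl; simp [h.m.two, he] at h9
    refine h.dsc_mul he hc h1 h2 ⟨dsc f g s e * (2 + x) / x, ?_⟩
    field_simp
    linear_combination (s * f e e ^ 2 - f e (g e) ^ 2) * (s * (x * f c c - (2 + x) * f e e) * h9 -
      (x * f c (g c) - (2 + x) * f e (g e)) * h10)
  have h7 : (g : End F W) = (-(2 * y)⁻¹) • ((z : End F W) * z' + z' * z + (2 + 2 * x) • 1) := by
    have c1 := hz.2.2 c h1 h2
    have c2 := h.comm he hz
    have c3 := h.comm hv hz'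
    have := h.m.two
    refine (h.frame he hc h1 h2).ext ?_ ?_ ?_ ?_ <;>
      simp only [LinearMap.smul_apply, LinearMap.add_apply, End.mul_apply, End.one_apply,
        LinearEquiv.coe_coe, map_add, map_sub, map_smul, map_neg, h4, h5, c1, c2, c3, hz.1, h.sq] <;>
      match_scalars <;> field_simp <;> ring
  exact h7 ▸ S.smul_mem (add_mem (add_mem (H _ _ _ _ he hv hz hz') (H _ _ _ _ hv he hz' hz))
    (S.smul_mem S.one_mem _)) _

end IsS

/-- The commutator subgroup. -/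
abbrev M0 (f : W →ₗ[F] W →ₗ[F] F) : Subgroup (W ≃ₗ[F] W) := ⁅isomGroup f, isomGroup f⁆

theorem M0_conj {k : F} (hg : Sim f g k) (hk : k ≠ 0) (hz : z ∈ M0 f) : g * z * g⁻¹ ∈ M0 f := by
  have : (isomGroup f).map (MulAut.conj g).toMonoidHom ≤ isomGroup f := by
    rintro _ ⟨x, hx, rfl⟩ u v
    refine mul_left_cancel₀ (inv_ne_zero hk) ?_
    obtain ⟨u, rfl⟩ := g.surjective u
    obtain ⟨v, rfl⟩ := g.surjective v
    simp [hg _, iso hx]
  refine Subgroup.commutator_mono this this ?_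
  rw [← Subgroup.map_commutator]
  exact ⟨z, hz, rfl⟩

open QuadraticMap Orth Known in
theorem exists_homs [Finite F] (os : OS f) : ∃ φ ψ : isomGroup f →* ℤˣ, ∀ a r, f a a ≠ 0 →
    IsRf f a r → ∀ hr, φ ⟨r, hr⟩ = -1 ∧ ψ ⟨r, hr⟩ = sqs (f a a / 2) := by
  have h2 := os.two
  obtain ⟨Q, rfl⟩ : ∃ Q : QuadraticForm F W, polarBilin Q = f :=
    ⟨(2 : F)⁻¹ • LinearMap.BilinMap.toQuadraticMap f, LinearMap.ext₂ fun u v => by
      simp [polar, os.symm v u]; field_simp; ring⟩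
  refine ⟨(dickHom os.hm.nondeg (not_exc_of_two_ne_zero h2)).comp
    (Subgroup.inclusion (isom_le_O h2)), (spinA os.hm.nondeg).comp
    (Subgroup.inclusion (isom_le_O h2)), fun a r ha hr hr' => ?_⟩
  have h1 : polarBilin Q a a / 2 = Q a := by simp [polar_self, h2]
  have h3 : Q a ≠ 0 := h1 ▸ div_ne_zero ha h2
  have h4 : Subgroup.inclusion (isom_le_O h2) ⟨r, hr'⟩ = refl Q a := Subtype.ext
    (LinearEquiv.ext fun y => by
      rw [refl_apply, ← h1]; simp [hr y, polar_comm Q a y])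
  simp [h4, dick_refl os.hm.nondeg h3, spinA_refl _ h3, h2]

theorem hom_M0 {A : Type*} [CommGroup A] (φ : isomGroup f →* A) (hz : z ∈ M0 f)
    (h : z ∈ isomGroup f) : φ ⟨z, h⟩ = 1 := by
  rw [M0, ← Subgroup.map_subtype_commutator] at hz
  obtain ⟨y, hy, rfl⟩ := hz
  exact Known.apply_eq_one_of_mem_commutator φ hy

theorem M0_le : M0 f ≤ isomGroup f := (comm_le_OG f).trans (OG_le f)

theorem M4.isE_of_M0 [Finite F] (m : M4 f) (hz : z ∈ M0 f) (h2 : z * z = 1) (h1 : z ≠ 1) :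
    IsE f z := (m.invol (M0_le hz) h2).resolve_right
      fun ⟨a, b, c, d, s, t, h, hs, ht, e1, e2, e3, e4⟩ => by
  obtain ⟨φ, ψ, H⟩ := exists_homs m.toOS
  obtain ⟨r₁, a1⟩ := exists_rf m.hm h.ha
  obtain ⟨r₂, a2⟩ := exists_rf m.hm h.hb
  obtain ⟨r₃, a3⟩ := exists_rf m.hm h.hc
  obtain ⟨r₄, a4⟩ := exists_rf m.hm h.hd
  have i1 := a1.isom m.hm h.ha
  have i2 := a2.isom m.hm h.hb
  have i3 := a3.isom m.hm h.hc
  have i4 := a4.isom m.hm h.hd
  have b1 := H _ _ h.ha a1 i1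
  have b2 := H _ _ h.hb a2 i2
  have b3 := H _ _ h.hc a3 i3
  have b4 := H _ _ h.hd a4 i4
  have c1 := hom_M0 φ hz (M0_le hz)
  have c2 := hom_M0 ψ hz (M0_le hz)
  have k : ∀ {a r}, f a a ≠ 0 → IsRf f a r → r a = -a := fun ha hr => by
    rw [hr, div_mul_cancel₀ _ ha]; module
  have k' : ∀ {a r y}, IsRf f a r → f a y = 0 → r y = y := fun hr hy => by simp [hr _, hy]
  have d1 := k h.ha a1
  have d2 := k h.hb a2
  have d3 := k h.hc a3
  have d4 := k h.hd a4
  rcases mul_self_eq_one_iff.1 hs with rfl | rfl <;> rcases mul_self_eq_one_iff.1 ht with rfl | rfl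
  · exact h1 (h.extE (by simpa using e1) (by simpa using e2) (by simpa using e3) (by simpa using e4))
  · obtain rfl : z = r₄ := h.extE (by simp [e1, k' a4 h.da]) (by simp [e2, k' a4 h.db])
      (by simp [e3, k' a4 h.dc]) (by simp [e4, d4])
    simp [c1] at b4
  · obtain rfl : z = r₁ * r₂ * r₃ := h.extE (by simp [e1, k' a3 h.ca, k' a2 h.ba, d1])
      (by simp [e2, k' a3 h.cb, k' a1 h.ab, d2]) (by simp [e3, k' a1 h.ac, k' a2 h.bc, d3])
      (by simp [e4, k' a1 h.ad, k' a2 h.bd, k' a3 h.cd])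
    have := map_mul φ (⟨r₁, i1⟩ * ⟨r₂, i2⟩) ⟨r₃, i3⟩ |>.symm.trans c1
    rw [map_mul, b1.1, b2.1, b3.1] at this
    simp at this
  · obtain rfl : z = r₁ * r₂ * (r₃ * r₄) := h.extE
      (by simp [e1, k' a4 h.da, k' a3 h.ca, k' a2 h.ba, d1])
      (by simp [e2, k' a4 h.db, k' a3 h.cb, k' a1 h.ab, d2])
      (by simp [e3, k' a4 h.dc, k' a1 h.ac, k' a2 h.bc, d3])
      (by simp [e4, k' a1 h.ad, k' a2 h.bd, k' a3 h.cd, d4])
    have := map_mul ψ (⟨r₁, i1⟩ * ⟨r₂, i2⟩) (⟨r₃, i3⟩ * ⟨r₄, i4⟩) |>.symm.trans c2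
    have h3 := m.two
    rw [map_mul, map_mul, b1.2, b2.2, b3.2, b4.2, ← Known.sqs_mul, ← Known.sqs_mul,
      ← Known.sqs_mul, Known.sqs_eq_one_iff] at this
    · obtain ⟨t, ht⟩ := this
      exact h.disc ⟨2 * 2 * t, by field_simp at ht; linear_combination ht⟩
    all_goals simp [h.ha, h.hb, h.hc, h.hd, h3]

theorem EF.exists_four [Finite F] (h : EF f z a b c d) :
    ∃ y ∈ M0 f, IsE f y ∧ y ≠ z ∧ y * z = z * y := by
  obtain ⟨x, y, e⟩ := uni h.m.two h.hc h.hd (f a a)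
  have h1 : f (x • c + y • d) (x • c + y • d) = f a a := by simp [h.cd, h.dc]; linear_combination e
  have h2 : z (x • c + y • d) = x • c + y • d := by simp [h.zc, h.zd]
  have h3 : f a (x • c + y • d) = 0 := by simp [h.ac, h.ad]
  generalize x • c + y • d = v at *
  obtain ⟨c', d', fr⟩ := h.m.ext2 h.ha (h1 ▸ h.ha) h3
  obtain ⟨k, hk, h4⟩ := exists_witt h.m.hm h.m.two h.ha h1
  obtain ⟨r, hr⟩ := exists_rf h.m.hm h.ha
  have h5 := h4 ▸ hr.conj hk
  have h6 := fr.ef hr h5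
  refine ⟨_, ?_, ⟨_, _, _, _, h6⟩, fun h7 => fr.hb ?_, (hr.comm h.isom (.inr h.za)).mul_left
    (h5.comm h.isom (.inl h2))⟩
  · have := Subgroup.commutator_mem_commutator (hr.isom h.m.hm h.ha) hk
    rwa [commutatorElement_def, hr.inv h.m.hm h.ha, mul_assoc r, mul_assoc r] at this
  · have := congrArg (f v) (h6.zb.symm.trans (h7 ▸ h2))
    rw [map_neg] at this
    exact mul_left_cancel₀ h.m.two (by linear_combination -this)

end Cfsg.Lib.Class.WrO
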