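import Cfsg.Agent.Class.WrO.K4b

/-!
Tensor products with an orthogonal 4-space of minus type: linear algebra.
-/

set_option autoImplicit false
set_option linter.unusedSectionVars false

namespace Cfsg.Lib.Class.WrO

open Module Submodule Tens Tn FE AO Form Wr
open LinearMap (range ker)

variable {F U W V : Type*} [Field F] [AddCommGroup U] [Module F U] [AddCommGroup W] [Module F W]
  [AddCommGroup V] [Module F V] {x y k : V ≃ₗ[F] V} {m : End F V}

theorem finrank_ker_cj (g : V ≃ₗ[F] V) (m : End F V) :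
    finrank F (ker (cj g m)) = finrank F (ker m) := by
  rw [← g.finrank_map_eq (ker m)]
  congr 3
  all_goals
    ext v
    obtain ⟨v, rfl⟩ := g.surjective v
    simp

theorem finrank_of_anti [FiniteDimensional F V] (h2 : (2 : F) ≠ 0) (hm : m * m = 1)
    (e : cj k m = -m) : finrank F V = 2 * finrank F (ker (m + 1)) ∧
      finrank F V = 2 * finrank F (ker (m - 1)) := by
  have h1 := finrank_ker_cj k (m - 1)
  rw [map_sub, e, map_one, ← neg_add', LinearMap.ker_neg] at h1
  have := finrank_ker_add h2 (b := m) (LinearMap.congr_fun hm)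
  omega

theorem cj_of_anti {z : V ≃ₗ[F] V} (e : k * z = ng (z * k)) : cj k z = -(z : End F V) :=
  LinearMap.ext fun v => by simpa using congrArg (· (k⁻¹ v)) e

/-- An element permuting involutions cyclically has a small fixed space. -/
theorem two_mul_lt [FiniteDimensional F V] (h2 : (2 : F) ≠ 0) {q : ℕ} (hq : Odd q) (hx : x ^ q = 1)
    (hm : m * m = 1) {v : V} (hv : ∀ k, cj (x ^ k) m v = v) (hv' : x v ≠ v)
    (hd : finrank F V = 2 * finrank F (ker (m * cj x m + 1))) :
    2 * finrank F (ker ((x : End F V) - 1)) < finrank F V := by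
  set P : Submodule F V := ⨅ k, LinearMap.eqLocus (cj (x ^ k) m) 1
  have mP : ∀ {v}, v ∈ P ↔ ∀ k, cj (x ^ k) m v = v := by simp [P]
  have h1 : ∀ k v, cj (x ^ (k + 1)) m (x v) = x (cj (x ^ k) m v) := fun k v => by
    simp [pow_succ', cj_mul]
  have h3 : ∀ v ∈ P, x v ∈ P := fun v hv => mP.2 fun k => by
    obtain ⟨r, rfl⟩ := hq
    rw [← mul_one (x ^ k), ← hx, ← pow_add, ← add_assoc, h1, mP.1 hv]
  have h4 : ∀ k, ∀ v ∈ P, (x ^ k) v ∈ P := fun k v hv => by
    induction k with
    | zero => exact hv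
    | succ k ih => rw [pow_succ']; exact h3 _ ih
  have h5 : ∀ k v, cj (x ^ k) m (cj (x ^ k) m v) = v := fun k v => by
    rw [← End.mul_apply, ← map_mul, hm, map_one, End.one_apply]
  have h0 : ∀ s ∈ ker (m * cj x m + 1), s ∈ P → s = 0 := fun s hs hs' => by
    have h6 := mP.1 hs' 0
    have h7 := mP.1 hs' 1
    simp only [pow_zero, cj_one, pow_one, LinearMap.mem_ker, LinearMap.add_apply, End.mul_apply,
      End.one_apply] at h6 h7 hs
    rw [h7, h6, ← two_smul F] at hs
    exact (smul_eq_zero.1 hs).resolve_left h2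
  have h6 : ker ((x : End F V) - 1) ⊓ (ker (m * cj x m + 1) ⊔ span F {v}) = ⊥ := by
    refine eq_bot_iff.2 fun y ⟨hy, hy'⟩ => ?_
    obtain ⟨s, hs, w, hw, rfl⟩ := mem_sup.1 hy'
    obtain ⟨t, rfl⟩ := mem_span_singleton.1 hw
    replace hw := P.smul_mem t (mP.2 hv)
    replace hy : x (s + t • v) = s + t • v := sub_eq_zero.1 hy
    have h7 : ∀ k, cj (x ^ k) m (cj (x ^ (k + 1)) m (s + t • v)) + (s + t • v) ∈ P := fun k => by
      have h8 : cj (x ^ k) m (cj (x ^ (k + 1)) m ((x ^ k) s)) = -(x ^ k) s := by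
        simpa [pow_succ, cj_mul] using congrArg (x ^ k) (eq_neg_of_add_eq_zero_left hs)
      rw [← show (x ^ k) (s + t • v) = s + t • v from (MulAction.stabilizer (V ≃ₗ[F] V) _).pow_mem hy k,
        map_add, map_add, map_add, h8, mP.1 (h4 k _ hw), mP.1 (h4 k _ hw)]
      convert add_mem (h4 k _ hw) (h4 k _ hw) using 1
      abel
    have h8 : ∀ k, m (cj (x ^ k) m (s + t • v)) - (-1 : F) ^ k • (s + t • v) ∈ P := fun k => by
      induction k with
      | zero => rw [pow_zero, pow_zero, cj_one, ← End.mul_apply, hm]; simp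
      | succ k ih =>
        have h9 := mP.1 (h7 k) 0
        have h10 := mP.1 (h7 k) k
        rw [map_add, h5] at h10
        rw [pow_zero, cj_one, ← h10, map_add, h10] at h9
        convert sub_mem (h7 k) ih using 1
        rw [pow_succ (-1 : F)]
        linear_combination (norm := module) h9
    have h9 := h8 q
    rw [hx, cj_one, ← End.mul_apply, hm, hq.neg_one_pow, End.one_apply, neg_one_smul, sub_neg_eq_add,
      ← two_smul F, P.smul_mem_iff h2] at h9
    obtain rfl := h0 s hs (by simpa using sub_mem h9 hw)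
    obtain rfl : t = 0 := by_contra fun ht => hv' (smul_right_injective V ht (by simpa using hy))
    simp
  have h7 := finrank_sup_add_finrank_inf_eq (ker ((x : End F V) - 1))
    (ker (m * cj x m + 1) ⊔ span F {v})
  have h8 := finrank_lt_finrank_of_lt (show ker (m * cj x m + 1) < ker (m * cj x m + 1) ⊔ span F {v}
    from left_lt_sup.2 fun h => hv' (by simp [h0 v (h (mem_span_singleton_self v)) (mP.2 hv)]))
  have := finrank_le (ker ((x : End F V) - 1) ⊔ (ker (m * cj x m + 1) ⊔ span F {v}))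
  rw [h6, finrank_bot] at h7
  omega

/-- A scalar multiple of an automorphism. -/
noncomputable def sm (g : V ≃ₗ[F] V) {s : F} (hs : s ≠ 0) : V ≃ₗ[F] V :=
  g.trans (.smulOfNeZero F V s hs)

@[simp] theorem sm_apply (g : V ≃ₗ[F] V) {s : F} (hs : s ≠ 0) (v : V) : sm g hs v = s • g v := rfl

theorem sm_pow (g : V ≃ₗ[F] V) {s : F} (hs : s ≠ 0) (n : ℕ) (v : V) :
    (sm g hs ^ n) v = s ^ n • (g ^ n) v := by
  induction n with
  | zero => simp
  | succ n ih => simp [pow_succ', ih, smul_smul, mul_comm]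

variable [FiniteDimensional F U] [FiniteDimensional F W] [Nontrivial U] [Nontrivial W]
  {f : W →ₗ[F] W →ₗ[F] F} {β : V →ₗ[F] V →ₗ[F] F} {T T' : U →ₗ[F] W →ₗ[F] V}
  {h h' : U →ₗ[F] U →ₗ[F] F} {p p' r : W} {b z : W ≃ₗ[F] W} {a : U ≃ₗ[F] U}

section Tens

variable (hT : IsTens T)
include hT

theorem mpE_sm {s : F} (hs : s ≠ 0) : hT.mpE a b = hT.mpE (sm a hs) (sm b (inv_ne_zero hs)) :=
  hT.extE fun u w => by simp [smul_smul, hs]

theorem scal_of_mp (e : ∀ u w, T (a u) (b w) = T u w) :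
    ∃ s : F, s ≠ 0 ∧ (∀ w, b w = s • w) ∧ ∀ u, s • a u = u := by
  obtain ⟨x₀, hx₀⟩ := exists_ne (0 : U)
  obtain ⟨y₀, hy₀⟩ := exists_ne (0 : W)
  obtain ⟨ξ, hξ⟩ := Module.Projective.exists_dual_eq_one F hx₀
  have h1 : ∀ w, ξ (a x₀) • b w = w := fun w => by simpa [hξ] using congrArg (hT.cL ξ) (e x₀ w)
  have h2 : ξ (a x₀) ≠ 0 := fun h0 => hy₀ (by rw [← h1 y₀, h0, zero_smul])
  have h3 : ∀ w, b w = (ξ (a x₀))⁻¹ • w := fun w => (eq_inv_smul_iff₀ h2).2 (h1 w)
  exact ⟨_, inv_ne_zero h2, h3, fun u => hT.injective' hy₀ (by simpa [h3] using e u y₀)⟩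

theorem finrank_ker_kap (b : End F W) :
    finrank F (ker (kap hT b)) = finrank F U * finrank F (ker b) := by
  rw [kap_eq, hT.ker_mp_one, hT.finrank_map₂, finrank_top]

theorem finrank_ker_mp (h2 : (2 : F) ≠ 0) {a : End F U} {b : End F W} (ha : ∀ x, a (a x) = x)
    (hb : ∀ y, b (b y) = y) : finrank F (ker (hT.mp a b + 1)) =
      finrank F (ker (a - 1)) * finrank F (ker (b + 1)) +
        finrank F (ker (a + 1)) * finrank F (ker (b - 1)) := by
  have := hT.finiteDimensional
  have h6 : ker (hT.mp a b + 1) =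
      map₂ T (ker (a - 1)) (ker (b + 1)) ⊔ map₂ T (ker (a + 1)) (ker (b - 1)) := by
    refine le_antisymm (fun t ht => ?_) (sup_le (map₂_le.2 fun x hx y hy => ?_)
      (map₂_le.2 fun x hx y hy => ?_))
    · have h7 : hT.mp (1 + a) (1 - b) t + hT.mp (1 - a) (1 + b) t = (2 * 2 : F) • t := by
        simp only [hT.mp_add_left, hT.mp_add_right, hT.mp_sub_left, hT.mp_sub_right, hT.mp_one,
          LinearMap.add_apply, LinearMap.sub_apply, End.one_apply,
          show hT.mp a b t = -t from eq_neg_of_add_eq_zero_left ht]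
        module
      rw [← smul_mem_iff _ (mul_ne_zero h2 h2), ← h7]
      exact add_mem_sup
        (hT.mp_mem (A := ⊤) (B := ⊤) (fun x _ => by simp [ha, add_comm])
          (fun x _ => by simp [hb]) (hT.span ▸ mem_top))
        (hT.mp_mem (A := ⊤) (B := ⊤) (fun x _ => by simp [ha]) (fun x _ => by simp [hb, add_comm])
          (hT.span ▸ mem_top))
    · simp [show a x = x from sub_eq_zero.1 hx, show b y = -y from eq_neg_of_add_eq_zero_left hy]
    · simp [show a x = -x from eq_neg_of_add_eq_zero_left hx, show b y = y from sub_eq_zero.1 hy]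
  have h7 : map₂ T (ker (a - 1)) (ker (b + 1)) ⊓ map₂ T (ker (a + 1)) (ker (b - 1)) = ⊥ := by
    refine eq_bot_iff.2 fun t ⟨h7, h8⟩ => hT.eq_zero_of_cR fun η => ?_
    have h9 := hT.cR_mem h7 η
    have h10 := hT.cR_mem h8 η
    simp only [LinearMap.mem_ker, LinearMap.sub_apply, LinearMap.add_apply, End.one_apply] at h9 h10
    exact (smul_eq_zero.1 (show (2 : F) • hT.cR η t = 0 by
      linear_combination (norm := module) h10 - h9)).resolve_left h2
  have h8 := finrank_sup_add_finrank_inf_eq (map₂ T (ker (a - 1)) (ker (b + 1)))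
    (map₂ T (ker (a + 1)) (ker (b - 1)))
  rwa [h7, ← h6, finrank_bot, hT.finrank_map₂, hT.finrank_map₂, add_zero] at h8

theorem exists_apply_ne (hm : InE T m) (h0 : m ≠ 0) {v : V} (hv : v ≠ 0) :
    ∃ n, InE T n ∧ m (n v) ≠ 0 := by
  obtain ⟨e, rfl⟩ := hm.exists_kap hT
  obtain ⟨w, hw⟩ : ∃ w, e w ≠ 0 := by_contra fun hc => h0 (by
    rw [show e = 0 from LinearMap.ext (by simpa using hc), map_zero])
  by_contra! hc
  exact hv (hT.eq_zero_of_cR fun η => by
    simpa [kap_eq, rk, hT.mp_smulRight', hT.eq_zero_iff, hw] using hc _ (inE_kap hT (rk w η)))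

theorem cj_mpE (a : U ≃ₗ[F] U) (b : W ≃ₗ[F] W) (ρ : End F W) :
    cj (hT.mpE a b) (kap hT ρ) = kap hT (cj b ρ) := hT.ext fun u w => by simp [hT.mpE_inv]

theorem comm_of_mpE (e : Commute (hT.mpE a b) (ug hT z)) : Commute b z := comm_coe.1 (comm_of_cj (kap_inj hT (by
  rw [← cj_mpE hT a, ← coe_ug, cj_eq_self (comm_coe.2 e)])))

/-- The partial trace. -/
noncomputable def ptr : End F V →ₗ[F] End F V := ∑ i, ∑ j, LinearMap.mulLeftRight F
  (kap hT (rk (finBasis F W i) ((finBasis F W).coord j)),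
    kap hT (rk (finBasis F W j) ((finBasis F W).coord i)))

theorem ptr_apply (m : End F V) : ptr hT m = ∑ i, ∑ j, kap hT (rk (finBasis F W i)
    ((finBasis F W).coord j)) * m * kap hT (rk (finBasis F W j) ((finBasis F W).coord i)) := by
  simp [ptr, LinearMap.sum_apply]

theorem ptr_eq (m : End F V) : ptr hT m = ∑ j, cp hT ((finBasis F W).coord j) (finBasis F W j) m := by
  rw [ptr_apply, Finset.sum_comm]
  simp only [kap_mul_mul, ← Finset.mul_sum, ← map_sum, sum_rk, map_one, mul_one]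

theorem inC_ptr (m : End F V) : InC T (ptr hT m) := by
  rw [ptr_eq]
  exact Finset.sum_induction _ _ (fun _ _ => InC.add) InC.zero fun _ _ => inC_cp _ _ _ _

theorem ptr_left {n : End F V} (hn : InC T n) (m : End F V) : ptr hT (n * m) = n * ptr hT m := by
  simp only [ptr_apply, Finset.mul_sum, ← mul_assoc, hn.comm_kap]

theorem ptr_right {n : End F V} (hn : InC T n) (m : End F V) : ptr hT (m * n) = ptr hT m * n := by
  simp only [ptr_apply, Finset.sum_mul, mul_assoc, hn.comm_kap]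

theorem ptr_rk (w : W) (φ : Dual F W) (m : End F V) :
    ptr hT (kap hT (rk w φ) * m) = cp hT φ w m ∧ ptr hT (m * kap hT (rk w φ)) = cp hT φ w m := by
  constructor <;> refine hT.ext fun u y => ?_
  · conv_rhs => rw [cp_apply, ← (finBasis F W).sum_repr w]
    simp [ptr_eq, cp_apply, kap_eq, rk, hT.mp_smulRight', -Basis.sum_repr]
  · have : ∀ v, hT.cR φ v = ∑ j, φ (finBasis F W j) • hT.cR ((finBasis F W).coord j) v :=
      hT.ind (by simp) (fun u v a b => by simp [a, b, Finset.sum_add_distrib]) fun u w => by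
        conv_lhs => rw [← (finBasis F W).sum_repr w]
        simp [smul_smul, mul_comm, -Basis.sum_repr]
    simp [ptr_eq, cp_apply, this]

theorem ptr_comm (ρ : End F W) (m : End F V) : ptr hT (kap hT ρ * m) = ptr hT (m * kap hT ρ) :=
  (eq_top_of_rk (S := LinearMap.eqLocus (ptr hT ∘ₗ LinearMap.mulRight F m ∘ₗ (kap hT).toLinearMap)
    (ptr hT ∘ₗ LinearMap.mulLeft F m ∘ₗ (kap hT).toLinearMap)) fun w φ =>
      (ptr_rk hT w φ m).1.trans (ptr_rk hT w φ m).2.symm).ge (mem_top (x := ρ))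

theorem trace_ptr [FiniteDimensional F V] (m : End F V) :
    LinearMap.trace F V (ptr hT m) = finrank F W * LinearMap.trace F V m := by
  simp only [ptr_apply, map_sum, LinearMap.trace_mul_comm F (_ * m), ← mul_assoc, ← map_mul, rk_mul]
  simp [← map_sum, ← Finset.sum_mul, sum_rk]

theorem ptr_sq (hm : m * m = 1) (H : ∀ ρ, InC T (m * kap hT ρ * m)) : ptr hT m * ptr hT m = 1 := by
  rw [← ptr_right hT (inC_ptr hT m), ptr_apply hT m]
  have : ∀ w φ, ptr hT (kap hT (rk w φ)) = φ w • 1 := fun w φ => by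
    rw [← mul_one (kap hT _), (ptr_rk hT w φ 1).1]
    exact hT.ext fun u y => by simp [cp_apply]
  simp only [Finset.mul_sum, ← mul_assoc, map_sum, ptr_left hT (H _), this]
  simp [Finsupp.single_apply, ← Finset.sum_mul, ← Finset.mul_sum, ← map_sum, sum_rk, hm]

end Tens

section Form

variable (t : TF T h 1 f 1 β)
include t

theorem sim_of_mpE (H : t.hT.mpE a b ∈ isomGroup β) : ∃ s, s ≠ 0 ∧ Sim f b s := by
  obtain ⟨x, x', hx⟩ := t.hf.exists_ne_pair
  obtain ⟨y, y', hy⟩ := t.hh.exists_ne_pair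
  have h1 : ∀ y y', h (a x) (a x') * f (b y) (b y') = f y y' := fun y y' => by
    simpa only [IsTens.mpE_apply, t.tens, hx, one_mul] using iso H (T x y) (T x' y')
  have h2 : h (a x) (a x') ≠ 0 := fun h0 => by simpa [h0, hy] using h1 y y'
  exact ⟨_, inv_ne_zero h2, fun u v => by rw [← h1 u v, inv_mul_cancel_left₀ h2]⟩

variable [Finite F] (m4 : M4 f)
include m4

/-- Involutions preserving the decomposition. -/
theorem invol_tens (hy : y ∈ tensG T) (hi : y ∈ isomGroup β) (h2 : y * y = 1) :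
    ∃ a b, y = t.hT.mpE a b ∧ (a * a = 1 ∧ b * b = 1 ∧ b ∈ isomGroup f ∨ ∃ s, IsS f b s) := by
  obtain ⟨a, b, rfl⟩ := t.hT.mem_tensG.1 hy
  obtain ⟨s, -, h3, h4⟩ := scal_of_mp t.hT (a := a * a) (b := b * b) fun u w => by
    simpa using congrArg (· (T u w)) h2
  obtain ⟨k, -, hk⟩ := sim_of_mpE t hi
  obtain ⟨rfl, h0, h5⟩ := m4.sim_adj hk h3
  by_cases h6 : IsSquare k
  · obtain ⟨s, rfl⟩ := h6
    have h7 := left_ne_zero_of_mul h0
    refine ⟨_, _, mpE_sm t.hT h7, .inl ⟨LinearEquiv.ext fun u => ?_, LinearEquiv.ext fun u => ?_,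
      fun u v => ?_⟩⟩
    · simpa [smul_smul] using h4 u
    · simp [show b (b u) = _ from h3 u, smul_smul, h7]
    · simp [hk u, h7, mul_assoc]
  · exact ⟨a, b, rfl, .inr ⟨k, m4, h5, h3, h6⟩⟩

theorem IsS.exists_cj {s : F} (hb : IsS f b s) : ∃ r₁ r₂ r₃, IsR f r₁ ∧ IsR f r₂ ∧ IsR f r₃ ∧
    ug t.hT (r₁ * r₂ * r₃) * t.hT.mpE a b = ng (t.hT.mpE a b * ug t.hT (r₁ * r₂ * r₃)) := by
  obtain ⟨e, _, _, _, fr⟩ := m4.exists_frame
  obtain ⟨r₁, r₂, r₃, -, h1, h2, h3, h4, -⟩ := hb.exists_anti fr.ha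
  exact ⟨r₁, r₂, r₃, h1, h2, h3, t.hT.extE fun u w => by
    simpa using congrArg (fun g => T (a u) (g w)) h4⟩

theorem inE_or_inC (hy : y ∈ tensG T) (hi : y ∈ isomGroup β) (h2 : y * y = 1)
    (hr : finrank F (ker ((y : End F V) + 1)) = finrank F U) :
    InE T (y : End F V) ∨ InC T (y : End F V) := by
  have := t.hT.finiteDimensional
  have hd := m4.dim
  obtain ⟨a, b, rfl, ⟨ha, hb, -⟩ | ⟨s, hs⟩⟩ := invol_tens t m4 hy hi h2
  swap
  · obtain ⟨_, _, _, -, -, -, e⟩ := hs.exists_cj t m4 (a := a)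
    have h3 := (finrank_of_anti m4.two (congrArg LinearEquiv.toLinearMap h2) (cj_of_anti e)).1
    have := finrank_pos (R := F) (M := U)
    rw [t.hT.finrank_eq] at h3
    rw [hd] at h3
    omega
  replace ha : ∀ x, (a : End F U) ((a : End F U) x) = x := fun x => congrArg (· x) ha
  replace hb : ∀ x, (b : End F W) ((b : End F W) x) = x := fun x => congrArg (· x) hb
  have h4 := finrank_ker_add m4.two ha
  have h5 := finrank_ker_add m4.two hb
  rw [IsTens.coe_mpE] at hr ⊢
  rw [finrank_ker_mp t.hT m4.two ha hb] at hr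
  generalize (a : End F U) = a, (b : End F W) = b at *
  have k1 : ∀ {c : End F U}, finrank F (ker c) = finrank F U → c = 0 := fun hc =>
    LinearMap.ker_eq_top.1 (eq_top_of_finrank_eq hc)
  have k2 : ∀ {c : End F W}, finrank F (ker c) = finrank F W → c = 0 := fun hc =>
    LinearMap.ker_eq_top.1 (eq_top_of_finrank_eq hc)
  have := finrank_pos (R := F) (M := U)
  obtain h6 | h6 | h6 | h6 | h6 : finrank F (ker (b - 1)) = 0 ∨ finrank F (ker (b - 1)) = 1 ∨
    finrank F (ker (b - 1)) = 2 ∨ finrank F (ker (b + 1)) = 1 ∨ finrank F (ker (b + 1)) = 0 := by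
    omega
  · rw [eq_neg_of_add_eq_zero_left (k2 (c := b + 1) (by omega)), t.hT.mp_neg_right]
    exact Or.inr (inC_mp t.hT _).neg
  · rw [show finrank F (ker (b + 1)) = 3 by omega, h6] at hr
    rw [eq_neg_of_add_eq_zero_left (k1 (c := a + 1) (by omega)), t.hT.mp_neg_left]
    exact Or.inl (inE_mp t.hT _).neg
  · rw [show finrank F (ker (b + 1)) = 2 by omega, h6] at hr
    omega
  · rw [show finrank F (ker (b - 1)) = 3 by omega, h6] at hr
    rw [sub_eq_zero.1 (k1 (c := a - 1) (by omega))]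
    exact Or.inl (inE_mp t.hT _)
  · rw [sub_eq_zero.1 (k2 (c := b - 1) (by omega))]
    exact Or.inr (inC_mp t.hT _)

/-- The square of an element centralising a half turn. -/
theorem inC_sq (hy : y ∈ tensG T) (hi : y ∈ isomGroup β) (hz : IsE f z) (e : Commute y (ug t.hT z))
    (h4 : y * y * (y * y) = 1) : InC T ((y * y : V ≃ₗ[F] V) : End F V) ∨
      InC T ((y * y * ug t.hT z : V ≃ₗ[F] V) : End F V) := by
  obtain ⟨a, b, rfl⟩ := t.hT.mem_tensG.1 hy
  obtain ⟨k, -, hk⟩ := sim_of_mpE t hi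
  obtain ⟨s, -, h3, -⟩ := scal_of_mp t.hT (a := a * a * (a * a)) (b := b * b * (b * b)) fun u w => by
    simpa using congrArg (· (T u w)) h4
  obtain ⟨s, h5⟩ := hz.sq_eq hk (comm_of_mpE t.hT e) h3
  refine h5.imp (fun h5 => ⟨s • (a * a), fun u w => ?_⟩) fun h5 => ⟨s • (a * a), fun u w => ?_⟩
  all_goals simpa using congrArg (T (a (a u))) (LinearMap.congr_fun h5 w)

/-- Unipotent elements with a large fixed space. -/
theorem isP_of_tens (q : ℕ) [hq : Fact q.Prime] [CharP F q] (hx : x ∈ tensG T) (hi : x ∈ isomGroup β)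
    (hp : x ^ q = 1) (hd : finrank F V ≤ 2 * finrank F (ker ((x : End F V) - 1)))
    (hc : ¬ InC T (x : End F V)) : ∃ p b, IsP f p b ∧ x = ug t.hT b := by
  have := t.hT.finiteDimensional
  obtain ⟨a, b, rfl, hb⟩ : ∃ a b, x = t.hT.mpE a b ∧ b ^ q = 1 := by
    obtain ⟨a, b, rfl⟩ := t.hT.mem_tensG.1 hx
    obtain ⟨s, h0, h3, -⟩ := scal_of_mp t.hT (a := a ^ q) (b := b ^ q) fun u w => by
      simpa using congrArg (· (T u w)) ((map_pow t.hT.mpHom (a, b) q).trans hp)
    obtain ⟨s, rfl⟩ := (Finite.surjective_of_injective (frobenius_inj F q)) s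
    rw [frobenius_def] at h0 h3
    exact ⟨_, _, mpE_sm t.hT (pow_ne_zero_iff hq.out.ne_zero |>.1 h0), LinearEquiv.ext fun w => by
      simp [sm_pow, h3, smul_smul, h0]⟩
  obtain ⟨k, -, hk⟩ := sim_of_mpE t hi
  obtain rfl : k = 1 := frobenius_inj F q (by
    obtain ⟨y, y', hy⟩ := t.hh.exists_ne_pair
    have : ∀ n, f ((b ^ n) y) ((b ^ n) y') = k ^ n := fun n => by
      induction n with
      | zero => simpa
      | succ n ih => simp [pow_succ', hk _, ih]
    simpa [frobenius_def, hb, hy] using (this q).symm)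
  replace hk : b ∈ isomGroup f := fun u v => by simpa using hk u v
  obtain ⟨p, hP⟩ := m4.rad_of_pow q hk hb (by rintro rfl; exact hc ⟨a, by simp⟩)
  obtain ⟨p', c, h1, h2⟩ := hP.gen m4
  have h3 : ∀ v : ker ((t.hT.mpE a b : End F V) - 1), ∀ w,
      t.flip.c (b w) v = a (t.flip.c w v) := fun v w => by
    rw [← t.flip.c_mpE hk, t.hT.mpE_flip, show t.hT.mpE a b v = v from sub_eq_zero.1 v.2]
  have h4 := LinearMap.finrank_le_finrank_of_injective (f := LinearMap.prod
    (t.flip.c p' ∘ₗ (ker ((t.hT.mpE a b : End F V) - 1)).subtype)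
    ((t.flip.c c ∘ₗ (ker ((t.hT.mpE a b : End F V) - 1)).subtype).codRestrict
      (ker ((a : End F U) - 1)) fun v => by simp [← h3, h1]))
    ((injective_iff_map_eq_zero _).2 fun v hv => Subtype.ext (t.hT.eq_zero_of_cR fun η => by
      obtain ⟨w, hw⟩ := t.hh.exists_eq_dual η
      rw [← show f w = η from LinearMap.ext hw]
      exact (h2 { carrier := {w | t.flip.c w v = 0}
                  zero_mem' := by simpa using t.flip.c_smul 0 0 v
                  add_mem' := fun a b => by simp_all [t.flip.c_add]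
                  smul_mem' := fun s _ a => by simp_all [t.flip.c_smul] }
        (congrArg Prod.fst hv) (congrArg Subtype.val (congrArg Prod.snd hv)) fun y hy => by
          simpa [← h3] using congrArg a hy).ge (mem_top (x := w))))
  rw [finrank_prod] at h4
  rw [t.hT.finrank_eq, m4.dim] at hd
  have h5 : (a : End F U) - 1 = 0 := LinearMap.ker_eq_top.1 (eq_top_of_finrank_eq
    ((finrank_le _).antisymm (by omega)))
  exact ⟨p, b, hP, by rw [show a = 1 from LinearEquiv.toLinearMap_injective (sub_eq_zero.1 h5)]; rfl⟩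

end Form

end Cfsg.Lib.Class.WrO
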