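import Cfsg.Agent.Class.WrO.K4c

/-!
Tensor powers of an orthogonal 4-space of minus type: linear algebra.
-/

set_option autoImplicit false
set_option linter.unusedSectionVars false

namespace Cfsg.Lib.Class.WrO

open Module Submodule Tens Tn FE AO Form Wr
open LinearMap (range ker)

theorem isPGroup_closure {G : Type*} [Group G] {q : ℕ} {S : Set G}
    (hc : ∀ a ∈ S, ∀ b ∈ S, Commute a b) (hp : ∀ a ∈ S, a ^ q = 1) :
    IsPGroup q (Subgroup.closure S) := by
  rintro ⟨x, hx⟩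
  refine ⟨1, Subtype.ext ?_⟩
  rw [pow_one, Subgroup.coe_pow, Subgroup.coe_one]
  induction hx using Subgroup.closure_induction with
  | mem x hx => exact hp x hx
  | one => simp
  | mul x y hx hy a b =>
    rw [Commute.mul_pow (Subgroup.closure_le_centralizer_centralizer S hy x
      ((Subgroup.closure_le (Subgroup.centralizer S)).2 (fun a ha b hb => hc b hb a ha) hx)), a, b,
      mul_one]
  | inv x _ a => rw [inv_pow, a, inv_one]

theorem exists_conj_of_odd {G : Type*} [Group G] {b z : G} {n : ℕ} (hn : Odd n) (h1 : b ^ n = 1)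
    (h2 : z * z = 1) (h3 : b * z * (b * z) = 1) : ∃ m : ℕ, b ^ m * z * (b ^ m)⁻¹ = b * z := by
  obtain ⟨k, rfl⟩ := hn
  have h4 : SemiconjBy z b⁻¹ b := by
    rw [SemiconjBy, mul_inv_eq_iff_eq_mul, ← mul_left_inj z, h2, ← h3]; group
  refine ⟨k + 1, ?_⟩
  rw [mul_assoc, ← inv_pow, (h4.pow_right _).eq, ← mul_assoc, ← pow_add,
    show k + 1 + (k + 1) = 2 * k + 1 + 1 by ring, pow_succ, h1, one_mul]

/-- Averaging over an orbit on which a `q`-subgroup has a unique fixed point. -/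
theorem exists_avg {F G M : Type*} [Field F] [Group G] [Finite G] [AddCommGroup M] [Module F M]
    (ρ : G →* End F M) (q : ℕ) [Fact q.Prime] [CharP F q] {Q : Subgroup G} (hQ : IsPGroup q Q)
    {e : M} {N : Submodule F M} (h1 : ∀ g, ρ g e - e ∈ N) (h2 : ∀ x ∈ Q, ρ x e = e)
    (h3 : ∀ g, (∀ x ∈ Q, ρ x (ρ g e) = ρ g e) → ρ g e = e) :
    ∃ n ∈ N, ∀ g, ρ g (e + n) = e + n := by
  let : MulAction G M := .compHom M ρ
  have : Fintype (MulAction.orbit G e) := (Set.finite_range _).fintype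
  have h4 := hQ.card_modEq_card_fixedPoints (MulAction.orbit G e)
  rw [show MulAction.fixedPoints Q (MulAction.orbit G e) = {⟨e, MulAction.mem_orbit_self e⟩} from
    Set.eq_singleton_iff_unique_mem.2 ⟨fun x => Subtype.ext (h2 x x.2), by
      rintro ⟨_, g, rfl⟩ hg
      exact Subtype.ext (h3 g fun x hx => congrArg Subtype.val (hg ⟨x, hx⟩))⟩,
    Nat.card_eq_fintype_card, Nat.card_unique] at h4
  have h5 : e + ∑ o : MulAction.orbit G e, (o.1 - e) = ∑ o : MulAction.orbit G e, o.1 := by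
    rw [Finset.sum_sub_distrib, Finset.sum_const, ← Nat.cast_smul_eq_nsmul F, Finset.card_univ,
      (CharP.natCast_eq_natCast F q).2 h4]
    simp
  refine ⟨∑ o : MulAction.orbit G e, (o.1 - e), sum_mem ?_, fun g => ?_⟩
  · rintro ⟨_, g, rfl⟩ -
    exact h1 g
  rw [h5, map_sum]
  exact Equiv.sum_comp (MulAction.toPerm g) fun o : MulAction.orbit G e => o.1

variable {F U W V : Type*} [Field F] [AddCommGroup U] [Module F U] [AddCommGroup W] [Module F W]
  [AddCommGroup V] [Module F V] {x y g n : V ≃ₗ[F] V} {m : End F V}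

/-- An isometry which is `-1` on `J` and trivial on `J^⊥ / J`. -/
def Hf (β : V →ₗ[F] V →ₗ[F] F) (J : Submodule F V) (z : V ≃ₗ[F] V) : Prop :=
  z ∈ isomGroup β ∧ (∀ v ∈ J, z v = -v) ∧ ∀ v ∈ orth β J, z v - v ∈ J

theorem Hf.mul {β : V →ₗ[F] V →ₗ[F] F} {J : Submodule F V} (hx : Hf β J x) (hy : Hf β J y)
    (hJ : J ≤ orth β J) : x * y ∈ Rad β J :=
  mem_Rad.2 ⟨mul_mem hx.1 hy.1, fun v hv => by simp [hx.2.1 v hv, hy.2.1 v hv], fun v hv => by
    simpa using add_mem (hx.2.2 _ (add_mem (hJ (hy.2.2 v hv)) hv)) (hy.2.2 v hv)⟩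

theorem Hf.conj {β : V →ₗ[F] V →ₗ[F] F} {J J' : Submodule F V} (hx : Hf β J x)
    (hg : g ∈ isomGroup β) (h1 : ∀ v ∈ J, g v ∈ J') (h2 : ∀ v ∈ J', g⁻¹ v ∈ J) :
    Hf β J' (g * x * g⁻¹) :=
  ⟨mul_mem (mul_mem hg hx.1) (inv_mem hg), fun v hv => by simp [hx.2.1 _ (h2 v hv), -LinearEquiv.coe_inv],
    fun v hv => by
      simpa using h1 _ (hx.2.2 (g⁻¹ v) fun u hu => by simpa [← iso hg u] using hv _ (h1 u hu))⟩

variable [FiniteDimensional F U] [FiniteDimensional F W] [Nontrivial U] [Nontrivial W]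
  {f : W →ₗ[F] W →ₗ[F] F} {β : V →ₗ[F] V →ₗ[F] F} {p p' r : W} {b z : W ≃ₗ[F] W}

theorem M4.exists_zp (m4 : M4 f) (hp : f p p = 0) (hp' : f p' p' = 0) (hpp : f p p' = 1) :
    ∃ r r', IsR f r ∧ IsR f r' ∧ IsE f (r * r') ∧
      ((r * r' : W ≃ₗ[F] W) : End F W) = 1 - (2 : F) • (xx f p p' + xx f p' p) := by
  have a3 := m4.symm p' p
  obtain ⟨c, d, fr⟩ := m4.ext2 (a := p + p') (b := p - p')
    (by simpa [hp, hp', hpp, a3, ← two_mul, one_add_one_eq_two] using m4.two)
    (by simpa [hp, hp', hpp, a3, ← neg_add', one_add_one_eq_two] using m4.two)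
    (by simp [hp, hp', hpp, a3])
  obtain ⟨r, hr⟩ := exists_rf m4.hm fr.ha
  obtain ⟨r', hr'⟩ := exists_rf m4.hm fr.hb
  have ef := fr.ef hr hr'
  have k : ∀ y, f (p + p') y = 0 → f (p - p') y = 0 → f p y = 0 ∧ f p' y = 0 := fun y a b => by
    simp only [map_add, map_sub, LinearMap.add_apply, LinearMap.sub_apply] at a b
    exact ⟨mul_left_cancel₀ m4.two (by linear_combination a + b),
      mul_left_cancel₀ m4.two (by linear_combination a - b)⟩
  refine ⟨r, r', ⟨_, fr.ha, hr⟩, ⟨_, fr.hb, hr'⟩, ⟨_, _, _, _, ef⟩, fr.ext (ef.za.trans ?_)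
    (ef.zb.trans ?_) (ef.zc.trans ?_) (ef.zd.trans ?_)⟩
  · simp [hp, hp', hpp, a3]; module
  · simp [hp, hp', hpp, a3]; module
  · simp [k c fr.ac fr.bc]
  · simp [k d fr.ad fr.bd]

theorem M4.not_comm (m4 : M4 f) (hp : f p p = 0) (hpp : f p p' ≠ 0) (hr0 : r ≠ 0) (hr : f r r = 0) :
    ¬ Commute (xx f r r) (xx f p p') := fun e => by
  have hp0 : p ≠ 0 := by rintro rfl; simp at hpp
  have h1 := congrArg (f p) (LinearMap.congr_fun e p)
  simp [hp, m4.symm p' p, m4.symm r p, hpp] at h1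
  obtain ⟨s, rfl⟩ := m4.idx p r hp0 hp hr h1
  simpa [hp, m4.symm p' p, hpp, hp0, left_ne_zero_of_smul hr0] using (LinearMap.congr_fun e p').symm

theorem M4.hasE (m4 : M4 f) (hp : f p p = 0) (hp' : f p' p' = 0) (hpp : f p p' = 1)
    {G : Subgroup (W ≃ₗ[F] W)} (h1 : Rad f (span F {p}) ≤ G) (h2 : Rad f (span F {p'}) ≤ G) :
    HasE f G := fun r hr g hg => by
  by_cases h3 : f p r = 0
  · obtain ⟨s, rfl⟩ := m4.idx p r (by rintro rfl; simp at hpp) hp hr h3
    by_cases hs : s = 0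
    · rw [show g = 1 from LinearEquiv.ext fun y => by simpa [hs] using (mem_Rad_span.1 hg).2.2 y]
      exact one_mem _
    · exact h1 (span_singleton_smul_eq (Ne.isUnit hs) p ▸ hg)
  obtain ⟨a, ha, e⟩ := m4.hm.exists_move hp (y := f p r • p') (y' := r) (by simpa [hpp])
    (by simp [hpp]) (by simp [hr, hp'])
  have := h2 (conj_mem_Rad (S' := span F {p'}) hg (inv_mem ha.1) (fun v hv => by
      obtain ⟨s, rfl⟩ := mem_span_singleton.1 hv
      exact mem_span_singleton.2 ⟨s * f p r, by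
        rw [map_smul, ← e, LinearEquiv.coe_inv, a.symm_apply_apply, e, smul_smul]⟩) fun v hv => by
      obtain ⟨s, rfl⟩ := mem_span_singleton.1 hv
      exact mem_span_singleton.2 ⟨s / f p r, by
        rw [inv_inv, ← e, ← map_smul, e, smul_smul, div_mul_cancel₀ _ h3]⟩)
  simpa [mul_assoc] using mul_mem (mul_mem (h1 ha) this) (inv_mem (h1 ha))

section One

variable {T T' : U →ₗ[F] W →ₗ[F] V} {h : U →ₗ[F] U →ₗ[F] F}

theorem map_JL (hT : IsTens T) (hT' : IsTens T') {w w' : W} (hpp : f w p ≠ 0) {s : F}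
    (e : cj g (kap hT (xx f p w)) = s • kap hT' (xx f r w')) : ∀ v ∈ JL T.flip p, g v ∈ JL T'.flip r := by
  rintro _ ⟨u, rfl⟩
  refine ⟨((f w p)⁻¹ * s) • hT'.cR (f w') (g (T u p)), ?_⟩
  have := congrArg ((f w p)⁻¹ • ·) (LinearMap.congr_fun e (g (T u p)))
  simpa [smul_smul, hpp, kap_eq hT', xx, rk, hT'.mp_smulRight'] using this.symm

theorem hf_ug (t : TF T h 1 f 1 β) (hp : f p p = 0) (hpp : f p p' = 1) (hz : z ∈ isomGroup f)
    (e : (z : End F W) = 1 - (2 : F) • (xx f p p' + xx f p' p)) :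
    Hf β (JL T.flip p) (ug t.hT z) := by
  have e' : ∀ y, z y = y - (2 : F) • (f p' y • p + f p y • p') := LinearMap.congr_fun e
  refine ⟨t.ug_isom hz, ?_, fun v hv => t.flip.ind_orth (P := fun v => ug t.hT z v - v ∈ JL T.flip p)
    (by simp) (fun u v a b => by convert add_mem a b using 1; simp only [map_add]; abel)
    (fun y u hy => ⟨-(2 * f p' y) • u, by simp [e', hy, smul_smul]⟩) (t.flip.mem_orth_JL.1 hv)⟩
  rintro _ ⟨u, rfl⟩
  simp [e', hp, t.hh.symm p' p, hpp]
  module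

theorem JL_le (t : TF T h 1 f 1 β) (hp : f p p = 0) : JL T.flip p ≤ orth β (JL T.flip p) := by
  rintro _ ⟨u, rfl⟩ _ ⟨u', rfl⟩
  simp [t.tens, hp]

theorem comm_cp (hT : IsTens T) {n : End F V} (hn : InC T n) (e : Commute m n) (φ : Dual F W)
    (w : W) : Commute (cp hT φ w m) n := by
  obtain ⟨a, rfl⟩ := (inC_iff hT).1 hn
  refine hT.ext fun u y => ?_
  have := congrArg (hT.cR φ) (LinearMap.congr_fun e (T u w))
  simp only [End.mul_apply, IsTens.mp_apply, hT.cR_mp, End.one_apply] at this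
  simp [cp_apply, this, End.one_eq_id]

/-- `m` centralises the root group of `p` and the half turn. -/
def CP (hT : IsTens T) (f : W →ₗ[F] W →ₗ[F] F) (p p' : W) (m : End F V) : Prop :=
  Commute m (kap hT (xx f p p)) ∧ Commute m (kap hT (xx f p p' + xx f p' p)) ∧
    ∀ u, f p u = 0 → Commute m (kap hT (wd f u p))

theorem cp_of (hT : IsTens T) (os : OS f) (hp : f p p = 0)
    (e : (z : End F W) = 1 - (2 : F) • (xx f p p' + xx f p' p)) (h1 : Commute m (ug hT z))
    (h2 : ∀ b ∈ Rad f (span F {p}), Commute m (ug hT b)) : CP hT f p p' m := by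
  let S := (Subalgebra.centralizer F {m}).comap (kap hT)
  have mS : ∀ {ρ}, ρ ∈ S ↔ Commute m (kap hT ρ) := by simp [S, Subalgebra.mem_centralizer_iff, Commute, SemiconjBy]
  have h3 : ∀ u, f p u = 0 → 1 + wd f u p - (f u u / 2) • xx f p p ∈ S := fun u hu => by
    rw [← coe_eich os.hm hp hu, mS, ← coe_ug]
    exact h2 _ (eich_mem os.hm os.two hp hu)
  have h0 := os.two
  have h4 : xx f p p ∈ S := by
    obtain ⟨u, h4, h5⟩ := os.exists_perp p
    convert S.smul_mem (sub_mem (add_mem (h3 u h4) (h3 ((-1 : F) • u) (by simp [h4])))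
      (S.smul_mem S.one_mem 2)) (-(f u u)⁻¹) using 1
    simp only [wd_smul_left, map_smul, LinearMap.smul_apply, smul_eq_mul]
    match_scalars <;> field_simp <;> ring
  refine ⟨mS.1 h4, mS.1 ?_, fun u hu => mS.1 ?_⟩
  · rw [coe_ug, ← mS, e] at h1
    convert S.smul_mem (sub_mem S.one_mem h1) 2⁻¹ using 1
    match_scalars <;> field_simp
    ring
  · convert sub_mem (add_mem (h3 u hu) (S.smul_mem h4 (f u u / 2))) S.one_mem using 1
    abel

theorem CP.eq {hT : IsTens T} (H : CP hT f p p' m) (hf : Hm f 1) (hp : f p p = 0)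
    (hp' : f p' p' = 0) (hpp : f p p' = 1) :
    m = cp hT (f p) p' m + cp hT (f p') p' m * kap hT (xx f p p) := hT.ext fun x w => by
  have h0 := hf.symm p' p
  have h1 := LinearMap.congr_fun H.2.1 (T x p')
  simp only [End.mul_apply, kap_apply, LinearMap.add_apply, xx_apply, hp', hpp, zero_smul, zero_add,
    one_smul, map_add, map_zero] at h1
  simp only [kap_eq, xx, rk, hT.mp_smulRight', End.one_apply] at h1
  have h2 := LinearMap.congr_fun H.1 (T x p')
  have h3 := LinearMap.congr_fun (H.2.2 (w - f p' w • p - f p w • p') (by simp [hp, hpp])) (T x p')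
  simp only [LinearMap.add_apply, End.mul_apply, kap_apply, cp_apply]
  generalize hT.cR (f p') (m (T x p')) = B, hT.cR (f p) (m (T x p')) = A at *
  simp [h1, wd_apply, hp, hp', hpp, h0, hf.symm w] at h2 h3 ⊢
  linear_combination (norm := module) h3 + f p' w • h2

end One

variable {τ : Type*} [Fintype τ] {T : τ → U →ₗ[F] W →ₗ[F] V} {h : τ → U →ₗ[F] U →ₗ[F] F}
  {i j l : τ} (t : TP T)
include t

theorem idx_eq (h2 : 2 ≤ finrank F W) (H : ∀ b, InE (T j) (kap (t.tens i) b)) : i = j :=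
  by_contra fun h0 => not_comm_kap (t.tens i) h2 fun a b =>
    ((t.comm i j h0).inC (t.tens i) (H b)).comm_kap _ a

theorem isWr_of (h2 : 2 ≤ finrank F W) (H : ∀ i, ∃ j, ∀ a, InE (T i) a → InE (T j) (cj g a)) :
    TP.IsWr T g := by
  choose s hs using H
  refine ⟨Equiv.ofBijective s (Finite.injective_iff_bijective.1 fun i j hij => by_contra fun h0 =>
    not_comm_kap (t.tens (s i)) h2 fun a b => ?_), hs⟩
  obtain ⟨a, ha⟩ := surj_of_cj (t.tens i) (t.tens _) (hs i) a
  obtain ⟨b, hb⟩ := surj_of_cj (t.tens j) (t.tens (s i)) (hij ▸ hs j) b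
  rw [← ha, ← hb, ← map_mul, ← map_mul, (t.inC_kap h0 b).comm_kap]

theorem eq_of_inE (hj : InE (T j) m) (hc : ¬ InC (T i) m) : i = j :=
  by_contra fun h0 => hc ((t.comm i j h0).inC (t.tens i) hj)

theorem tensG_of_inE' (hg : TP.IsWr T g) (hi : InE (T i) m) (hc : ¬ InC (T i) (cj g m)) :
    g ∈ tensG (T i) := by
  obtain ⟨σ, hσ⟩ := hg
  exact tensG_of_cj (t.tens i) (by simpa only [← eq_of_inE t (hσ i m hi) hc] using hσ i)

theorem adj_eq_of_cp (tf : ∀ i, TF (T i) (h i) 1 f 1 β) (hβ : Hm β 1) [FiniteDimensional F V]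
    (hp : f p p = 0) (hp' : f p' p' = 0) (hpp : f p p' = 1) (s : Finset τ) :
    ∀ m, (∀ j ∈ s, CP (t.tens j) f p p' m) → (∀ l, l ∉ s → InC (T l) m) → adj β m = m := by
  classical
  induction s using Finset.induction_on with
  | empty =>
    intro m _ H
    obtain ⟨c, rfl⟩ := t.cent m fun l => H l (by simp)
    simp [hβ.adj_smul, hβ.adj_one]
  | insert j s hj ih =>
    intro m H1 H2
    have key : ∀ φ, adj β (cp (t.tens j) φ p' m) = cp (t.tens j) φ p' m := fun φ =>
      ih _ (fun l hl => by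
        have h1 : j ≠ l := fun e => hj (e ▸ hl)
        have h2 := H1 l (by simp [hl])
        exact ⟨comm_cp _ (t.inC_kap h1 _) h2.1 _ _, comm_cp _ (t.inC_kap h1 _) h2.2.1 _ _,
          fun u hu => comm_cp _ (t.inC_kap h1 _) (h2.2.2 u hu) _ _⟩) fun l hl => by
        by_cases h1 : j = l
        · exact h1 ▸ inC_cp _ _ _ _
        · exact InC.cp _ (t.tens l) (t.comm j l h1) (H2 l (by simp [hl, Ne.symm h1])) _ _
    rw [(H1 j (by simp)).eq (tf j).hh hp hp' hpp, hβ.adj_add, hβ.adj_mul, key, key, (tf j).adj_kap,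
      (tf j).hh.adj_xx, one_smul, (inC_cp _ _ _ _).comm_kap]

/-- An involution moving all the factors which it does not centralise has non-zero trace. -/
theorem trace_ne [FiniteDimensional F V] (h2 : 2 ≤ finrank F W)
    (hV : (finrank F V : F) ≠ 0) (s : Finset τ) : ∀ y : V ≃ₗ[F] V, y * y = 1 →
      (∀ i ∈ s, ∃ l, l ≠ i ∧ ∀ a, InE (T i) a → InE (T l) (cj y a)) →
      (∀ i, i ∉ s → InC (T i) (y : End F V)) → LinearMap.trace F V y ≠ 0 := by
  classical
  induction s using Finset.strongInduction with | _ s ih =>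
  intro y hy H1 H2
  have h0 : (y : End F V) * y = 1 := congrArg LinearEquiv.toLinearMap hy
  have h1 : ∀ a, cj y (cj y a) = a := fun a => by rw [← cj_mul, hy, cj_one]
  have h3 : ∀ a, cj y a = y * a * y := fun a => by rw [cj_eq_mul, inv_eq_of_mul_eq_one_right hy]
  have h4 : ∀ a, (y : End F V) * a = cj y a * y := fun a => by rw [h3, mul_assoc, h0, mul_one]
  rcases s.eq_empty_or_nonempty with rfl | ⟨j, hj⟩
  · obtain ⟨c, hc⟩ := t.cent _ fun l => H2 l (by simp)
    have : c ≠ 0 := by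
      rintro rfl
      have : Nontrivial V := nontrivial_of_finrank_pos (R := F) (Nat.pos_of_ne_zero fun h => hV (by simp [h]))
      simp [hc] at h0
    simp [hc, this, hV]
  obtain ⟨k, hk, e⟩ := H1 j hj
  set hT := t.tens j
  have h5 := ptr_sq hT h0 fun ρ => h3 _ ▸ (t.comm j k hk.symm).inC hT (e _ (inE_kap hT ρ))
  obtain ⟨y', h6⟩ : ∃ y' : V ≃ₗ[F] V, (y' : End F V) = ptr hT y :=
    ⟨.ofInvolutive _ (LinearMap.congr_fun h5), rfl⟩
  have h7 : ∀ a, InC (T j) a → InC (T j) (cj y a) → cj y' a = cj y a := fun a h7 h8 => by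
    rw [cj_eq_mul, h6, ← ptr_right hT h7, h4, ptr_left hT h8, ← h6, mul_assoc, coe_mul_inv, mul_one]
  have h8 : ∀ b, ∃ a, kap (t.tens k) b = cj y (kap hT a) := fun b =>
    (surj_of_cj hT _ e b).imp fun _ => Eq.symm
  refine fun h9 => ih ((s.erase j).erase k) ((Finset.erase_subset _ _).trans_ssubset
    (Finset.erase_ssubset hj)) y' (LinearEquiv.toLinearMap_injective (by
      rw [LinearEquiv.coe_toLinearMap_mul, h6, h5]; rfl)) (fun i hi => ?_)
    (fun i hi => ?_) (by rw [h6, trace_ptr, h9, mul_zero])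
  · simp only [Finset.mem_erase] at hi
    obtain ⟨l, hl, e'⟩ := H1 i hi.2.2
    have : j ≠ l := by
      rintro rfl
      exact hi.1 (idx_eq t h2 fun b => by simpa only [h1] using e _ (e' _ (inE_kap (t.tens i) b)))
    exact ⟨l, hl, fun a ha => h7 a ((t.comm j i (Ne.symm hi.2.1)).inC hT ha)
      ((t.comm j l this).inC hT (e' a ha)) ▸ e' a ha⟩
  rw [h6]
  by_cases h10 : j = i
  · exact h10 ▸ inC_ptr hT _
  refine inC_of_comm (t.tens i) fun a ha => ?_
  have h11 := (t.comm j i h10).inC hT ha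
  rw [← ptr_left hT h11, ← ptr_right hT h11]
  by_cases h12 : i = k
  · subst h12
    obtain ⟨b, rfl⟩ := ha.exists_kap (t.tens i)
    obtain ⟨a, h13⟩ := h8 b
    rw [h4, h13, h1, ← h4, ptr_comm]
  · rw [ha.comm (t.tens i) (H2 i (by simpa [h12, Ne.symm h10] using hi))]

/-- Unipotent elements with a large fixed space do not move factors. -/
theorem tensG_of_pow (m4 : M4 f) (q : ℕ) [hq : Fact q.Prime] [CharP F q] (hx : TP.IsWr T x)
    (hp : x ^ q = 1) (hd : finrank F V ≤ 2 * finrank F (ker ((x : End F V) - 1))) :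
    x ∈ tensG (T l) := by
  obtain ⟨σ, hσ⟩ := hx
  by_cases h0 : σ l = l
  · exact tensG_of_cj (t.tens l) (by simpa only [h0] using hσ l)
  have := (t.tens l).finiteDimensional
  have h1 : ∀ k a, InE (T l) a → InE (T (σ^[k] l)) (cj (x ^ k) a) := fun k a ha => by
    induction k with
    | zero => simpa
    | succ k ih => rw [pow_succ', cj_mul, Function.iterate_succ_apply']; exact hσ _ _ ih
  have h2 := Function.minimalPeriod_eq_prime (f := σ) (x := l) (p := q) (idx_eq t (by rw [m4.dim]; omega)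
    fun b => by simpa [hp] using h1 q _ (inE_kap (t.tens l) b)).symm h0
  obtain ⟨a, b, c, d, fr⟩ := m4.exists_frame
  obtain ⟨z, hz⟩ := fr.rot.exists_ef
  set hT := t.tens l
  let e : ℕ → W := fun k => if k = 0 then a else b
  have h3 : ∀ k, f (e k) (e k) ≠ 0 ∧ z (e k) = e k := fun k => by
    by_cases h : k = 0 <;> simp [e, h, fr.ha, fr.hb, hz.zc, hz.zd]
  let P : ℕ → End F V := fun k => cj (x ^ k) (kap hT ((f (e k) (e k))⁻¹ • xx f (e k) (e k)))
  obtain ⟨v, hv, h4⟩ : ∃ v, v ≠ 0 ∧ ∀ m < q, P m v = v := by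
    suffices ∀ k ≤ q, ∃ v, v ≠ 0 ∧ ∀ m < k, P m v = v from this q le_rfl
    intro k hk
    induction k with
    | zero => have := nontrivial_of_tens hT; exact (exists_ne 0).imp fun v hv => ⟨hv, by simp⟩
    | succ k ih =>
      obtain ⟨v, hv, h4⟩ := ih (by omega)
      have h5 := h1 k _ (inE_kap hT ((f (e k) (e k))⁻¹ • xx f (e k) (e k)))
      have h6 : e k ≠ 0 := fun h => by simpa [h] using (h3 k).1
      obtain ⟨n, h7, h8⟩ := exists_apply_ne (t.tens _) h5 ((map_ne_zero_iff _ (cj _).injective).2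
        (kap_ne_zero _ (smul_ne_zero (inv_ne_zero (h3 k).1) (m4.hm.xx_ne_zero h6 h6)))) hv
      refine ⟨_, h8, fun m hm => ?_⟩
      rcases Nat.lt_succ_iff_lt_or_eq.1 hm with hm | rfl
      · have h9 := (t.comm _ _ fun e => hm.ne' (Function.iterate_injOn_Iio_minimalPeriod
          (by simp [h2]; omega) (by simp [h2]; omega) e)).inC (t.tens _)
          (h1 m _ (inE_kap hT ((f (e m) (e m))⁻¹ • xx f (e m) (e m))))
        exact (LinearMap.congr_fun ((h5.mul h7).comm (t.tens _) h9) v).symm.trans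
          (congrArg (fun v => P k (n v)) (h4 m hm))
      · rw [← End.mul_apply, ← map_mul, ← map_mul]
        simp [xx_mul, (h3 m).1]
  refine absurd hd (not_le.2 (two_mul_lt m4.two (odd_char (F := F) q m4.two) hp (m := kap hT z)
    (v := v) (by rw [← map_mul, ← LinearEquiv.coe_toLinearMap_mul, hz.sq]; exact map_one _)
    (fun k => ?_) (fun h5 => hv ?_) ?_))
  · rw [← Nat.mod_add_div k q, pow_add, pow_mul, hp, one_pow, mul_one,
      ← h4 _ (Nat.mod_lt k hq.out.pos), ← End.mul_apply, ← map_mul, ← map_mul]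
    congr 3
    ext y
    simp [(h3 _).2]
  · have h6 := h4 0 hq.out.pos
    have h7 := h4 1 hq.out.one_lt
    have h8 : x⁻¹ v = v := x.injective (by simp [h5])
    simp only [P, pow_zero, cj_one, pow_one, cj_apply, h8] at h6 h7
    rw [← h6, ← x.injective (h7.trans h5.symm), ← End.mul_apply, ← map_mul]
    simp [xx_mul, e, fr.ab]
  · obtain ⟨k, hk⟩ := hz.exists_anti
    have h5 := (t.comm l _ (Ne.symm h0)).inC hT (hσ l _ (inE_kap hT z))
    have h6 : (z : End F W) * z = 1 := congrArg LinearEquiv.toLinearMap hz.sq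
    exact (finrank_of_anti m4.two (k := ug hT k) (by
      rw [mul_assoc, ← mul_assoc (cj x _), ← h5.comm_kap, mul_assoc, ← mul_assoc]
      simp [← map_mul, h6]) (by
      rw [map_mul, cj_ug_kap, cj_of_anti hk, h5.cj_ug, map_neg, neg_mul])).1

/-- Unipotent elements with a large fixed space are root elements of a factor. -/
theorem isP_of_isWr [Finite F] (tf : ∀ i, TF (T i) (h i) 1 f 1 β) (m4 : M4 f) (q : ℕ)
    [hq : Fact q.Prime] [CharP F q] (hx : TP.IsWr T x) (hi : x ∈ isomGroup β) (h1 : x ≠ 1)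
    (hp : x ^ q = 1) (hd : finrank F V ≤ 2 * finrank F (ker ((x : End F V) - 1))) :
    ∃ l p b, IsP f p b ∧ x = ug (t.tens l) b := by
  obtain ⟨l, hl⟩ : ∃ l, ¬ InC (T l) (x : End F V) := by
    by_contra! hc
    obtain ⟨s, hs⟩ := t.cent _ hc
    have := sub_one_pow_char q x
    rw [hp, hs, ← one_smul F (1 : End F V), smul_smul, ← sub_smul, smul_pow, one_pow] at this
    refine h1 (LinearEquiv.ext fun v => ?_)
    have h2 : (s * 1 - 1) ^ q • v = 0 := by simpa using LinearMap.congr_fun this v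
    rcases smul_eq_zero.1 h2 with h2 | rfl
    · have := (mul_one s).symm.trans (sub_eq_zero.1 (pow_eq_zero_iff hq.out.ne_zero |>.1 h2))
      simpa [this] using LinearMap.congr_fun hs v
    · simp
  exact ⟨l, isP_of_tens (tf l) m4 q (tensG_of_pow t m4 q hx hp hd) hi hp hd hl⟩

end Cfsg.Lib.Class.WrO
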