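import Cfsg.Agent.Class.WrO.K4d

/-!
Overgroups of the stabiliser of a tensor power of an orthogonal 4-space of minus type: root elements
fix a unique coset.
-/

set_option autoImplicit false
set_option linter.unusedSectionVars false

namespace Cfsg.Lib.Class.WrO

open Module Submodule Tens Tn FE AO Form Wr
open LinearMap (range ker)

variable {F U W V : Type*} [Field F] [AddCommGroup U] [Module F U] [AddCommGroup W] [Module F W]
  [AddCommGroup V] [Module F V] {x y g n : V ≃ₗ[F] V} {m : End F V}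
  [FiniteDimensional F U] [FiniteDimensional F W] [Nontrivial U] [Nontrivial W]
  {f : W →ₗ[F] W →ₗ[F] F} {β : V →ₗ[F] V →ₗ[F] F} {p p' r : W} {b z : W ≃ₗ[F] W}

theorem IsP.two_le (h : IsP f p b) (m4 : M4 f) : 2 ≤ finrank F (ker ((b : End F W) - 1)) := by
  obtain ⟨p', a1, a2⟩ := m4.hm.exists_partner h.ne h.hp
  obtain ⟨u, -, -, -, h3⟩ := h.eq m4 a1 a2
  have h1 := finrank_ker_two (f p) (f u)
  have h2 := finrank_mono (show ker (f p) ⊓ ker (f u) ≤ ker ((b : End F W) - 1) from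
    fun y hy => by simp [h3, wd_apply, show f p y = 0 from hy.1, show f u y = 0 from hy.2])
  have := m4.dim
  omega

theorem rad_comm (os : OS f) (hp0 : p ≠ 0) (hp : f p p = 0) (h1 : b ∈ Rad f (span F {p}))
    (h2 : z ∈ Rad f (span F {p})) : b * z = z * b := by
  obtain ⟨p', a1, a2⟩ := os.hm.exists_partner hp0 hp
  obtain ⟨u, b1, -, b2⟩ := rad_eq os hp a1 a2 h1
  obtain ⟨v, b3, -, b4⟩ := rad_eq os hp a1 a2 h2
  refine LinearEquiv.toLinearMap_injective (LinearMap.ext fun y => ?_)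
  simp only [LinearEquiv.coe_toLinearMap_mul, b2, b4, End.mul_apply, LinearMap.sub_apply,
    LinearMap.add_apply, LinearMap.smul_apply, End.one_apply, wd_apply, xx_apply, map_add, map_sub,
    map_smul, hp, b1, b3, os.symm u p, os.symm v p, os.symm v u]
  module

theorem M4.not_isCyclic [Finite (W ≃ₗ[F] W)] (m4 : M4 f) (hp0 : p ≠ 0) (hp : f p p = 0) :
    ¬ IsCyclic (Rad f (span F {p})) := fun H => by
  obtain ⟨p', a1, a2⟩ := m4.hm.exists_partner hp0 hp
  obtain ⟨g, hg⟩ := H.exists_monoid_generator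
  obtain ⟨u, b1, -, b2⟩ := rad_eq m4.toOS hp a1 a2 g.2
  have h1 : ∀ n : ℕ, f p ((g.1 ^ n) p') = 1 ∧
      ∀ y, f p y = 0 → f p' y = 0 → f y ((g.1 ^ n) p') = n * f y u := fun n => by
    induction n with
    | zero => exact ⟨a2, fun y _ h => by simp [m4.symm y, h]⟩
    | succ n ih =>
      rw [pow_succ', LinearEquiv.mul_apply, ← LinearEquiv.coe_coe g.1, b2]
      exact ⟨by simp [wd_apply, ih.1, b1, hp], fun y h h' => by
        simp [wd_apply, ih.1, ih.2 y h h', m4.symm y p, h, add_mul]⟩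
  have h2 : ∀ c, f p c = 0 → ∃ n : ℕ, ∀ y, f p y = 0 → f p' y = 0 → f y c = n * f y u :=
    fun c hc => by
      obtain ⟨n, hn⟩ := hg ⟨_, eich_mem m4.hm m4.two hp hc⟩
      refine ⟨n, fun y h h' => ?_⟩
      rw [← (h1 n).2 y h h', show g.1 ^ n = _ from congrArg Subtype.val hn]
      simp [Hm.eich_apply, a2, m4.symm y p, m4.symm y p', h, h']
  obtain ⟨c, c1, c2, c3⟩ := m4.exists_perp_hyp hp a2
  obtain ⟨d, d1, d2, d3⟩ := m4.exists_perp_two m4.dim.ge c1 c3
  obtain ⟨n, hn⟩ := h2 c c1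
  obtain ⟨k, hk⟩ := h2 d d1
  have h3 := hn (d - f p' d • p) (by simp [d1, hp]) (by simp [m4.symm p' p, a2])
  have h4 := hk (d - f p' d • p) (by simp [d1, hp]) (by simp [m4.symm p' p, a2])
  have h5 := hn c c1 c2
  simp only [map_sub, map_smul, LinearMap.sub_apply, LinearMap.smul_apply, m4.symm d c, d2, c1, d1,
    b1, smul_zero, sub_zero] at h3 h4
  rcases zero_eq_mul.1 h3 with h6 | h6
  · exact c3 (by simp [h5, h6])
  · exact d3 (by simp [h4, h6])

theorem inv_mem_JL {T T' : U →ₗ[F] W →ₗ[F] V} (hT : IsTens T) (hp : p ≠ 0)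
    (e : ∀ v ∈ JL T.flip p, g v ∈ JL T'.flip r) : ∀ v ∈ JL T'.flip r, g⁻¹ v ∈ JL T.flip p := by
  have := hT.finiteDimensional
  have h1 : (JL T.flip p).map (g : End F V) = JL T'.flip r := eq_of_le_of_finrank_le (by
    rintro _ ⟨v, hv, rfl⟩; exact e v hv) (by
      rw [g.finrank_map_eq, LinearMap.finrank_range_of_inj (hT.flip.injective hp)]
      exact LinearMap.finrank_range_le _)
  intro v hv
  obtain ⟨w, hw, rfl⟩ := h1.ge hv
  simpa using hw

theorem map_JL' {T T' : U →ₗ[F] W →ₗ[F] V} (hT : IsTens T) (hT' : IsTens T') (hpp : f p p' = 1)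
    {k : F} (e : cj g (kap hT (xx f p p)) = k • kap hT' (xx f r r)) :
    ∀ v ∈ JL T.flip p, g v ∈ JL T'.flip r := by
  rintro _ ⟨u, rfl⟩
  refine ⟨k • hT'.cR (f r) (g (T u p')), ?_⟩
  simpa [hpp, kap_eq hT', xx, rk, IsTens.mp_smulRight'] using
    (LinearMap.congr_fun e (g (T u p'))).symm

/-- Conjugation as a representation. -/
def cjH : (V ≃ₗ[F] V) →* End F (End F V) where
  toFun g := (cj g).toLinearMap
  map_one' := rfl
  map_mul' _ _ := rfl

variable {τ : Type*} [Fintype τ] {T : τ → U →ₗ[F] W →ₗ[F] V} {h : τ → U →ₗ[F] U →ₗ[F] F}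
  {i j l : τ} {X : Subgroup (V ≃ₗ[F] V)} {s : Finset τ}

/-- An overgroup of the stabiliser of a tensor power of a 4-space of minus type. -/
structure O4 (T : τ → U →ₗ[F] W →ₗ[F] V) (h : τ → U →ₗ[F] U →ₗ[F] F) (f : W →ₗ[F] W →ₗ[F] F)
    (β : V →ₗ[F] V →ₗ[F] F) (X : Subgroup (V ≃ₗ[F] V)) : Prop extends OC T h f β X where
  m4 : M4 f
  dimU : (finrank F U : F) ≠ 0
  rad : ∀ i p, p ≠ 0 → f p p = 0 → ∀ q ∈ X, q ∈ Rad β (JL (T i).flip p) →
    ∃ b, q = ug (tp.tens i) b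
  so : ∀ i r r', IsR f r → IsR f r' → ug (tp.tens i) (r * r') ∈ X
  ge : ∀ i, ∀ g ∈ M0 f, ug (tp.tens i) g ∈ X
  cls : Fintype.card τ = 2 ∧ finrank F U = 4 ∨ ∀ i r, IsR f r → ug (tp.tens i) r ∈ X

/-- The inductive situation. -/
structure I4 (T : τ → U →ₗ[F] W →ₗ[F] V) (h : τ → U →ₗ[F] U →ₗ[F] F) (f : W →ₗ[F] W →ₗ[F] F)
    (β : V →ₗ[F] V →ₗ[F] F) (X : Subgroup (V ≃ₗ[F] V)) (s : Finset τ) : Prop
    extends O4 T h f β X where
  out : ∀ l, l ∉ s → X ≤ tensG (T l)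
  ih : ∀ i ∈ s, ∀ y ∈ X, y ∈ tensG (T i) → TP.IsWr T y
  two : ∀ i, ∃ j ∈ s, j ≠ i

namespace O4

variable [Finite F] (c : O4 T h f β X)
include c

theorem finite (i : τ) : Finite (V ≃ₗ[F] V) := by
  have := (c.tp.tens i).finiteDimensional
  have : Finite V := Module.finite_of_finite F
  exact Finite.of_injective _ (DFunLike.coe_injective (F := V ≃ₗ[F] V))

theorem two_le : 2 ≤ finrank F W := by rw [c.m4.dim]; omega

theorem conj_rad (hg : g ∈ X) (hp0 : p ≠ 0) (hp : f p p = 0) (hr0 : r ≠ 0) (hr : f r r = 0)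
    (e : ∀ v ∈ JL (T i).flip p, g v ∈ JL (T j).flip r) (hb : b ∈ Rad f (span F {p})) :
    ∃ b', g * ug (c.tp.tens i) b * g⁻¹ = ug (c.tp.tens j) b' :=
  c.rad j r hr0 hr _ (mul_mem (mul_mem hg (c.eich i p hp b hb)) (inv_mem hg))
    (conj_mem_Rad (ug_mem_Rad (c.tf i) hb) (c.le hg) e (inv_mem_JL (c.tp.tens i) hp0 e))

theorem tensG_of_xx (hg : g ∈ X) (hp : f p p = 0) (hp' : f p' p' = 0) (hpp : f p p' = 1)
    (e : cj g (kap (c.tp.tens i) (xx f p p')) = kap (c.tp.tens i) (xx f p p')) :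
    g ∈ tensG (T i) := by
  have := (c.tp.tens i).finiteDimensional
  set hT := c.tp.tens i
  have h1 := congrArg (adj β) e
  rw [(c.hm i).adj_cj _ (c.le hg), (c.tf i).adj_kap, c.os.hm.adj_xx, one_smul] at h1
  have h0 : p ≠ 0 := by rintro rfl; simp at hpp
  have h0' : p' ≠ 0 := by rintro rfl; simp at hpp
  let G : Subgroup (W ≃ₗ[F] W) := ((ugH hT).range.comap (MulAut.conj g).toMonoidHom).comap (ugH hT)
  have h2 := c.m4.hasE hp hp' hpp (G := G) (fun b hb => (c.conj_rad hg h0 hp h0 hp (map_JL hT hT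
    (by simp [c.os.symm p' p, hpp]) (e.trans (one_smul F _).symm)) hb).imp fun _ => Eq.symm)
    fun b hb => (c.conj_rad hg h0' hp' h0' hp' (map_JL hT hT (by simp [hpp])
      (h1.trans (one_smul F _).symm)) hb).imp fun _ => Eq.symm
  refine tensG_of_cj hT fun a ha => ?_
  obtain ⟨a, rfl⟩ := ha.exists_kap hT
  exact inE_cj_of_rad c.os hT hT (fun r hr b hb => (h2 r hr hb).imp fun _ => Eq.symm) a

theorem isP_conj (hg : g ∈ X) (hb : IsP f p b) (H : TP.IsWr T (g * ug (c.tp.tens i) b * g⁻¹)) :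
    ∃ l r, ∃ k : F, r ≠ 0 ∧ f r r = 0 ∧ k ≠ 0 ∧
      cj g (kap (c.tp.tens i) (xx f p p)) = k • kap (c.tp.tens l) (xx f r r) := by
  obtain ⟨q, _⟩ := CharP.exists F
  have hq : Fact q.Prime := ⟨CharP.char_is_prime F q⟩
  have h1 : ∀ i (b : W ≃ₗ[F] W), (ug (c.tp.tens i) b : End F V) - 1 = kap (c.tp.tens i) (b - 1) :=
    fun i b => by rw [coe_ug, map_sub, map_one]
  have h2 : ((g * ug (c.tp.tens i) b * g⁻¹ : V ≃ₗ[F] V) : End F V) - 1 =
      cj g (kap (c.tp.tens i) (b - 1)) := by rw [coe_conj, ← h1, map_sub, map_one]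
  obtain ⟨l, r, b', h3, h4⟩ := isP_of_isWr c.tp c.tf c.m4 q H
    (c.le (mul_mem (mul_mem hg (c.eich i p hb.hp b hb.rad)) (inv_mem hg)))
    (fun h0 => hb.one (ug_inj (c.tp.tens i) ((conj_eq_one_iff.1 h0).trans (map_one (ugH _)).symm)))
    (by rw [conj_pow, show ug _ b ^ q = 1 from (map_pow (ugH _) b q).symm.trans (by
      rw [hb.pow c.m4, map_one])]; simp)
    (by rw [h2, finrank_ker_cj, finrank_ker_kap, (c.tp.tens i).finrank_eq, c.m4.dim]
        nlinarith [hb.two_le c.m4])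
  obtain ⟨k, a1, a2⟩ := hb.sq c.m4
  obtain ⟨k', a3, a4⟩ := h3.sq c.m4
  refine ⟨l, r, k⁻¹ * k', h3.ne, h3.hp, by simp [a1, a3], ?_⟩
  rw [h4, h1] at h2
  rw [mul_smul, ← map_smul, ← a4, map_mul, h2, ← map_mul, ← map_mul, a2, map_smul, map_smul,
    inv_smul_smul₀ a1]

theorem eq_zero_of_comm (hp : f p p = 0) (hp' : f p' p' = 0) (hpp : f p p' = 1)
    (e : (z : End F W) = 1 - (2 : F) • (xx f p p' + xx f p' p)) (h1 : InC (T i) m)
    (h2 : adj β m = -m) (H : ∀ j, j ≠ i → ∀ b, b ∈ Rad f (span F {p}) ∨ b = z →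
      Commute (m * kap (c.tp.tens i) (xx f p p)) (ug (c.tp.tens j) b)) : m = 0 := by
  classical
  have := (c.tp.tens i).finiteDimensional
  have h0 : p ≠ 0 := by rintro rfl; simp at hpp
  have h3 : ∀ j, j ≠ i → ∀ b, b ∈ Rad f (span F {p}) ∨ b = z → Commute m (ug (c.tp.tens j) b) :=
    fun j hj b hb => by
      have h4 := inC_ug c.tp hj.symm b
      exact sub_eq_zero.1 (((h1.mul h4).sub (h4.mul h1)).eq_zero_of_mul (c.tp.tens i)
        (c.os.hm.xx_ne_zero h0 h0) (by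
          rw [sub_mul, mul_assoc, ← h4.comm_kap, ← mul_assoc, (H j hj b hb).eq, mul_assoc, sub_self]))
  have h4 := adj_eq_of_cp c.tp c.tf (c.hm i) hp hp' hpp (Finset.univ.erase i) m
    (fun j hj => cp_of _ c.os hp e (h3 j (Finset.ne_of_mem_erase hj) z (.inr rfl))
      fun b hb => h3 j (Finset.ne_of_mem_erase hj) b (.inl hb))
    fun l hl => by obtain rfl : l = i := by simpa using hl
                   exact h1
  exact (smul_eq_zero.1 (show (2 : F) • m = 0 by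
    linear_combination (norm := module) h2 - h4)).resolve_left c.os.two

end O4

namespace I4

variable [Finite F] (c : I4 T h f β X s)
include c

theorem fix_of (hi : i ∈ s) (hp : f p p = 0) (hp' : f p' p' = 0) (hpp : f p p' = 1)
    (e : (z : End F W) = 1 - (2 : F) • (xx f p p' + xx f p' p)) (hz : ug (c.tp.tens j) z ∈ X)
    (hb : IsP f p b) (hy : y ∈ X) (H : cj (ug (c.tp.tens j) b) (cj y (kap (c.tp.tens i) (xx f p p'))) =
      cj y (kap (c.tp.tens i) (xx f p p'))) {b' : W ≃ₗ[F] W} (hb' : b' ∈ Rad f (span F {p}) ∨ b' = z) :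
    cj (ug (c.tp.tens j) b') (cj y (kap (c.tp.tens i) (xx f p p'))) =
      cj y (kap (c.tp.tens i) (xx f p p')) := by
  have h1 : cj (y⁻¹ * ug (c.tp.tens j) b * y⁻¹⁻¹) (kap (c.tp.tens i) (xx f p p')) =
      kap (c.tp.tens i) (xx f p p') := by rw [inv_inv, cj_mul, cj_mul, H, cj_inv_cj]
  have h2 := mul_mem (mul_mem (inv_mem hy) (c.eich j p hp b hb.rad)) (inv_mem (inv_mem hy))
  obtain ⟨l, r, k, a1, a2, a3, a4⟩ := c.isP_conj (inv_mem hy) hb
    (c.ih i hi _ h2 (c.tensG_of_xx h2 hp hp' hpp h1))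
  have h3 : i ≠ l := by
    rintro rfl
    obtain ⟨k', a5, a6⟩ := hb.sq c.m4
    have h3 := (comm_of_cj h1).sub_left (.one_left _)
    have h4 := h3.mul_left h3
    rw [coe_conj, ← map_one (cj y⁻¹), ← map_sub, ← map_mul, coe_ug, ← map_one (kap (c.tp.tens j)), ← map_sub,
      ← map_mul, a6, map_smul, map_smul, a4, smul_smul] at h4
    refine c.m4.not_comm hp (hpp.trans_ne one_ne_zero) a1 a2 (kap_inj (c.tp.tens i) ?_)
    simpa [a3, a5] using (h4.smul_left (k' * k)⁻¹).eq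
  obtain ⟨r', a5, a6⟩ := c.os.hm.exists_partner a1 a2
  have h4 := map_JL' _ _ hpp a4
  obtain ⟨g, hg⟩ : ∃ g, y⁻¹ * ug (c.tp.tens j) b' * y⁻¹⁻¹ = ug (c.tp.tens l) g := by
    rcases hb' with hb' | rfl
    · exact c.conj_rad (inv_mem hy) hb.ne hp a1 a2 h4 hb'
    obtain ⟨r₁, r₂, b1, b2, -, b3⟩ := c.m4.exists_zp a2 a5 a6
    obtain ⟨g, hg⟩ := c.rad l r a1 a2 _ (mul_mem (mul_mem (mul_mem (inv_mem hy) hz)
      (inv_mem (inv_mem hy))) (c.so l _ _ b1 b2)) (((hf_ug (c.tf j) hp hpp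
        (isom_of_ug (c.tf j) (c.le hz)) e).conj (c.le (inv_mem hy)) h4
          (inv_mem_JL (c.tp.tens j) hb.ne h4)).mul (hf_ug (c.tf l) a2 a6
            (mul_mem (b1.isom c.os.hm) (b2.isom c.os.hm)) b3) (JL_le (c.tf l) a2))
    exact ⟨g * (r₁ * r₂)⁻¹, by rw [ug_mul', ← hg, ← ug_inv, mul_inv_cancel_right]⟩
  have := congrArg (cj y) (c.tp.cj_kap h3.symm g (xx f p p'))
  rwa [← hg, inv_inv, cj_mul, cj_mul, cj_cj_inv] at this

/-- The stabiliser of `U ⊗ p`. -/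
theorem isWr_of_stab (hi : i ∈ s) (hp0 : p ≠ 0) (hp : f p p = 0) (hy : y ∈ X)
    (e : ∀ v ∈ JL (T i).flip p, y v ∈ JL (T i).flip p) : TP.IsWr T y := by
  obtain ⟨q, _⟩ := CharP.exists F
  have hq : Fact q.Prime := ⟨CharP.char_is_prime F q⟩
  have := c.finite i
  have := (c.tp.tens i).finiteDimensional
  set hT := c.tp.tens i
  obtain ⟨p', hp', hpp⟩ := c.os.hm.exists_partner hp0 hp
  have hpp' := c.os.hm.swap_one hpp
  obtain ⟨r₁, r₂, b1, b2, ⟨_, _, _, _, b3⟩, b4⟩ := c.m4.exists_zp hp hp' hpp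
  have hz := fun j => c.so j _ _ b1 b2
  generalize r₁ * r₂ = z at b3 b4 hz
  have hf := hf_ug (c.tf i) hp hpp b3.isom b4
  have z2 : ug hT z * ug hT z = 1 := by rw [← ug_mul', b3.sq]; exact map_one (ugH _)
  suffices H : ∀ y ∈ X, (∀ v ∈ JL (T i).flip p, y v ∈ JL (T i).flip p) → Commute y (ug hT z) →
      TP.IsWr T y by
    have h0 := (hf.conj (c.le hy) e (inv_mem_JL hT hp0 e)).mul hf (JL_le (c.tf i) hp)
    obtain ⟨b, hb⟩ := c.rad i p hp0 hp _
      (mul_mem (mul_mem (mul_mem hy (hz i)) (inv_mem hy)) (hz i)) h0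
    have h1 : y * ug hT z * y⁻¹ = ug hT b * ug hT z := by rw [← hb, mul_assoc _ _ (ug hT z), z2, mul_one]
    obtain ⟨k, hk⟩ := exists_conj_of_odd (odd_char (F := F) q c.os.two)
      (pow_char_of_Rad q c.os.two (hb ▸ h0)) z2 (h1 ▸ T3.Multi.sq_conj z2 y)
    have h2 : ug hT b ^ k ∈ X := pow_mem (hb ▸ mul_mem (mul_mem (mul_mem hy (hz i)) (inv_mem hy))
      (hz i)) k
    have h3 := inv_mem (pow_mem (hb ▸ h0) k)
    refine (mul_mem_cancel_left (inv_mem (pow_mem (show ug hT b ∈ WrG c.tp from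
      c.tp.isWr_ug i b) k))).1 (H _ (mul_mem (inv_mem h2) hy) (fun v hv => by
        rw [LinearEquiv.mul_apply, (mem_Rad.1 h3).2.1 _ (e v hv)]; exact e v hv) ?_ : _ ∈ WrG c.tp)
    rw [← h1] at hk
    calc _ = (ug hT b ^ k)⁻¹ * (y * ug hT z * y⁻¹) * y := by group
      _ = _ := by rw [← hk]; group
  let B : Subgroup (V ≃ₗ[F] V) :=
    { carrier := {y | y ∈ X ∧ (∀ v ∈ JL (T i).flip p, y v ∈ JL (T i).flip p) ∧ Commute y (ug hT z)}
      one_mem' := ⟨one_mem _, fun _ h => h, .one_left _⟩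
      mul_mem' := fun a b => ⟨mul_mem a.1 b.1, fun v h => a.2.1 _ (b.2.1 v h), a.2.2.mul_left b.2.2⟩
      inv_mem' := fun a => ⟨inv_mem a.1, inv_mem_JL hT hp0 a.2.1, a.2.2.inv_left⟩ }
  have hB : ∀ j, j ≠ i → ∀ b, b ∈ Rad f (span F {p}) ∨ b = z → ug (c.tp.tens j) b ∈ B :=
    fun j hj b hb => by
      obtain ⟨a, ha⟩ := exists_lf hT (inC_ug c.tp hj.symm b)
      exact ⟨hb.elim (c.eich j p hp b) (· ▸ hz j), by
        rintro _ ⟨u, rfl⟩; exact ⟨a u, by simp [ha]⟩, ha ▸ comm_lf hT a z⟩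
  let N : Submodule F (End F V) :=
    { carrier := {d | ∃ m, InC (T i) m ∧ adj β m = -m ∧ d = m * kap hT (xx f p p)}
      zero_mem' := ⟨0, InC.zero, by simp [(c.hm i).adj_zero], by simp⟩
      add_mem' := by
        rintro _ _ ⟨a, a1, a2, rfl⟩ ⟨b, b1, b2, rfl⟩
        exact ⟨a + b, a1.add b1, by rw [(c.hm i).adj_add, a2, b2, neg_add], by rw [add_mul]⟩
      smul_mem' := by
        rintro k _ ⟨a, a1, a2, rfl⟩
        exact ⟨k • a, a1.smul k, by simp [(c.hm i).adj_smul, a2], by simp⟩ }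
  have h0 : ∀ d ∈ N, (∀ j, j ≠ i → ∀ b, b ∈ Rad f (span F {p}) ∨ b = z → cj (ug (c.tp.tens j) b)
      (kap hT (xx f p p') + d) = kap hT (xx f p p') + d) → d = 0 := by
    rintro _ ⟨m, h1, h2, rfl⟩ H
    rw [c.eq_zero_of_comm hp hp' hpp b4 h1 h2 fun j hj b hb => (comm_of_cj (by
      simpa only [map_add, c.tp.cj_kap hj, add_right_inj] using H j hj b hb)).symm, zero_mul]
  have h1 : ∀ y ∈ B, cj y (kap hT (xx f p p')) - kap hT (xx f p p') ∈ N := fun y hy => by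
    have h1 : cj y (kap hT (xx f p p') + kap hT (xx f p' p)) = kap hT (xx f p p') + kap hT (xx f p' p) := by
      have := cj_eq_self (comm_coe.2 hy.2.2).eq
      rw [coe_ug, b4] at this
      simpa [c.os.two, -smul_add] using this
    have h2 : cj y (kap hT (xx f p p')) * kap hT (xx f p p') = kap hT (xx f p p') :=
      hT.ext fun u w => by
        obtain ⟨u', hu⟩ := inv_mem_JL hT hp0 hy.2.1 _ ⟨u, rfl⟩
        simp only [LinearMap.flip_apply] at hu
        simp [← hu, hpp', -LinearEquiv.coe_inv, show y (T i u' p) = T i u p by simp [hu]]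
    have h3 : kap hT (xx f p p') * cj y (kap hT (xx f p p')) = cj y (kap hT (xx f p p')) :=
      LinearMap.ext fun v => by
        obtain ⟨u', hu⟩ := hy.2.1 _ ⟨hT.cR (f p') (y⁻¹ v), rfl⟩
        have : cj y (kap hT (xx f p p')) v = T i u' p := by
          simpa [kap_eq, xx, rk, hT.mp_smulRight'] using hu.symm
        simp [this, hpp', -cj_apply]
    have h4 : cj y (kap hT (xx f p p')) - kap hT (xx f p p') = kap hT (xx f p p') *
        (cj y (kap hT (xx f p p')) - kap hT (xx f p p')) * kap hT (xx f p' p) := by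
      have h4 : cj y (kap hT (xx f p p')) * (kap hT (xx f p p') + kap hT (xx f p' p)) =
          cj y (kap hT (xx f p p')) := by
        rw [← h1, ← map_mul, mul_add, ← map_mul, ← map_mul]; simp [xx_mul, hpp', hp']
      rw [mul_add, h2] at h4
      rw [mul_sub, h3, sub_mul, ← map_mul, ← map_mul, sub_eq_iff_eq_add'.2 h4.symm]
      simp [xx_mul, hp', hpp']
    have h5 := h4.trans (kap_mul_mul hT (f p') (f p) p' p _)
    refine ⟨_, inC_cp _ _ _ _, ?_, h5⟩
    simpa using adj_of_mul (c.tf i) (inC_cp _ _ _ _) (c.os.hm.xx_ne_zero hp0 hp0) (s := 1)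
      (c.os.hm.adj_xx p p) (by simp) (h5 ▸ by
        rw [(c.hm i).adj_sub, (c.hm i).adj_cj _ (c.le hy.1), (c.tf i).adj_kap, c.os.hm.adj_xx,
          one_smul]
        rw [map_add] at h1
        linear_combination (norm := module) h1)
  obtain ⟨b, hb⟩ := c.m4.exists_isP hp0 hp
  obtain ⟨d, h2, h3⟩ := exists_avg (cjH.comp B.subtype) q (isPGroup_closure (q := q)
    (S := {x : B | ∃ j, j ≠ i ∧ x.1 = ug (c.tp.tens j) b}) (by
      rintro ⟨x, _⟩ ⟨j, -, rfl⟩ ⟨y, _⟩ ⟨l, -, rfl⟩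
      by_cases hl : j = l
      · subst hl; rfl
      · exact Subtype.ext (comm_coe.1 (by
          rw [coe_ug]; exact (inC_ug c.tp hl b).comm_kap _ _))) (by
      rintro ⟨x, _⟩ ⟨j, -, rfl⟩
      exact Subtype.ext ((map_pow (ugH _) b q).symm.trans (by rw [hb.pow c.m4, map_one]; rfl))))
    (e := kap hT (xx f p p')) (N := N) (fun y => h1 y y.2) (fun x hx => by
      induction hx using Subgroup.closure_induction with
      | mem x hx => obtain ⟨j, hj, e⟩ := hx; exact (congrArg (cj · _) e).trans (c.tp.cj_kap hj b _)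
      | one => rfl
      | mul x y _ _ a b => rw [map_mul, End.mul_apply, b, a]
      | inv x _ a => rw [← a, ← End.mul_apply, ← map_mul, inv_mul_cancel, map_one, a]; rfl)
    fun y H => sub_eq_zero.1 (h0 _ (h1 y y.2) fun j hj b' hb' => by
      rw [add_sub_cancel]
      exact c.fix_of hi hp hp' hpp b4 (hz j) hb y.2.1
        (H ⟨_, hB j hj b (.inl hb.rad)⟩ (Subgroup.subset_closure ⟨j, hj, rfl⟩)) hb')
  obtain rfl := h0 d h2 fun j hj b hb => h3 ⟨_, hB j hj b hb⟩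
  intro y a1 a2 a3
  exact c.ih i hi y a1 (c.tensG_of_xx a1 hp hp' hpp (by
    have := h3 ⟨y, a1, a2, a3⟩; rw [add_zero] at this; exact this))

end I4

end Cfsg.Lib.Class.WrO
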