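import Cfsg.Agent.Class.WrO.K4e

/-!
Overgroups of the stabiliser of a tensor power of an orthogonal 4-space of minus type: fusion of
root elements and centralisers of half turns.
-/

set_option autoImplicit false
set_option linter.unusedSectionVars false

namespace Cfsg.Lib.Class.WrO

open Module Submodule Tens Tn FE AO Form Wr
open LinearMap (range ker)

variable {F U W V : Type*} [Field F] [AddCommGroup U] [Module F U] [AddCommGroup W] [Module F W]
  [AddCommGroup V] [Module F V] {x y g n k : V ≃ₗ[F] V} {m : End F V}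
  [FiniteDimensional F U] [FiniteDimensional F W] [Nontrivial U] [Nontrivial W]
  {f : W →ₗ[F] W →ₗ[F] F} {β : V →ₗ[F] V →ₗ[F] F} {p p' r a b d e : W} {z z' w : W ≃ₗ[F] W}

theorem IsP.not_fix (h : IsP f p z) (fr : F4 f a b d e) (h1 : z a = a) (h2 : z b = b) : False := by
  obtain ⟨p', a1, a2⟩ := fr.m.hm.exists_partner h.ne h.hp
  obtain ⟨u, b1, -, b2, b3⟩ := h.eq fr.m a1 a2
  have sy := fr.m.symm
  have key : ∀ y, z y = y → f y p = 0 ∧ f y u = 0 := fun y hy => by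
    have h3 := LinearMap.congr_fun b3 y
    have h4 := congrArg (f u) h3
    simp [hy, wd_apply, sy u p, b1, b2] at h4
    simp [hy, wd_apply, h4, h.ne] at h3
    exact ⟨sy y p ▸ h4, sy y u ▸ h3⟩
  have c1 := fr.dec p
  have c2 := fr.dec u
  simp only [key a h1, key b h2, zero_div, zero_smul, zero_add] at c1 c2
  generalize f d p / f d d = x, f e p / f e e = y, f d u / f d d = x', f e u / f e e = y' at c1 c2
  have c3 := h.hp
  have c4 := h.ne
  subst c1 c2
  simp only [map_add, map_smul, LinearMap.add_apply, LinearMap.smul_apply, fr.cd, fr.dc,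
    smul_eq_mul, mul_zero, add_zero, zero_add] at c3 b1 b2
  have c5 : x * y' = y * x' := sub_eq_zero.1 (pow_eq_zero_iff two_ne_zero |>.1
    (mul_left_cancel₀ (mul_ne_zero fr.hc fr.hd) (by
      linear_combination (x' * (x' * f d d) + y' * (y' * f e e)) * c3 -
        (x' * (x * f d d) + y' * (y * f e e)) * b1)))
  rw [show x = 0 from mul_right_cancel₀ b2 (by linear_combination x' * b1 + y' * f e e * c5),
    show y = 0 from mul_right_cancel₀ b2 (by linear_combination y' * b1 - x' * f d d * c5)] at c4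
  simp at c4

theorem ug_ng {T : U →ₗ[F] W →ₗ[F] V} (hT : IsTens T) (z : W ≃ₗ[F] W) :
    ug hT (ng z) = ng (ug hT z) := hT.extE fun u w => by simp

theorem comm_ng (h : Commute x y) : Commute x (ng y) :=
  LinearEquiv.ext fun v => by simpa using congrArg (· v) h.eq

theorem IsE.not_inC (h : IsE f z) {T : U →ₗ[F] W →ₗ[F] V} (hT : IsTens T) :
    ¬ InC T (ug hT z : End F V) := fun H =>
  let ⟨_, _, _, _, h⟩ := h
  let ⟨s, hs⟩ := scalar_of_inC_kap hT (coe_ug hT z ▸ H)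
  h.not_scalar s hs

theorem ug_sq {T : U →ₗ[F] W →ₗ[F] V} (hT : IsTens T) (h : z * z = 1) : ug hT z * ug hT z = 1 := by
  rw [← ug_mul', h]; exact map_one (ugH _)

variable {τ : Type*} [Fintype τ] {T : τ → U →ₗ[F] W →ₗ[F] V} {h : τ → U →ₗ[F] U →ₗ[F] F}
  {i j l : τ} {X : Subgroup (V ≃ₗ[F] V)} {s : Finset τ}

theorem inE_of_fix (t : TP T) (h2 : 2 ≤ finrank F W) (hk : TP.IsWr T k) (ha : a ≠ 0)
    (e : ∀ u, k (T i u a) = T i u a) : InE (T i) (k : End F V) := by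
  obtain ⟨σ, hσ⟩ := hk
  refine inE_of_forall t fun j hj => inC_of_comm (t.tens j) fun m hm => ?_
  have h1 : ∀ m, InE (T j) m → ∀ u, cj k m (T i u a) = m (T i u a) := fun m hm u => by
    obtain ⟨b, hb⟩ := (t.comm i j hj.symm).inC (t.tens i) hm
    rw [cj_apply, show k⁻¹ (T i u a) = T i u a from k.injective (by simp [e]), hb, e]
  by_cases h3 : i = σ j
  · refine (not_comm_kap (t.tens j) h2 fun b b' => ?_).elim
    obtain ⟨s, hs⟩ := ((t.comm i j hj.symm).inC (t.tens i) (inE_kap (t.tens j) b)).scalar_of_apply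
      (t.tens i) ha (h3 ▸ hσ j _ (inE_kap _ b)) (h1 _ (inE_kap _ b))
    simp [hs]
  obtain ⟨b, hb⟩ := ((t.comm i _ h3).inC (t.tens i) (hσ j m hm)).sub
    ((t.comm i j hj.symm).inC (t.tens i) hm)
  have h4 : b = 0 := LinearMap.ext fun u => (t.tens i).injective' ha (by
    rw [← hb, LinearMap.sub_apply, h1 m hm]; simp)
  exact (comm_of_cj (sub_eq_zero.1 ((t.tens i).ext fun u y => by simp [hb, h4, -cj_apply]))).eq.symm

theorem tensG_of_comm (t : TP T) (hg : TP.IsWr T g) (hz : IsE f z)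
    (e : Commute g (ug (t.tens i) z)) : g ∈ tensG (T i) :=
  tensG_of_inE' t hg (coe_ug (t.tens i) z ▸ inE_kap _ _) (by
    rw [cj_eq_self (comm_coe.2 e)]; exact hz.not_inC _)

theorem O4.isE_conj [Finite F] (c : O4 T h f β X) (hg : g ∈ X) (hz : IsE f z)
    (e : g * ug (c.tp.tens i) z * g⁻¹ = ug (c.tp.tens j) z') : IsE f z' := by
  obtain ⟨_, _, _, _, hz⟩ := hz
  refine c.m4.isE_of (isom_of_ug (c.tf j) (e ▸ mul_mem (mul_mem (c.le hg) ((c.tf i).ug_isom hz.isom))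
    (inv_mem (c.le hg)))) (ug_inj (c.tp.tens j) (by
      rw [ug_mul', ← e, T3.Multi.sq_conj (ug_sq _ hz.sq)]; exact (map_one (ugH _)).symm)) ?_
  have h1 := finrank_ker_cj g (kap (c.tp.tens i) (z - 1))
  rw [map_sub, map_one, map_sub, map_one, ← coe_ug, ← coe_conj, e, coe_ug, coe_ug,
    ← map_one (kap (c.tp.tens j)), ← map_sub, finrank_ker_kap, map_one,
    ← map_one (kap (c.tp.tens i)), ← map_sub, finrank_ker_kap, hz.finrank_ker] at h1
  exact Nat.eq_of_mul_eq_mul_left finrank_pos h1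

theorem O4.ug_mem [Finite F] (c : O4 T h f β X) (hz : IsE f z) (i : τ) : ug (c.tp.tens i) z ∈ X := by
  obtain ⟨_, _, _, _, hz⟩ := hz
  obtain ⟨r, hr⟩ := exists_rf c.os.hm hz.ha
  obtain ⟨r', hr'⟩ := exists_rf c.os.hm hz.hb
  exact hz.eq hr hr' ▸ c.so i _ _ ⟨_, hz.ha, hr⟩ ⟨_, hz.hb, hr'⟩

namespace I4

variable [Finite F] (c : I4 T h f β X s)
include c

theorem isWr_of_xx (hi : i ∈ s) (hp0 : p ≠ 0) (hp : f p p = 0) (hy : y ∈ X)
    (e : Commute (y : End F V) (kap (c.tp.tens i) (xx f p p))) : TP.IsWr T y :=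
  let ⟨_, h1⟩ := c.os.hm.exists_eq_one hp0
  c.isWr_of_stab hi hp0 hp hy (map_JL' _ _ h1 ((cj_eq_self e).trans (one_smul F _).symm))

theorem isWr_of_comm (hi : i ∈ s) (hb : IsP f p z) (hy : y ∈ X) (e : Commute y (ug (c.tp.tens i) z)) :
    TP.IsWr T y := by
  obtain ⟨k, h1, h2⟩ := hb.sq c.m4
  have h3 := (comm_coe.2 e).sub_right (.one_right _)
  have h4 := (h3.mul_right h3).smul_right k⁻¹
  rw [coe_ug, ← map_one (kap (c.tp.tens i)), ← map_sub, ← map_mul, h2, map_smul,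
    inv_smul_smul₀ h1] at h4
  exact c.isWr_of_xx hi hb.ne hb.hp hy h4

theorem conj_step (hi : i ∈ s) (hj : j ≠ i) (hb : IsP f p z) (hg : g ∈ X)
    (H : TP.IsWr T (g * ug (c.tp.tens i) z * g⁻¹)) (hb' : IsP f p' z') :
    TP.IsWr T (g * ug (c.tp.tens j) z' * g⁻¹) := by
  obtain ⟨l, r, k, a1, a2, a3, a4⟩ := c.isP_conj hg hb H
  have hl : l ∈ s := by_contra fun hl => hl (eq_of_inE c.tp (m := kap (c.tp.tens i) (xx f p p))
    (by rw [← cj_inv_cj g (kap _ _), a4]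
        exact ((inE_kap _ _).smul k).cj_of_mem (inv_mem (c.out l hl hg))) (fun h1 => by
      obtain ⟨t, ht⟩ := scalar_of_inC_kap _ h1
      obtain rfl : t = 0 := by simpa [hb.hp, hb.ne] using (LinearMap.congr_fun ht p).symm
      exact c.os.hm.xx_ne_zero hb.ne hb.ne (by simpa using ht)) ▸ hi)
  refine c.isWr_of_xx hl a1 a2 (mul_mem (mul_mem hg (c.eich j p' hb'.hp _ hb'.rad)) (inv_mem hg))
    (comm_of_cj ?_)
  rw [← inv_smul_smul₀ a3 (kap _ _), ← a4, map_smul, cj_mul, cj_mul, cj_inv_cj, c.tp.cj_kap hj]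

/-- A root element fixes a unique coset. -/
theorem isWr_of_conj (hi : i ∈ s) (hb : IsP f p z) (hg : g ∈ X)
    (H : TP.IsWr T (g * ug (c.tp.tens i) z * g⁻¹)) : TP.IsWr T g := by
  have h1 : ∀ j r, r ≠ 0 → f r r = 0 →
      ∃ l, InE (T l) (cj g (kap (c.tp.tens j) (xx f r r))) := fun j r h0 hr => by
    obtain ⟨z', hz'⟩ := c.m4.exists_isP h0 hr
    obtain ⟨l, r', k, -, -, -, e⟩ := c.isP_conj hg hz' (i := j) (by
      by_cases hj : j = i
      · obtain ⟨l, hl, hl'⟩ := c.two i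
        exact c.conj_step hl (hj ▸ hl'.symm) hb hg (c.conj_step hi hl' hb hg H hb) hz'
      · exact c.conj_step hi hj hb hg H hz')
    exact ⟨l, e ▸ (inE_kap _ _).smul k⟩
  refine isWr_of c.tp c.two_le fun j => ?_
  set hT := c.tp.tens j
  have h2 : ∀ {r r' l l'}, f r r = 0 → f r r' ≠ 0 → InE (T l) (cj g (kap hT (xx f r r))) →
      InE (T l') (cj g (kap hT (xx f r' r'))) → l = l' := fun {r r' l l'} a1 a2 a3 a4 =>
    by_contra fun h0 => by
      have h3 := a3.comm (c.tp.tens l) ((c.tp.comm l l' h0).inC (c.tp.tens l) a4)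
      rw [← map_mul, ← map_mul, ← map_mul, ← map_mul] at h3
      have h4 := congrArg (f r') (LinearMap.congr_fun (kap_inj hT ((cj g).injective h3)) r)
      simp [a1, a2, c.os.symm r' r] at h4
  obtain ⟨l, hl⟩ := h1 j p hb.ne hb.hp
  refine ⟨l, fun m hm => ?_⟩
  obtain ⟨m, rfl⟩ := hm.exists_kap hT
  obtain ⟨m', hm'⟩ := (c.os.eq_top_of_xx (S := (range (kap (c.tp.tens l)).toLinearMap).comap
    ((cj g).toLinearMap ∘ₗ (kap hT).toLinearMap)) fun r r' a1 a2 a3 => by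
      obtain ⟨l₁, b1⟩ := h1 j r (by rintro rfl; simp at a3) a1
      obtain ⟨l₂, b2⟩ := h1 j r' (by rintro rfl; simp at a3) a2
      obtain rfl := h2 a1 a3 b1 b2
      obtain rfl : l = l₁ := by
        by_cases h3 : f p r = 0
        · obtain ⟨t, rfl⟩ := c.m4.idx p r hb.ne hb.hp a1 h3
          exact h2 hb.hp (fun h4 => a3 (by simp [h4])) hl b2
        · exact h2 hb.hp h3 hl b1
      obtain ⟨m, hm⟩ := ((b1.mul b2).smul (f r r')⁻¹).exists_kap (c.tp.tens l)
      rw [← map_mul, ← map_mul, xx_mul, map_smul, map_smul, inv_smul_smul₀ a3] at hm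
      exact ⟨m, hm.symm⟩).ge (mem_top (x := m))
  exact (show kap _ m' = cj g (kap hT m) from hm') ▸ inE_kap _ m'

theorem isWr_of_conj' (hi : i ∈ s) (hb : IsP f p z) (hg : g ∈ X)
    (H : TP.IsWr T (g⁻¹ * ug (c.tp.tens i) z * g)) : TP.IsWr T g :=
  (inv_mem_iff (H := WrG c.tp)).1 (c.isWr_of_conj hi hb (inv_mem hg) (by rwa [inv_inv]))

/-- The pointwise stabiliser of `U ⊗ ⟨a, b⟩`. -/
theorem exists_ug_of_fix (fr : F4 f a b d e) (hk : k ∈ X)
    (e1 : ∀ u, k (T i u a) = T i u a) (e2 : ∀ u, k (T i u b) = T i u b) :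
    ∃ g, k = ug (c.tp.tens i) g := by
  obtain ⟨q, _⟩ := CharP.exists F
  have hq : Fact q.Prime := ⟨CharP.char_is_prime F q⟩
  have := c.finite i
  have : Finite W := Module.finite_of_finite F
  have : Finite (W ≃ₗ[F] W) := Finite.of_injective _ (DFunLike.coe_injective (F := W ≃ₗ[F] W))
  have ha : a ≠ 0 := fun h0 => by simpa [h0] using fr.ha
  let K : Subgroup (V ≃ₗ[F] V) :=
    { carrier := {k | k ∈ X ∧ (∀ u, k (T i u a) = T i u a) ∧ ∀ u, k (T i u b) = T i u b}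
      one_mem' := ⟨one_mem _, fun _ => rfl, fun _ => rfl⟩
      mul_mem' := fun x y => ⟨mul_mem x.1 y.1, by simp [x.2.1, y.2.1], by simp [x.2.2, y.2.2]⟩
      inv_mem' := fun {x} h => ⟨inv_mem h.1, fun u => x.injective (by simp [h.2.1]),
        fun u => x.injective (by simp [h.2.2])⟩ }
  obtain ⟨j, hj, hj'⟩ := c.two i
  obtain ⟨p, hp0, hp⟩ := c.os.exists_iso
  have h1 : ∀ z ∈ Rad f (span F {p}), ∀ x ∈ K, ug (c.tp.tens j) z * x * (ug (c.tp.tens j) z)⁻¹ ∈ K :=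
    fun z hz x hx => by
      have h1 := c.eich j p hp z hz
      obtain ⟨a, ha⟩ := exists_lf (c.tp.tens i) (inC_ug c.tp hj'.symm z)
      exact ⟨mul_mem (mul_mem h1 hx.1) (inv_mem h1), fun u => by simp [ha, ← map_inv, hx.2.1],
        fun u => by simp [ha, ← map_inv, hx.2.2]⟩
  have h2 : ∀ z ∈ Rad f (span F {p}), ug (c.tp.tens j) z ^ q = 1 := fun z hz =>
    pow_char_of_Rad q c.os.two (ug_mem_Rad (c.tf j) hz)
  have h3 : (Nat.card K).Coprime q := by
    refine ((Nat.Prime.coprime_iff_not_dvd hq.out).2 fun hd => ?_).symm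
    obtain ⟨z, hz⟩ := c.m4.exists_isP hp0 hp
    obtain ⟨x, a1, a2, a3, a4⟩ := exists_comm_pow (u := fun _ : Unit => ug (c.tp.tens j) z)
      (fun _ => h2 z hz.rad) (fun _ _ => rfl) Finset.univ K (fun _ => h1 z hz.rad) hd
    obtain ⟨g, rfl⟩ := exists_ug (c.tp.tens i) (inE_of_fix c.tp c.two_le
      (c.isWr_of_comm hj hz a1.1 (a4 () (by simp))) ha a1.2.1)
    obtain ⟨r, hr⟩ := c.m4.rad_of_pow q (isom_of_ug (c.tf i) (c.le a1.1)) (ug_inj (c.tp.tens i)
      (((map_pow (ugH _) g q).trans a3).trans (map_one (ugH _)).symm))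
      (by rintro rfl; exact a2 (map_one (ugH _)))
    obtain ⟨u, hu⟩ := exists_ne (0 : U)
    exact hr.not_fix fr ((c.tp.tens i).injective hu (by simpa using a1.2.1 u))
      ((c.tp.tens i).injective hu (by simpa using a1.2.2 u))
  set A := (Rad f (span F {p})).map (ugH (c.tp.tens j))
  have : IsMulCommutative A := ⟨⟨by
    rintro ⟨_, x, hx, rfl⟩ ⟨_, y, hy, rfl⟩
    exact Subtype.ext (by simp only [Subgroup.coe_mul, ← map_mul, rad_comm c.os hp0 hp hx hy])⟩⟩
  refine exists_ug _ (inE_of_fix c.tp c.two_le (Solv.Coprime.le_of_forall_centralizer_singleton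
    (A := A) (K := K) (H := WrG c.tp) (fun h4 => c.m4.not_isCyclic hp0 hp
      ((Subgroup.equivMapOfInjective _ _ (ug_inj (c.tp.tens j))).isCyclic.2 h4))
    (Subgroup.le_normalizer_iff.2 (by rintro _ ⟨z, hz, rfl⟩; exact h1 z hz)) ?_ ?_ ⟨hk, e1, e2⟩) ha e1)
  · obtain ⟨n, hn⟩ := (show IsPGroup q A by
      rintro ⟨_, z, hz, rfl⟩
      exact ⟨1, Subtype.ext (by rw [pow_one]; exact h2 z hz)⟩).exists_card_eq
    exact hn ▸ h3.symm.pow_left n
  · rintro _ ⟨z, hz, rfl⟩ h4 x hx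
    exact c.isWr_of_comm hj ⟨hp0, hp, hz, by rintro rfl; exact h4 (map_one _)⟩ hx.1.1
      (Subgroup.mem_centralizer_singleton_iff.1 hx.2)

theorem good (hg : g ∈ X) (hz : IsE f z)
    (e : g * ug (c.tp.tens i) z * g⁻¹ = ug (c.tp.tens i) z') (hw : ug (c.tp.tens i) w ∈ X)
    (H : ∀ y, z y = y → w y = y) : ∃ w', g * ug (c.tp.tens i) w * g⁻¹ = ug (c.tp.tens i) w' := by
  obtain ⟨_, _, _, _, h1⟩ := c.isE_conj hg hz e
  obtain ⟨_, _, _, _, hz⟩ := hz
  have h2 : ∀ u y, z' y = y → (g * ug (c.tp.tens i) w * g⁻¹) (T i u y) = T i u y := fun u y hy => by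
    have h2 : (w : End F W) * (1 + z) = 1 + z := LinearMap.ext fun y => H _ (by
      simp [show z (z y) = y from congrArg (· y) hz.sq, add_comm])
    have h3 := LinearMap.congr_fun (congrArg (cj g ∘ kap (c.tp.tens i)) h2) (T i u y)
    simp only [Function.comp, map_mul, map_add, map_one, ← coe_ug, ← coe_conj, e, End.mul_apply,
      LinearMap.add_apply, End.one_apply, LinearEquiv.coe_coe, ug_apply, hy, ← two_smul F] at h3
    exact smul_right_injective V c.os.two ((map_smul _ _ _).symm.trans h3)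
  exact c.exists_ug_of_fix h1.rot (mul_mem (mul_mem hg hw) (inv_mem hg)) (h2 · _ h1.zc)
    (h2 · _ h1.zd)

theorem cent_big {t : F} (t0 : t ≠ 0) (ht : t ^ 2 ≠ 1) (hi : i ∈ s) (hg : g ∈ X) (hz : IsE f z)
    (e : Commute g (ug (c.tp.tens i) z)) : TP.IsWr T g := by
  obtain ⟨z, p, p', h1, hz, hp, hp', hpp, h2, h3⟩ := hz.hyp
  replace e : Commute g (ug (c.tp.tens i) z) := by
    rcases h1 with rfl | rfl
    exacts [e, ug_ng (c.tp.tens i) _ ▸ comm_ng e]
  have hf := c.os.hm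
  have sy := c.os.symm p' p
  have a1 : f (p - p') (p - p') = -2 := by simp [hp, hp', hpp, sy]; ring
  have a2 : f (t • p - p') (t • p - p') = -2 * t := by simp [hp, hp', hpp, sy]; ring
  have h0 := c.os.two
  obtain ⟨r, hr⟩ := exists_rf hf (a1.trans_ne (by simpa))
  obtain ⟨r', hr'⟩ := exists_rf hf (a2.trans_ne (by simp [h0, t0]))
  have h4 : (r' * r) p = t • p := by
    have : r p = p' := by rw [hr, a1]; simp [hp, hpp, sy]; match_scalars <;> field_simp; ring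
    rw [LinearEquiv.mul_apply, this, hr', a2]; simp [hp', hpp]; match_scalars <;> field_simp; ring
  have hw := c.so i _ _ ⟨_, a2.trans_ne (by simp [h0, t0]), hr'⟩ ⟨_, a1.trans_ne (by simpa), hr⟩
  obtain ⟨w, h5⟩ := c.good hg hz (by rw [e.eq, mul_inv_cancel_right]) hw fun y hy => by
    obtain ⟨_, _, _, _, hz⟩ := hz
    have k : ∀ v, z v = -v → f v y = 0 := fun v hv => mul_left_cancel₀ h0 (by
      have := iso hz.isom v y
      rw [hv, hy, map_neg, LinearMap.neg_apply] at this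
      linear_combination -this)
    simp [hr y, hr' y, k p h2, k p' h3]
  have h6 := isom_of_ug (c.tf i) (h5 ▸ c.le (mul_mem (mul_mem hg hw) (inv_mem hg)))
  have h7 : ∀ u, g (T i u p) ∈ map₂ (T i) ⊤ (ker ((w : End F W) - t • 1)) := fun u => by
    rw [← (c.tp.tens i).ker_mp_one, ← kap_eq, map_sub, ← coe_ug, ← h5]
    simp [h4]
  have h8 : ∀ u ∈ ker ((w : End F W) - t • 1), ∀ v ∈ ker ((w : End F W) - t • 1), f u v = 0 :=
    fun u hu v hv => mul_left_cancel₀ (sub_ne_zero.2 ht) (by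
      have := iso h6 u v
      rw [show w u = t • u from sub_eq_zero.1 hu, show w v = t • v from sub_eq_zero.1 hv] at this
      simp only [map_smul, LinearMap.smul_apply, smul_eq_mul] at this
      linear_combination this)
  have hp0 : p ≠ 0 := by rintro rfl; simp at hpp
  obtain ⟨v, hv, hv0⟩ := exists_mem_ne_zero_of_ne_bot (p := ker ((w : End F W) - t • 1)) fun h9 => by
    obtain ⟨u, hu⟩ := exists_ne (0 : U)
    simpa [h9, (c.tp.tens i).eq_zero_iff, hu, hp0] using h7 u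
  obtain ⟨b, hb⟩ := c.m4.exists_isP hp0 hp
  obtain ⟨b', h9⟩ := c.conj_rad hg hp0 hp hv0 (h8 v hv v hv) (i := i) (j := i) (by
    rintro _ ⟨u, rfl⟩
    obtain ⟨u', -, e⟩ := (c.tp.tens i).mem_map₂_span_right.1 (map₂_le_map₂_right (fun y hy => by
      obtain ⟨s, hs⟩ := c.m4.idx v y hv0 (h8 v hv v hv) (h8 y hy y hy) (h8 v hv y hy)
      exact mem_span_singleton.2 ⟨s, hs.symm⟩) (h7 u))
    exact ⟨u', e⟩) hb.rad
  exact c.isWr_of_conj hi hb hg (h9 ▸ c.tp.isWr_ug i b')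

theorem cent_three (h3 : (3 : F) = 0) (hR : ∀ r, IsR f r → ug (c.tp.tens i) r ∈ X) (hi : i ∈ s)
    (hg : g ∈ X) (fr : F4 f a b d e) (e1 : f b b = f a a) (e2 : f d d = f a a)
    (H : ∀ v r, v = a ∨ v = b ∨ v = d → IsRf f v r →
      ∃ r', g * ug (c.tp.tens i) r * g⁻¹ = ug (c.tp.tens i) r') : TP.IsWr T g := by
  have hf := c.os.hm
  have key : ∀ {a b d e r₁ r₂ r₁' r₂'}, F4 f a b d e → f b b = f a a → IsRf f a r₁ → IsRf f b r₂ →
      g * ug (c.tp.tens i) r₁ * g⁻¹ = ug (c.tp.tens i) r₁' →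
      g * ug (c.tp.tens i) r₂ * g⁻¹ = ug (c.tp.tens i) r₂' → f (a - b) (a - b) ≠ 0 ∧
      ∃ r, IsRf f (a - b) r ∧ TP.IsWr T (g * ug (c.tp.tens i) r * g⁻¹) :=
    fun {a b d e r₁ r₂ r₁' r₂'} fr e1 a1 a2 a3 a4 => by
      have h1 : f (a - b) (a - b) ≠ 0 := by
        simpa [fr.ab, fr.ba, e1, ← two_mul, c.os.two] using fr.ha
      obtain ⟨r, hr⟩ := exists_rf hf h1
      have ef := fr.ef a1 a2
      obtain ⟨w, hw⟩ := c.good hg ⟨_, _, _, _, ef⟩ (z' := r₁' * r₂') (by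
        rw [ug_mul', ug_mul', ← a3, ← a4]; group) (hR r ⟨_, h1, hr⟩) fun y hy => by
          rw [ef.of_fix hy]
          simp [hr _, fr.ac, fr.ad, fr.bc, fr.bd]
      exact ⟨h1, r, hr, hw ▸ c.tp.isWr_ug i w⟩
  obtain ⟨r₁, a1⟩ := exists_rf hf fr.ha
  obtain ⟨r₂, a2⟩ := exists_rf hf fr.hb
  obtain ⟨r₃, a3⟩ := exists_rf hf fr.hc
  obtain ⟨_, b1⟩ := H _ _ (.inl rfl) a1
  obtain ⟨_, b2⟩ := H _ _ (.inr (.inl rfl)) a2
  obtain ⟨_, b3⟩ := H _ _ (.inr (.inr rfl)) a3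
  obtain ⟨-, r, c1, c2⟩ := key fr e1 a1 a2 b1 b2
  obtain ⟨c3, r', c4, c5⟩ := key fr.s12.s23 (e2.trans e1.symm) a2 a3 b2 b3
  refine c.isWr_of_conj hi (isP_rf c.m4 (p := a - b - (b - d)) (fun h0 => fr.ha (by
    simpa [fr.ab, fr.ac] using congrArg (f a) h0)) ?_ c3 ?_ c4 (by simpa using c1)) hg ?_
  · simp [fr.ab, fr.ac, fr.bc, fr.ba, fr.ca, fr.cb, e1, e2]
    linear_combination 2 * f a a * h3
  · simp [fr.ab, fr.ac, fr.bc, fr.cb, e1, e2]
    linear_combination -f a a * h3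
  · convert isWr_mul c5 c2 using 1
    rw [ug_mul']; group

theorem cent_refl (h3 : ∀ t : F, t ≠ 0 → t ^ 2 = 1) (hR : ∀ r, IsR f r → ug (c.tp.tens i) r ∈ X)
    (hi : i ∈ s) (hg : g ∈ X) (hz : IsE f z) (e : Commute g (ug (c.tp.tens i) z)) :
    TP.IsWr T g := by
  have h0 : (3 : F) = 0 := by linear_combination h3 2 c.os.two
  have key : ∀ {z a b d e}, EF f z a b d e → Commute g (ug (c.tp.tens i) z) → ∀ v r, v = a ∨ v = b →
      IsRf f v r → ∃ r', g * ug (c.tp.tens i) r * g⁻¹ = ug (c.tp.tens i) r' :=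
    fun ef e v r hv hr => c.good hg ⟨_, _, _, _, ef⟩ (by rw [e.eq, mul_inv_cancel_right])
      (hR r ⟨v, by rcases hv with rfl | rfl; exacts [ef.ha, ef.hb], hr⟩) fun y hy => by
        rw [ef.of_fix hy]
        rcases hv with rfl | rfl <;> simp [hr _, ef.ac, ef.ad, ef.bc, ef.bd]
  obtain ⟨a, b, d, e', ef⟩ := hz
  have k1 := key ef e
  have k2 := key ef.neg (ug_ng (c.tp.tens i) _ ▸ comm_ng e)
  have h1 := ef.disc
  have sq : ∀ {x y : F}, x ≠ 0 → y ≠ 0 → y = x ∨ y = -x := fun hx hy =>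
    sq_eq_sq_iff_eq_or_eq_neg.1 ((h3 _ hy).trans (h3 _ hx).symm)
  rcases sq ef.ha ef.hb with a1 | a1 <;> rcases sq ef.hc ef.hd with a2 | a2
  · exact (h1 ⟨f a a * f d d, by rw [a1, a2]; ring⟩).elim
  · rcases sq ef.ha ef.hc with a3 | a3
    · exact c.cent_three h0 hR hi hg ef.toF4 a1 a3 fun v r hv => by
        rcases hv with hv | hv | hv; exacts [k1 v r (.inl hv), k1 v r (.inr hv), k2 v r (.inl hv)]
    · exact c.cent_three h0 hR hi hg ef.s34 a1 (by rw [a2, a3, neg_neg]) fun v r hv => by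
        rcases hv with hv | hv | hv; exacts [k1 v r (.inl hv), k1 v r (.inr hv), k2 v r (.inr hv)]
  · rcases sq ef.hc ef.ha with a3 | a3
    · exact c.cent_three h0 hR hi hg ef.rot a2 a3 fun v r hv => by
        rcases hv with hv | hv | hv; exacts [k2 v r (.inl hv), k2 v r (.inr hv), k1 v r (.inl hv)]
    · exact c.cent_three h0 hR hi hg ef.rot.s34 a2 (by rw [a1, a3, neg_neg]) fun v r hv => by
        rcases hv with hv | hv | hv; exacts [k2 v r (.inl hv), k2 v r (.inr hv), k1 v r (.inr hv)]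
  · exact (h1 ⟨f a a * f d d, by rw [a1, a2]; ring⟩).elim

end I4

end Cfsg.Lib.Class.WrO
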