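import Cfsg.Agent.Class.WrO.K4f

/-!
Overgroups of the stabiliser of the tensor square of the orthogonal 4-space of minus type over the
field with three elements: the centraliser of a half turn.
-/

set_option autoImplicit false
set_option linter.unusedSectionVars false

namespace Cfsg.Lib.Class.WrO

open Module Submodule Tens Tn FE AO Form Wr
open LinearMap (range ker)

variable {F U W V : Type*} [Field F] [AddCommGroup U] [Module F U] [AddCommGroup W] [Module F W]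
  [AddCommGroup V] [Module F V] {x y g n k : V ≃ₗ[F] V} {m : End F V}
  [FiniteDimensional F U] [FiniteDimensional F W] [Nontrivial U] [Nontrivial W]
  {f : W →ₗ[F] W →ₗ[F] F} {β : V →ₗ[F] V →ₗ[F] F} {p p' v a b d e : W} {z z' w r r' : W ≃ₗ[F] W}
  {τ : Type*} [Fintype τ] {T : τ → U →ₗ[F] W →ₗ[F] V} {h : τ → U →ₗ[F] U →ₗ[F] F}
  {i j l : τ} {X : Subgroup (V ≃ₗ[F] V)} {s : Finset τ} {B : W →ₗ[F] W →ₗ[F] V} {κ : F}

theorem comm_conj_of_inv {G : Type*} [Group G] {x w t : G} (e : Commute x w) (h : w * t * w = t) :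
    Commute (t * x * t⁻¹) w := by
  have h1 : w = t * w⁻¹ * t⁻¹ := by rw [mul_inv_eq_iff_eq_mul.2 h.symm, mul_inv_cancel_right]
  rw [h1]
  exact (e.inv_right).conj t

theorem comm_ug (t : TP T) (hij : i ≠ j) (r r' : W ≃ₗ[F] W) :
    Commute (ug (t.tens j) r) (ug (t.tens i) r') := by
  obtain ⟨a, ha⟩ := exists_lf (t.tens i) (inC_ug t hij r)
  exact ha ▸ comm_lf _ a r'

/-- If the common perp of two vectors is anisotropic, they span a hyperbolic plane. -/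
theorem M4.exists_hyp [Finite F] (m4 : M4 f) {x₁ x₂ : W} (h0 : f x₁ x₁ + f x₂ x₂ ≠ 0)
    (H : ∀ p, f p p = 0 → f x₁ p = 0 → f x₂ p = 0 → p = 0) : ∃ u p p', ∃ a₁ a₂ b₁ b₂ : F, u ≠ 0 ∧
      f x₁ u = 0 ∧ f x₂ u = 0 ∧ f p p = 0 ∧ f p' p' = 0 ∧ f p p' = 1 ∧ x₁ = a₁ • p + b₁ • p' ∧
        x₂ = a₂ • p + b₂ • p' ∧ a₁ * b₂ - a₂ * b₁ ≠ 0 := by
  have sy := m4.symm
  obtain ⟨u, a1, a2⟩ := Hm.exists_orth_notMem (B := f) [x₁, x₂] ⊥ (by simp [m4.dim])
  obtain ⟨u', a3, a4⟩ := Hm.exists_orth_notMem (B := f) [x₁, x₂, u] ⊥ (by simp [m4.dim])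
  simp only [List.mem_cons, List.not_mem_nil, or_false, forall_eq_or_imp, forall_eq, mem_bot] at a1 a2 a3 a4
  have b1 : f u u ≠ 0 := fun h => a2 (H u h a1.1 a1.2)
  have b2 : f u' u' ≠ 0 := fun h => a4 (H u' h a3.1 a3.2.1)
  obtain ⟨⟨a1, a5⟩, a3, a6, a7⟩ := And.intro a1 a3
  have a8 := (sy u' u).trans a7
  have key : ∀ y, f x₁ y = 0 → f x₂ y = 0 → f u y = 0 → f u' y = 0 → y = 0 := fun y c1 c2 c3 c4 => by
    obtain ⟨s, t, hs⟩ := uni m4.two b1 b2 (-f y y)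
    have h1 := H (s • u + t • u' + y) (by
      simp [a7, a8, c3, c4, sy y u, sy y u']; linear_combination hs) (by simp [a1, a3, c1])
      (by simp [a5, a6, c2])
    have h2 := congrArg (f u) h1
    have h3 := congrArg (f u') h1
    simp [a7, a8, c3, c4, b1, b2] at h2 h3
    simpa [h2, h3] using h1
  obtain ⟨c, d, fr⟩ := m4.ext2 b1 b2 a7
  obtain ⟨z, ef⟩ := fr.exists_ef
  obtain ⟨z', p, p', rfl | rfl, -, c1, c2, c3, c4, c5⟩ := IsE.hyp ⟨_, _, _, _, ef⟩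
  · obtain rfl := H p c1 (by rw [ef.of_neg c4]; simp [a1, a3]) (by rw [ef.of_neg c4]; simp [a5, a6])
    simp at c3
  have c6 : ∀ y, ng z y = -y → f u y = 0 ∧ f u' y = 0 := fun y hy => by
    rw [ef.neg.of_neg hy]; simp [fr.ac, fr.ad, fr.bc, fr.bd]
  obtain ⟨d1, d2⟩ := c6 p c4
  obtain ⟨d3, d4⟩ := c6 p' c5
  have c7 := (sy p' p).trans c3
  have fr' : F4 f u u' (p + p') (p - p') := ⟨m4, b1, b2,
    by simpa [c1, c2, c3, c7, one_add_one_eq_two] using m4.two,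
    by simpa [c1, c2, c3, c7, ← neg_add', one_add_one_eq_two] using m4.two, a7, by simp [d1, d3],
    by simp [d1, d3], by simp [d2, d4], by simp [d2, d4], by simp [c1, c2, c3, c7]⟩
  have c8 : ∀ y, f y u = 0 → f y u' = 0 → y = f p' y • p + f p y • p' := fun y e1 e2 => by
    have := fr'.dec (y - (f p' y • p + f p y • p'))
    simpa [sy u y, sy u' y, sub_eq_zero, e1, e2, d1, d2, d3, d4, c1, c2, c3, c7] using this
  refine ⟨u, p, p', _, _, _, _, a2, a1, a5, c1, c2, c3, c8 _ a1 a3, c8 _ a5 a6, fun h => h0 ?_⟩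
  have c9 : ∀ y, f x₁ (f p' y • p - f p y • p') = 0 → f x₂ (f p' y • p - f p y • p') = 0 →
      f y u = 0 → f y u' = 0 → y = 0 := fun y e1 e2 e3 e4 => by
    have h1 := key _ e1 e2 (by simp [d1, d3]) (by simp [d2, d4])
    have h2 := congrArg (f p) h1
    have h3 := congrArg (f p') h1
    simp [c1, c2, c3, c7] at h2 h3
    rw [c8 y e3 e4, h2, h3]; simp
  rw [c9 x₁ (by simp [sy x₁]; ring) (by simp [sy x₂]; linear_combination h) a1 a3,
    c9 x₂ (by simp [sy x₁]; linear_combination -h) (by simp [sy x₂]; ring) a5 a6]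
  simp

/-- Coordinates for the tensor square, and a quarter turn. -/
structure D4 (T : τ → U →ₗ[F] W →ₗ[F] V) (h : τ → U →ₗ[F] U →ₗ[F] F) (f : W →ₗ[F] W →ₗ[F] F)
    (β : V →ₗ[F] V →ₗ[F] F) (X : Subgroup (V ≃ₗ[F] V)) (s : Finset τ) (i j : τ)
    (B : W →ₗ[F] W →ₗ[F] V) (κ : F) (w : W ≃ₗ[F] W) (a b d e : W) : Prop
    extends I4 T h f β X s where
  hj : j ∈ s
  ij : i ≠ j
  q3 : ∀ t : F, t ≠ 0 → t ^ 2 = 1
  k0 : κ ≠ 0
  form : ∀ y v y' v', β (B y v) (B y' v') = κ * f y y' * f v v'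
  left : ∀ g y v, ug (tp.tens j) g (B y v) = B (g y) v
  sur : ∀ u, ∃ y, T i u = B y
  sur' : ∀ y, ∃ u, B y = T i u
  fr : F4 f a b d e
  nb : f b b = f a a
  wa : w a = b
  wb : w b = -a
  wd : w d = d
  we : w e = e
  wX : ug (tp.tens i) w ∈ X

namespace D4

variable [Finite F] (c : D4 T h f β X s i j B κ w a b d e)
include c

theorem right (g : W ≃ₗ[F] W) (y v : W) : ug (c.tp.tens i) g (B y v) = B y (g v) := by
  obtain ⟨u, hu⟩ := c.sur' y
  simp [hu]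

theorem vb (e : Commute g (ug (c.tp.tens i) w)) (y : W) :
    g (B y b) = ug (c.tp.tens i) w (g (B y a)) := by
  simpa [c.right, c.wa] using congrArg (· (B y a)) e.eq

theorem vm (e : Commute g (ug (c.tp.tens i) w)) (y : W) :
    ∃ y₁ y₂, g (B y a) = B y₁ a + B y₂ b ∧ g (B y b) = B y₁ b - B y₂ a := by
  have h1 : ∀ v, ∃ y₁ y₂, v - ug (c.tp.tens i) w (ug (c.tp.tens i) w v) = B y₁ a + B y₂ b := by
    refine (c.tp.tens i).ind ⟨0, 0, by simp⟩ ?_ fun u y => ?_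
    · rintro u v ⟨_, _, e1⟩ ⟨_, _, e2⟩
      exact ⟨_, _, by rw [map_add, map_add, add_sub_add_comm, e1, e2, add_add_add_comm,
        ← LinearMap.add_apply, ← LinearMap.add_apply, ← map_add, ← map_add]⟩
    obtain ⟨x, hx⟩ := c.sur u
    refine ⟨(2 * (f a y / f a a)) • x, (2 * (f b y / f b b)) • x, ?_⟩
    rw [hx]
    conv_lhs => rw [c.fr.dec y]
    simp [c.right, c.wa, c.wb, c.wd, c.we]
    module
  obtain ⟨y₁, y₂, h2⟩ := h1 (g (B y a))
  have h3 : g (B y a) = B ((2 : F)⁻¹ • y₁) a + B ((2 : F)⁻¹ • y₂) b := by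
    have h3 := congrArg (· (B y b)) e.eq
    simp only [LinearEquiv.mul_apply, c.right, c.wb, map_neg] at h3
    rw [← c.vb e, ← h3, sub_neg_eq_add, ← two_smul F] at h2
    simp [← smul_add, ← h2, c.os.two]
  exact ⟨_, _, h3, by rw [c.vb e, h3]; simp [c.right, c.wa, c.wb, sub_eq_add_neg]⟩

theorem g0 (hx : x ∈ X) (e : Commute x (ug (c.tp.tens i) w)) (hp0 : p ≠ 0) (hp : f p p = 0)
    (h1 : x (B p a) = B p a)
    (h2 : ∀ y, f p y = 0 → ∃ s t : F, x (B y a) = B y a + s • B p a + t • B p b) : TP.IsWr T x := by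
  obtain ⟨p', a1, a2⟩ := c.os.hm.exists_partner hp0 hp
  obtain ⟨x₁, x₂, a3, a4⟩ := c.vm e p'
  have a5 : x (B p b) = B p b := by rw [c.vb e, h1, c.right, c.wa]
  have sy := c.os.symm
  have k0 := c.k0
  have n0 := c.fr.ha
  have a6 := iso (c.le hx) (B p a) (B p' a)
  have a7 := iso (c.le hx) (B p b) (B p' a)
  simp [h1, a3, a5, c.form, c.fr.ab, c.fr.ba, c.nb, a2, k0, n0] at a6 a7
  obtain ⟨u, b1, b2⟩ := Hm.exists_orth_notMem (B := f) [p, x₂] (span F {p})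
    (by simp [finrank_span_singleton hp0, c.m4.dim])
  simp only [List.mem_cons, List.not_mem_nil, or_false, forall_eq_or_imp, forall_eq] at b1
  have hE := isP_eich c.m4 hp0 hp b1.1 fun h0 =>
    let ⟨s, hs⟩ := c.m4.idx p u hp0 hp h0 b1.1
    b2 (mem_span_singleton.2 ⟨s, hs.symm⟩)
  have b3 := c.m4.hm.eich_apply hp b1.1 (f u u / 2)
  generalize c.m4.hm.eich hp b1.1 (f u u / 2) = E at hE b3
  have b4 : ∀ y, x (B (E y) a) = ug (c.tp.tens j) E (x (B y a)) := fun y => by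
    have b4 : ∀ y, f p y = 0 → x (B (E y) a) = ug (c.tp.tens j) E (x (B y a)) := fun y hy => by
      obtain ⟨s, t, h3⟩ := h2 y hy
      simp [b3, hy, h1, h3, c.left, hp, sy u p, b1.1]
      module
    have b5 : x (B (E p') a) = ug (c.tp.tens j) E (x (B p' a)) := by
      obtain ⟨s, t, h3⟩ := h2 u b1.1
      have b5 := iso (c.le hx) (B u a) (B p' a)
      have b6 := iso (c.le hx) (B u a) (B p' b)
      simp [h3, a3, a4, c.form, c.fr.ab, c.fr.ba, c.nb, a6, a7, k0, n0, sy u x₂, b1.2] at b5 b6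
      obtain rfl : s = f u p' - f u x₁ := mul_left_cancel₀ (mul_ne_zero k0 n0) (by linear_combination b5)
      simp [b3, a2, h1, h3, a3, c.left, a6, a7, b6, sy u x₂, b1.2]
      module
    have b6 := b4 (y - f p y • p') (by simp [a2])
    simp only [map_sub, map_smul, LinearMap.sub_apply, LinearMap.smul_apply, b5, sub_left_inj] at b6
    exact b6
  have b5 := c.eich j p hp E hE.rad
  have b6 : Commute ((ug (c.tp.tens j) E)⁻¹ * (x⁻¹ * ug (c.tp.tens j) E * x)) (ug (c.tp.tens i) w) :=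
    (comm_ug c.tp c.ij E w).inv_left.mul_left ((e.inv_left.mul_left (comm_ug c.tp c.ij E w)).mul_left e)
  have b7 : ∀ y, ((ug (c.tp.tens j) E)⁻¹ * (x⁻¹ * ug (c.tp.tens j) E * x)) (B y a) = B y a := fun y => by
    simp [← b4, ← c.left]
  obtain ⟨g, hg⟩ := c.exists_ug_of_fix (i := i) c.fr (mul_mem (inv_mem b5) (mul_mem (mul_mem (inv_mem hx) b5) hx))
    (fun u => (c.sur u).elim fun y hy => hy ▸ b7 y) fun u => (c.sur u).elim fun y hy => by
      rw [hy, c.vb b6, b7, c.right, c.wa]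
  exact c.isWr_of_conj' c.hj hE hx
    (inv_mul_eq_iff_eq_mul.1 hg ▸ isWr_mul (c.tp.isWr_ug j E) (c.tp.isWr_ug i g))

theorem ne_zero (hp : p ≠ 0) : B p a ≠ 0 := fun h0 =>
  let ⟨y, hy⟩ := c.os.hm.exists_ne hp
  by simpa [h0, c.k0, hy, c.fr.ha] using c.form p a y a

theorem g1 (hg : g ∈ X) (e : Commute g (ug (c.tp.tens i) w)) (hp0 : p ≠ 0) (hp : f p p = 0)
    (hp0' : p' ≠ 0) (hp' : f p' p' = 0) {μ t : F} (h1 : g (B p a) = μ • B p' a + t • B p' b) :
    TP.IsWr T g := by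
  rename' μ => s
  have h2 : g (B p b) = s • B p' b - t • B p' a := by
    rw [c.vb e, h1]; simp [c.right, c.wa, c.wb, sub_eq_add_neg]
  have h3 : s ^ 2 + t ^ 2 ≠ 0 := fun h0 => by
    by_cases hs : s = 0 <;> by_cases ht : t = 0
    · exact c.ne_zero hp0 (by simpa [hs, ht] using h1)
    · exact ht (by simpa [hs] using h0)
    · exact hs (by simpa [ht] using h0)
    · exact c.os.two (by linear_combination h0 - c.q3 s hs - c.q3 t ht)
  obtain ⟨E, hE⟩ := c.m4.exists_isP hp0 hp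
  obtain ⟨-, a1, a2⟩ := mem_Rad_span.1 hE.rad
  refine c.isWr_of_conj c.hj hE hg (c.g0 (mul_mem (mul_mem hg (c.eich j p hp E hE.rad)) (inv_mem hg))
    ((e.mul_left (comm_ug c.tp c.ij E w)).mul_left e.inv_left) hp0' hp' ?_ fun y hy => ?_)
  · have h4 : B p' a = g ((s / (s ^ 2 + t ^ 2)) • B p a - (t / (s ^ 2 + t ^ 2)) • B p b) := by
      simp only [map_sub, map_smul, h1, h2]; match_scalars <;> field_simp <;> ring
    rw [h4]
    simp [c.left, a1]
  obtain ⟨y₁, y₂, b1, -⟩ := c.vm e.inv_left y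
  have b2 := iso (c.le (inv_mem hg)) (g (B p a)) (B y a)
  have b3 := iso (c.le (inv_mem hg)) (g (B p b)) (B y a)
  rw [b1, LinearEquiv.coe_inv, g.symm_apply_apply] at b2 b3
  simp [h1, h2, c.form, hy, c.fr.ab, c.fr.ba, c.k0, c.fr.ha, c.fr.hb] at b2 b3
  obtain ⟨s₁, c1⟩ := a2 _ b2
  obtain ⟨s₂, c2⟩ := a2 _ b3
  refine ⟨s₁ * s - s₂ * t, s₁ * t + s₂ * s, ?_⟩
  have b4 : g (B y₁ a) + g (B y₂ b) = B y a := by rw [← map_add, ← b1]; simp
  rw [LinearEquiv.mul_apply, LinearEquiv.mul_apply, b1, ← b4]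
  simp only [map_add, c.left, c1, c2, LinearMap.add_apply, map_smul, LinearMap.smul_apply, h1, h2]
  module

theorem isom : w ∈ isomGroup f := isom_of_ug (c.tf i) (c.le c.wX)

theorem rho_mem (hv : f v v ≠ 0) (hr : IsRf f v r) (hr' : IsR f r') :
    ug (c.tp.tens j) r * ug (c.tp.tens i) r' ∈ X := by
  have := mul_mem (c.pair j i c.ij.symm r (hr.isom c.os.hm hv)) (c.so i _ _ ⟨v, hv, hr⟩ hr')
  rwa [ug_mul', ← ug_inv, mul_assoc, inv_mul_cancel_left] at this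

theorem turn (hr : IsRf f b r) (hr' : IsRf f d r') :
    (r * r') a = a ∧ (r * r') b = -b ∧ w * (r * r') * w = r * r' := by
  obtain ⟨_, h1, h2, h3, h4⟩ := c.fr.s12.s23.ef hr hr'
  refine ⟨h3, h1, c.fr.extE ?_ ?_ ?_ ?_⟩ <;>
    simp only [LinearEquiv.mul_apply (_ * (r * r')), LinearEquiv.mul_apply w, h1, h2, h3, h4, c.wa,
      c.wb, c.wd, c.we, map_neg, neg_neg]

theorem c1 (hg : g ∈ X) (e : Commute g (ug (c.tp.tens i) w)) (hv : f v v ≠ 0) (hr : IsRf f v r)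
    (hr' : IsRf f d r') : TP.IsWr T (g * (ug (c.tp.tens j) r * ug (c.tp.tens i) r') * g⁻¹) := by
  have h1 := mul_mem (mul_mem hg (c.rho_mem hv hr ⟨d, c.fr.hc, hr'⟩)) (inv_mem hg)
  have h2 : Commute (g * (ug (c.tp.tens j) r * ug (c.tp.tens i) r') * g⁻¹) (ug (c.tp.tens i) w) :=
    (e.mul_left ((comm_ug c.tp c.ij r w).mul_left
      ((hr'.comm c.isom (.inl c.wd)).map (ugH _)))).mul_left e.inv_left
  obtain ⟨x₁, x₂, a1, a2⟩ := c.vm e v
  have k0 := c.k0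
  have n0 := c.fr.ha
  have a3 : f x₁ x₁ + f x₂ x₂ = f v v := mul_left_cancel₀ (mul_ne_zero k0 n0) (by
    have := iso (c.le hg) (B v a) (B v a)
    simp [a1, c.form, c.fr.ab, c.fr.ba, c.nb] at this
    linear_combination this)
  have h3 : ∀ y, (g * (ug (c.tp.tens j) r * ug (c.tp.tens i) r') * g⁻¹) (B y a) = B y a -
      (2 / f v v * f x₁ y) • (B x₁ a + B x₂ b) + (2 / f v v * f x₂ y) • (B x₁ b - B x₂ a) := fun y => by
    obtain ⟨y₁, y₂, b1, -⟩ := c.vm e.inv_left y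
    have b2 := iso (c.le (inv_mem hg)) (g (B v a)) (B y a)
    have b3 := iso (c.le (inv_mem hg)) (g (B v b)) (B y a)
    rw [b1, LinearEquiv.coe_inv, g.symm_apply_apply] at b2 b3
    simp [a1, a2, c.form, c.fr.ab, c.fr.ba, c.nb, k0, n0] at b2 b3
    have b4 : g (B y₁ a) + g (B y₂ b) = B y a := by rw [← map_add, ← b1]; simp
    have b5 : f v y₂ = -f x₂ y := mul_left_cancel₀ (mul_ne_zero k0 n0) (by linear_combination b3)
    rw [LinearEquiv.mul_apply, LinearEquiv.mul_apply, b1, ← b4]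
    simp only [LinearEquiv.mul_apply, map_add, c.left, c.right, hr _, hr' _, c.fr.ca, c.fr.cb,
      mul_zero, zero_smul, sub_zero, map_sub, map_smul, LinearMap.sub_apply, LinearMap.smul_apply,
      a1, a2, b2, b5]
    module
  generalize g * (ug (c.tp.tens j) r * ug (c.tp.tens i) r') * g⁻¹ = σ at h1 h2 h3
  by_contra H
  obtain ⟨u, p, p', a₁, a₂, b₁, b₂, d1, d2, d3, d4, d5, d6, rfl, rfl, d7⟩ := c.m4.exists_hyp
    (a3.trans_ne hv) fun p e1 e2 e3 => by_contra fun h0 =>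
      H (c.g1 h1 h2 h0 e1 h0 e1 (μ := 1) (t := 0) (by simp [h3, e2, e3]))
  have h4 := fun y => c.vb h2 y
  obtain ⟨r₁, hr₁⟩ := exists_rf c.os.hm c.fr.hb
  obtain ⟨t1, t2, t3⟩ := c.turn hr₁ hr'
  have t4 := c.so i _ _ ⟨b, c.fr.hb, hr₁⟩ ⟨d, c.fr.hc, hr'⟩
  generalize r₁ * r' = t at t1 t2 t3 t4
  have t5 : ∀ y, (ug (c.tp.tens i) t)⁻¹ (B y a) = B y a := fun y =>
    (ug (c.tp.tens i) t).injective (by simp [c.right, t1])
  have h5 := mul_mem h1 (mul_mem (mul_mem t4 h1) (inv_mem t4))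
  have h6 := h2.mul_left (comm_conj_of_inv h2 (t := ug (c.tp.tens i) t) (by rw [← ug_mul', ← ug_mul', t3]))
  have d8 := c.os.symm p' p
  have hp0 : p ≠ 0 := by rintro rfl; simp at d6
  have d9 : f v v = 2 * (a₁ * b₁ + a₂ * b₂) := by rw [← a3]; simp [d4, d5, d6, d8]; ring
  have d10 : a₁ * b₁ + a₂ * b₂ ≠ 0 := fun h0 => hv (by simp [d9, h0])
  have q1 := c.q3 _ d10
  have q2 := c.q3 _ d7
  have q3 : (3 : F) = 0 := by linear_combination c.q3 2 c.os.two
  have h7 : (σ * (ug (c.tp.tens i) t * σ * (ug (c.tp.tens i) t)⁻¹)) (B p a) = (0 : F) • B p' a +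
      (2 * (a₁ * b₂ - a₂ * b₁) * (b₁ ^ 2 + b₂ ^ 2)) • B p' b := by
    have d11 : 2 / f v v = a₁ * b₁ + a₂ * b₂ := by
      rw [d9, div_eq_iff (mul_ne_zero c.os.two d10)]; linear_combination -2 * q1
    simp only [LinearEquiv.mul_apply, t5, h3, h4, map_add, map_sub, map_smul, LinearMap.add_apply,
      LinearMap.smul_apply, c.right, t1, t2, c.wa, c.wb, map_neg, d4, d5, d6, d8, d11, smul_eq_mul]
    match_scalars
    · linear_combination q3 + (2 * (a₁ * b₁ + a₂ * b₂) ^ 2 + 2 * (a₁ * b₂ - a₂ * b₁) ^ 2) * q1 + 2 * q2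
    · linear_combination 2 * (a₁ * b₁ + a₂ * b₂) * (b₁ ^ 2 + b₂ ^ 2) * q1
    · ring
    · linear_combination 2 * (a₁ * b₂ - a₂ * b₁) * (b₁ ^ 2 + b₂ ^ 2) * q1
  obtain ⟨a₀, b₀, h8⟩ := (c.tp.tens i).mem_tensG.1 (tensG_of_comm c.tp
    (c.g1 h5 h6 hp0 d4 (by rintro rfl; simp at d6) d5 h7) (z := w * w)
    ⟨a, b, d, _, c.fr, by simp [c.wa, c.wb], by simp [c.wa, c.wb], by simp [c.wd], by simp [c.we]⟩
    (ug_mul' (c.tp.tens i) w w ▸ h6.mul_right h6))
  have h9 : (σ * (ug (c.tp.tens i) t * σ * (ug (c.tp.tens i) t)⁻¹)) (B u a) = B u a := by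
    simp only [LinearEquiv.mul_apply, t5, h3, d2, d3, mul_zero, zero_smul, sub_zero, add_zero, c.right, t1]
  obtain ⟨u₀, f1⟩ := c.sur' u
  obtain ⟨p₀, f2⟩ := c.sur' p
  have f3 : u₀ ≠ 0 := by rintro rfl; exact c.ne_zero d1 (by simp [f1])
  rw [h8, f1] at h9
  have f4 := congrArg ((c.tp.tens i).cR (f b)) h9
  simp [c.fr.ba, f3] at f4
  have f5 := congrArg (β (B p b)) h7
  rw [h8, map_add, map_smul, map_smul, c.form, c.form, f2, IsTens.mpE_apply, (c.tf i).tens, f4, d6,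
    mul_zero, zero_smul, zero_add, mul_one, eq_comm, smul_eq_mul,
    mul_eq_zero_iff_right (mul_ne_zero k0 c.fr.hb)] at f5
  exact c.ne_zero hp0 (by simpa [f5, -LinearEquiv.mul_apply] using h7)

theorem cent (hg : g ∈ X) (e : Commute g (ug (c.tp.tens i) w)) : TP.IsWr T g := by
  obtain ⟨p, hp0, hp⟩ := c.os.exists_iso
  obtain ⟨v, a1, a2⟩ := c.os.exists_perp p
  have a3 : f (v + p) (v + p) ≠ 0 := by simpa [a1, c.os.symm v p, hp] using a2
  obtain ⟨r, hr⟩ := exists_rf c.os.hm a2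
  obtain ⟨r₁, hr₁⟩ := exists_rf c.os.hm a3
  obtain ⟨r', hr'⟩ := exists_rf c.os.hm c.fr.hc
  refine c.isWr_of_conj c.hj (isP_rf c.m4 hp0 hp a2 a1 hr hr₁) hg ?_
  convert isWr_mul (c.c1 hg e a2 hr hr') (c.c1 hg e a3 hr₁ hr') using 1
  have h1 := ug_sq (c.tp.tens i) (mul_eq_one_iff_inv_eq.2 (hr'.inv c.os.hm c.fr.hc))
  rw [conj_mul, ← (comm_ug c.tp c.ij r₁ r').mul_mul_mul_comm, h1, mul_one, ug_mul']

end D4

theorem I4.cent_two [Finite F] (c : I4 T h f β X s) (h3 : ∀ t : F, t ≠ 0 → t ^ 2 = 1)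
    (hU : finrank F U = 4) (hg : g ∈ X) (hz : IsE f z) (e : Commute g (ug (c.tp.tens i) z)) :
    TP.IsWr T g := by
  obtain ⟨z, a, b, d, e', h1, ef, h2⟩ := hz.eqn
  replace e : Commute g (ug (c.tp.tens i) z) := by
    rcases h1 with rfl | rfl
    exacts [e, ug_ng (c.tp.tens i) _ ▸ comm_ng e]
  obtain ⟨r, r', a1, a2, a3, a4, a5, a6, a7, a8⟩ := ef.exists_rot h2
  have hw := c.so i _ _ ⟨_, a1, a2⟩ ⟨_, ef.hb, a3⟩
  generalize r * r' = w at a4 a5 a6 a7 a8 hw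
  obtain ⟨j, hj, hj'⟩ := c.two i
  obtain ⟨S, k, t, hS⟩ := exists_res (c.tf i) (c.tf j) (c.tp.comm i j hj'.symm) c.os.two ef.ha (U' := F)
    (by simp [hU, c.m4.dim])
  have D : D4 T h f β X s i j (T i ∘ₗ S 1) (k 1 1) w a b d e' :=
    { c with
      hj := hj, ij := hj'.symm, q3 := h3, fr := ef.toF4, nb := h2, wa := a4, wb := a5, wd := a6
      we := a7, wX := hw
      k0 := fun h0 => one_ne_zero (t.hf.sep' (1 : F) fun v => by
        rw [← mul_one v, ← smul_eq_mul, map_smul, LinearMap.smul_apply, h0, smul_zero])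
      form := fun y v y' v' => by simp [(c.tf i).tens, t.tens]
      left := fun g y v => by rw [← LinearEquiv.coe_coe, coe_ug, hS]; simp
      sur := t.hT.ind ⟨0, by simp⟩ (by rintro _ _ ⟨x, hx⟩ ⟨y, hy⟩; exact ⟨x + y, by simp [hx, hy]⟩)
        fun x y => ⟨x • y, by
          rw [LinearMap.comp_apply, map_smul, ← LinearMap.smul_apply, ← map_smul, smul_eq_mul, mul_one]⟩
      sur' := fun y => ⟨_, rfl⟩ }
  have b1 : ∀ y, z y = y → w y = y := fun y hy => by rw [ef.of_fix hy]; simp [a6, a7]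
  obtain ⟨w', hw'⟩ := c.good hg ⟨_, _, _, _, ef⟩ (by rw [e.eq, mul_inv_cancel_right]) hw b1
  have b2 := isom_of_ug (c.tf i) (hw' ▸ c.le (mul_mem (mul_mem hg hw) (inv_mem hg)))
  have b3 : w' * w' = z := ug_inj (c.tp.tens i) (by
    rw [ug_mul', ← hw', conj_mul, ← ug_mul', a8, e.eq, mul_inv_cancel_right])
  have b4 : ∀ y, z y = y → w' y = y := fun y hy => by
    have h4 : (w : End F W) * (1 + z) = 1 + z := LinearMap.ext fun y => b1 _ (by
      simp [show z (z y) = y from congrArg (· y) ef.sq, add_comm])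
    obtain ⟨u, hu⟩ := exists_ne (0 : U)
    have h5 := LinearMap.congr_fun (congrArg (cj g ∘ kap (c.tp.tens i)) h4) (T i u y)
    simp only [Function.comp, map_mul, map_add, map_one, ← coe_ug, ← coe_conj, e.eq, hw',
      mul_inv_cancel_right, End.mul_apply, LinearMap.add_apply, End.one_apply, LinearEquiv.coe_coe,
      ug_apply, hy, ← two_smul F, map_smul] at h5
    exact (c.tp.tens i).injective hu (smul_right_injective V c.os.two h5)
  have b5 : w' (w' a) = -a := ef.za ▸ congrArg (· a) b3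
  have b6 := ef.of_neg (v := w' a) (by rw [← b3, LinearEquiv.mul_apply, b5, map_neg])
  have b7 : f a (w' a) = 0 := mul_left_cancel₀ c.os.two (by
    have := iso b2 (w' a) a
    rw [b5, map_neg, LinearMap.neg_apply, c.os.symm (w' a)] at this
    linear_combination -this)
  rw [b7, zero_div, zero_smul, zero_add] at b6
  generalize f b (w' a) / f b b = t at b6
  have b8 : t • w' b = -a := by rw [← map_smul, ← b6, b5]
  rcases sq_eq_one_iff.1 (h3 t (by
    rintro rfl; exact ef.ha (by simp [show a = 0 by simpa using b6]))) with rfl | rfl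
  · obtain rfl : w' = w := ef.extE (by simp [b6, a4]) (by simpa [a5] using b8)
      (by rw [b4 _ ef.zc, a6]) (by rw [b4 _ ef.zd, a7])
    exact D.cent hg (mul_inv_eq_iff_eq_mul.1 hw')
  obtain ⟨r₁, hr₁⟩ := exists_rf c.os.hm ef.hb
  obtain ⟨r₂, hr₂⟩ := exists_rf c.os.hm ef.hc
  have c1 := c.so i _ _ ⟨b, ef.hb, hr₁⟩ ⟨d, ef.hc, hr₂⟩
  have c2 := (D.turn hr₁ hr₂).2.2
  have c3 : w' * w = 1 := ef.extE (by simpa [a4] using b8) (by simp [a5, b6])
    (by simp [a6, b4 _ ef.zc]) (by simp [a7, b4 _ ef.zd])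
  refine (mul_mem_cancel_left (H := WrG c.tp) (c.tp.isWr_ug i (r₁ * r₂))).1
    (D.cent (mul_mem c1 hg) ?_)
  rw [Commute, SemiconjBy, mul_assoc, mul_inv_eq_iff_eq_mul.1 hw', ← mul_assoc, ← mul_assoc, ← ug_mul',
    ← ug_mul', eq_inv_of_mul_eq_one_left c3, mul_inv_eq_iff_eq_mul.2 c2.symm]

/-- The centraliser of a half turn. -/
theorem I4.cent [Finite F] (c : I4 T h f β X s) (hi : i ∈ s) (hg : g ∈ X) (hz : IsE f z)
    (e : Commute g (ug (c.tp.tens i) z)) : TP.IsWr T g := by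
  by_cases h3 : ∀ t : F, t ≠ 0 → t ^ 2 = 1
  · exact c.cls.elim (fun h => c.cent_two h3 h.2 hg hz e) fun h => c.cent_refl h3 (h i) hi hg hz e
  · push Not at h3
    obtain ⟨t, h0, ht⟩ := h3
    exact c.cent_big h0 ht hi hg hz e

end Cfsg.Lib.Class.WrO
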