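import Cfsg.Agent.Class.WrO.K4g

/-!
Overgroups of the stabiliser of a tensor power of an orthogonal 4-space of minus type: fusion of
half turns.
-/

set_option autoImplicit false
set_option linter.unusedSectionVars false

namespace Cfsg.Lib.Class.WrO

open Module Submodule Tens Tn FE AO Form Wr
open LinearMap (range ker)

variable {F U W V : Type*} [Field F] [AddCommGroup U] [Module F U] [AddCommGroup W] [Module F W]
  [AddCommGroup V] [Module F V] {x y g n k : V ≃ₗ[F] V} {m : End F V}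
  [FiniteDimensional F U] [FiniteDimensional F W] [Nontrivial U] [Nontrivial W]
  {f : W →ₗ[F] W →ₗ[F] F} {β : V →ₗ[F] V →ₗ[F] F} {p v : W} {z z' w r r' b b' : W ≃ₗ[F] W}
  {a : U ≃ₗ[F] U} {τ : Type*} [Fintype τ] {T : τ → U →ₗ[F] W →ₗ[F] V}
  {h : τ → U →ₗ[F] U →ₗ[F] F} {i j l : τ} {X : Subgroup (V ≃ₗ[F] V)} {s : Finset τ}

theorem comm_conj {G : Type*} [Group G] {x g z : G} (e : Commute x (g * z * g⁻¹)) :
    Commute (g⁻¹ * x * g) z := by simpa [mul_assoc] using e.conj g⁻¹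

theorem IsRf.finrank_ker (hr : IsRf f v r) (h2 : (2 : F) ≠ 0) (hv : f v v ≠ 0) :
    finrank F (ker ((r : End F W) + 1)) = 1 := by
  rw [← finrank_span_singleton (K := F) (show v ≠ 0 by rintro rfl; simp at hv)]
  refine congrArg (fun S : Submodule F W => finrank F S) (le_antisymm (fun y hy =>
    mem_span_singleton.2 ⟨f v y / f v v, smul_right_injective W h2 ?_⟩)
    ((span_singleton_le_iff_mem _ _).2 (by simp [hr v, hv]; module)))
  have : r y + y = 0 := hy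
  rw [hr y] at this
  linear_combination (norm := skip) -this
  match_scalars <;> ring

theorem comm_mpE {T : U →ₗ[F] W →ₗ[F] V} (hT : IsTens T) (e : Commute r b) :
    Commute (ug hT r) (hT.mpE a b) :=
  hT.extE fun u y => by simpa using congrArg (fun g => T (a u) (g y)) e.eq

theorem IsS.smul {s t : F} (h : IsS f b s) (ht : t ≠ 0) (e : ∀ y, b' y = t • b y) :
    IsS f b' (t * t * s) :=
  ⟨h.m, fun u v => by simp [e, h.adj], fun y => by simp [e, h.sq, smul_smul, mul_assoc],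
    fun ⟨c, hc⟩ => h.ns ⟨c / t, by field_simp; linear_combination hc⟩⟩

theorem inE_of_two (t : TP T) (h2 : Fintype.card τ = 2) (hj : j ≠ l) (hm : InC (T j) m) :
    InE (T l) m := inE_of_forall t fun i hi => by
  classical
  by_contra h1
  exact (Fintype.two_lt_card_iff.2 ⟨i, j, l, by rintro rfl; exact h1 hm, hi, hj⟩).ne' h2

theorem exists_sim {T T' : U →ₗ[F] W →ₗ[F] V} {h h' : U →ₗ[F] U →ₗ[F] F} (t : TF T h 1 f 1 β)
    (t' : TF T' h' 1 f 1 β) (hg : g ∈ isomGroup β) (H : ∀ a, InE T a → InE T' (cj g a)) :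
    ∃ b k, k ≠ 0 ∧ Sim f b k ∧ ∀ z, g * ug t.hT z * g⁻¹ = ug t'.hT (b * z * b⁻¹) := by
  let n : V ≃ₗ[F] V := t'.hT.eqv.symm ≪≫ₗ t.hT.eqv
  have hn : ∀ u w, n (T' u w) = T u w := fun u w => by simp [n]
  obtain ⟨a, b, e⟩ := t'.hT.mem_tensG.1 (tensG_of_cj t'.hT (g := g * n) fun m ⟨c, hc⟩ =>
    H (cj n m) ⟨c, fun x y => by simp [← hn, hc]⟩)
  replace e : ∀ x y, g (T x y) = T' (a x) (b y) := fun x y => by
    simpa [hn] using congrArg (· (T' x y)) e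
  obtain ⟨x, x', hx⟩ := t.hf.exists_ne_pair
  obtain ⟨y, y', hy⟩ := t.hh.exists_ne_pair
  have h1 : ∀ y y', h' (a x) (a x') * f (b y) (b y') = f y y' := fun y y' => by
    simpa only [e, t.tens, t'.tens, hx, one_mul] using iso hg (T x y) (T x' y')
  have h2 : h' (a x) (a x') ≠ 0 := fun h0 => by simpa [h0, hy] using h1 y y'
  exact ⟨b, _, inv_ne_zero h2, fun u v => by rw [← h1 u v, inv_mul_cancel_left₀ h2], fun z =>
    mul_inv_eq_iff_eq_mul.2 (t.hT.extE fun u w => by simp [e])⟩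

theorem ug_mem_tensG (t : TP T) (i j : τ) (b : W ≃ₗ[F] W) : ug (t.tens j) b ∈ tensG (T i) := by
  by_cases hij : i = j
  · exact hij ▸ ug_mem _ b
  · obtain ⟨a, ha⟩ := exists_lf (t.tens i) (inC_ug t hij b)
    exact ha ▸ (t.tens i).mpE_mem a 1

namespace I4

variable [Finite F] (c : I4 T h f β X s) (hi : i ∈ s) (hg : g ∈ X)
include c hi hg

theorem not_anti (hz : IsE f z) : g * ug (c.tp.tens i) z ≠ ng (ug (c.tp.tens i) z * g) := fun e => by
  obtain ⟨j, hj, hj'⟩ := c.two i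
  obtain ⟨p, hp0, hp⟩ := c.os.exists_iso
  obtain ⟨x, hx⟩ := c.m4.exists_isP hp0 hp
  have h1 : ug (c.tp.tens i) z = ng (g * ug (c.tp.tens i) z * g⁻¹) := by
    rw [e]; exact LinearEquiv.ext fun v => by simp
  obtain ⟨a, b, rfl⟩ := (c.tp.tens i).mem_tensG.1 (tensG_of_inE' c.tp (c.isWr_of_conj hj hx hg
    (c.cent hi (mul_mem (mul_mem hg (c.eich j p hp x hx.rad)) (inv_mem hg)) hz
      (h1 ▸ comm_ng ((comm_ug c.tp hj'.symm x z).conj g)))) (coe_ug (c.tp.tens i) z ▸ inE_kap _ _)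
    fun h2 => hz.not_inC (c.tp.tens i) (by simpa [cj_of_anti e] using h2.neg))
  obtain ⟨k, -, hk⟩ := sim_of_mpE (c.tf i) (c.le hg)
  obtain ⟨u, hu⟩ := exists_ne (0 : U)
  exact hz.not_anti hk (LinearEquiv.ext fun y => (c.tp.tens i).injective (a.map_ne_zero_iff.2 hu)
    (by simpa using congrArg (· (T i u y)) e))

theorem fuse2 (hj : j ∈ s) (hz : IsE f z)
    (e : InC (T i) ((g⁻¹ * ug (c.tp.tens j) z * g : V ≃ₗ[F] V) : End F V)) : TP.IsWr T g := by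
  obtain ⟨p, hp0, hp⟩ := c.os.exists_iso
  obtain ⟨x, hx⟩ := c.m4.exists_isP hp0 hp
  obtain ⟨a, ha⟩ := exists_lf (c.tp.tens i) e
  refine c.isWr_of_conj hi hx hg (c.cent hj (mul_mem (mul_mem hg (c.eich i p hp x hx.rad))
    (inv_mem hg)) hz ?_)
  simpa [mul_assoc] using (ha ▸ comm_lf _ a x : Commute (g⁻¹ * ug _ z * g) _).symm.conj g

variable (hz : IsE f z)
include hz

theorem fuse1 (hj : j ∈ s) (hb : IsP f p w)
    (e : Commute (ug (c.tp.tens j) w) (g * ug (c.tp.tens i) z * g⁻¹)) : TP.IsWr T g :=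
  c.isWr_of_conj' hj hb hg (c.cent hi (mul_mem (mul_mem (inv_mem hg) (c.eich j p hb.hp w hb.rad)) hg)
    hz (comm_conj e))

theorem tens_of_comm (hx : x ∈ X) (e : Commute x (g * ug (c.tp.tens i) z * g⁻¹)) :
    g⁻¹ * x * g ∈ tensG (T i) :=
  tensG_of_comm c.tp (c.cent hi (mul_mem (mul_mem (inv_mem hg) hx) hg) hz (comm_conj e)) hz (comm_conj e)

theorem fuse_refl (hj : j ∈ s) (hR : ∀ r, IsR f r → ug (c.tp.tens j) r ∈ X) (hb : IsE f b)
    (e : g * ug (c.tp.tens i) z * g⁻¹ = (c.tp.tens j).mpE a b) : TP.IsWr T g := by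
  obtain ⟨a₁, a₂, a₃, a₄, ef⟩ := hb
  have h1 : ∀ v, f v v ≠ 0 → b v = v ∨ b v = -v → ∃ r, IsRf f v r ∧
      (InE (T i) ((g⁻¹ * ug (c.tp.tens j) r * g : V ≃ₗ[F] V) : End F V) ∨
        InC (T i) ((g⁻¹ * ug (c.tp.tens j) r * g : V ≃ₗ[F] V) : End F V)) := fun v hv hb => by
    obtain ⟨r, hr⟩ := exists_rf c.os.hm hv
    have h1 := hR r ⟨v, hv, hr⟩
    refine ⟨r, hr, inE_or_inC (c.tf i) c.m4 (c.tens_of_comm hi hg hz h1
      (e ▸ comm_mpE _ (hr.comm ef.isom hb))) (c.le (mul_mem (mul_mem (inv_mem hg) h1) hg))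
      (by simpa using T3.Multi.sq_conj (ug_sq _ (mul_eq_one_iff_inv_eq.2 (hr.inv c.os.hm hv))) g⁻¹) ?_⟩
    have h2 := finrank_ker_cj g⁻¹ (kap (c.tp.tens j) (r + 1))
    rwa [finrank_ker_kap, hr.finrank_ker c.os.two hv, mul_one, map_add, map_add, map_one, map_one,
      ← coe_ug, ← coe_conj, inv_inv] at h2
  have h0 : ∀ r r', g⁻¹ * ug (c.tp.tens j) (r * r') * g =
      g⁻¹ * ug (c.tp.tens j) r * g * (g⁻¹ * ug (c.tp.tens j) r' * g) := fun r r' => by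
    rw [ug_mul']; group
  have h2 : ∀ {r r'}, IsE f (r * r') →
      InC (T i) ((g⁻¹ * ug (c.tp.tens j) r * g : V ≃ₗ[F] V) : End F V) →
      InC (T i) ((g⁻¹ * ug (c.tp.tens j) r' * g : V ≃ₗ[F] V) : End F V) → TP.IsWr T g :=
    fun k h1 h2 => c.fuse2 hi hg hj k (h0 _ _ ▸ h1.mul h2)
  have h3 : ∀ {r r'}, IsE f (r * r') →
      InE (T i) ((g⁻¹ * ug (c.tp.tens j) r * g : V ≃ₗ[F] V) : End F V) →
      InE (T i) ((g⁻¹ * ug (c.tp.tens j) r' * g : V ≃ₗ[F] V) : End F V) → TP.IsWr T g :=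
    fun {r r'} k h1 h2 => by
      obtain ⟨b₁, h3⟩ := exists_ug (c.tp.tens i) (h0 _ _ ▸ h1.mul h2 :
        InE (T i) ((g⁻¹ * ug (c.tp.tens j) (r * r') * g : V ≃ₗ[F] V) : End F V))
      obtain ⟨l, hl, hl'⟩ := c.two j
      obtain ⟨p, hp0, hp⟩ := c.os.exists_iso
      obtain ⟨x, hx⟩ := c.m4.exists_isP hp0 hp
      exact c.fuse1 hi hg (c.isE_conj (inv_mem hg) k (by rw [inv_inv, h3])) hl hx (by
        simpa [← h3, mul_assoc] using comm_ug c.tp hl'.symm x (r * r'))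
  obtain ⟨r₁, b1, c1⟩ := h1 a₁ ef.ha (.inr ef.za)
  obtain ⟨r₂, b2, c2⟩ := h1 a₂ ef.hb (.inr ef.zb)
  obtain ⟨r₃, b3, c3⟩ := h1 a₃ ef.hc (.inl ef.zc)
  have d1 : IsE f (r₁ * r₂) := ⟨_, _, _, _, ef.toF4.ef b1 b2⟩
  have d2 : IsE f (r₁ * r₃) := ⟨_, _, _, _, ef.s23.ef b1 b3⟩
  have d3 : IsE f (r₂ * r₃) := ⟨_, _, _, _, ef.s12.s23.ef b2 b3⟩
  rcases c1 with c1 | c1 <;> rcases c2 with c2 | c2 <;> rcases c3 with c3 | c3
  exacts [h3 d1 c1 c2, h3 d1 c1 c2, h3 d2 c1 c3, h2 d3 c2 c3, h3 d3 c2 c3, h2 d2 c1 c3, h2 d1 c1 c2,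
    h2 d1 c1 c2]

theorem sq_conj (hx : x ∈ X) (e : Commute x (g * ug (c.tp.tens i) z * g⁻¹))
    (h4 : x * x * (x * x) = 1) : InC (T i) ((g⁻¹ * (x * x) * g : V ≃ₗ[F] V) : End F V) ∨
      InC (T i) ((g⁻¹ * (x * x * (g * ug (c.tp.tens i) z * g⁻¹)) * g : V ≃ₗ[F] V) : End F V) := by
  simpa [mul_assoc] using inC_sq (c.tf i) c.m4 (c.tens_of_comm hi hg hz hx e)
    (c.le (mul_mem (mul_mem (inv_mem hg) hx) hg)) hz (comm_conj e)
    (by
      calc _ = g⁻¹ * (x * x * (x * x)) * g := by group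
        _ = 1 := by rw [h4, mul_one, inv_mul_cancel])

theorem fuse_two (h2 : Fintype.card τ = 2) (hj : j ∈ s) (hb : IsE f b)
    (e : g * ug (c.tp.tens i) z * g⁻¹ = (c.tp.tens j).mpE a b) : TP.IsWr T g := by
  obtain ⟨z', a₁, a₂, a₃, a₄, h1, ef, h3⟩ := hb.eqn
  obtain ⟨r, r', a1, a2, a3, -, -, -, -, a4⟩ := ef.exists_rot h3
  have hw := c.so j _ _ ⟨_, a1, a2⟩ ⟨_, ef.hb, a3⟩
  generalize r * r' = w at a4 hw
  have h4 : Commute w b := by
    have : Commute w z' := a4 ▸ (Commute.refl w).mul_right (.refl w)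
    rcases h1 with rfl | rfl
    exacts [this, ng_ng b ▸ comm_ng this]
  have h5 := e ▸ comm_mpE (a := a) (c.tp.tens j) h4
  have h6 : ug (c.tp.tens j) w * ug (c.tp.tens j) w = ug (c.tp.tens j) z' := by rw [← ug_mul', a4]
  have h7 := ug_sq (c.tp.tens j) ef.sq
  rcases c.sq_conj hi hg hz hw h5 (by rw [h6, h7]) with h8 | h8 <;> rw [h6] at h8
  · exact c.fuse2 hi hg hj ⟨_, _, _, _, ef⟩ h8
  obtain ⟨l, hl, hl'⟩ := c.two j
  have h9 : ∀ y, b (b y) = y := fun y => let ⟨_, _, _, _, h⟩ := hb; congrArg (· y) h.sq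
  obtain ⟨b₂, b1⟩ := exists_ug (c.tp.tens l) (k := ug (c.tp.tens j) z' * (g * ug (c.tp.tens i) z * g⁻¹))
    (inE_of_two c.tp h2 hl'.symm (by
      rcases h1 with rfl | rfl
      exacts [⟨a, by simp [e, h9]⟩, ⟨-a, by simp [e, h9]⟩]))
  have b2 : Commute (ug (c.tp.tens j) z') (g * ug (c.tp.tens i) z * g⁻¹) := h6 ▸ h5.mul_left h5
  have b3 := mul_mem (mul_mem hg (c.ug_mem hz i)) (inv_mem hg)
  rcases c.m4.invol' (isom_of_ug (c.tf l) (b1 ▸ c.le (mul_mem (h6 ▸ mul_mem hw hw) b3)))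
    (ug_inj (c.tp.tens l) (by
      obtain ⟨_, _, _, _, hz⟩ := hz
      rw [ug_mul', ← b1, b2.symm.mul_mul_mul_comm, h7, T3.Multi.sq_conj (ug_sq _ hz.sq), mul_one]
      exact (map_one (ugH _)).symm)) with b4 | ⟨p, x, b4, b5⟩
  · exact c.fuse2 hi hg hl b4 (b1 ▸ h8)
  refine c.fuse1 hi hg hz hl b4 ?_
  rw [← inv_mul_cancel_left (ug (c.tp.tens j) z') (g * _ * _), b1]
  exact (comm_ug c.tp hl'.symm x z').inv_right.mul_right (b5.map (ugH _))

theorem fuse_isom (hj : j ∈ s) (hb : b ∈ isomGroup f) (h2 : b * b = 1)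
    (e : g * ug (c.tp.tens i) z * g⁻¹ = (c.tp.tens j).mpE a b) : TP.IsWr T g := by
  rcases c.m4.invol' hb h2 with h1 | ⟨p, x, h1, h3⟩
  · exact c.cls.elim (fun h => c.fuse_two hi hg hz h.1 hj h1 e) fun h => c.fuse_refl hi hg hz hj (h j) h1 e
  · exact c.fuse1 hi hg hz hj h1 (e ▸ comm_mpE _ h3)

theorem fuse_sim (h2 : Fintype.card τ = 2) (hj : j ∈ s) (hl : j ≠ l) {t t' : F} (hb : IsS f b t)
    (hb' : IsS f b' t') (e : g * ug (c.tp.tens i) z * g⁻¹ = ug (c.tp.tens j) b * ug (c.tp.tens l) b') :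
    TP.IsWr T g := by
  by_contra H
  have y2 : g * ug (c.tp.tens i) z * g⁻¹ * (g * ug (c.tp.tens i) z * g⁻¹) = 1 :=
    let ⟨_, _, _, _, hz⟩ := hz; T3.Multi.sq_conj (ug_sq _ hz.sq) g
  have cm := comm_ug c.tp hl
  have sq : ∀ {z}, IsE f z → z * z = 1 := fun ⟨_, _, _, _, h⟩ => h.sq
  have key : ∀ v v' w w', f v v ≠ 0 → f v' v' ≠ 0 → IsG f b v w → IsG f b' v' w' → InC (T i) (cj g⁻¹
      ((ug (c.tp.tens j) w * ug (c.tp.tens l) w' * (g * ug (c.tp.tens i) z * g⁻¹) : V ≃ₗ[F] V) :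
        End F V)) := fun v v' w w' hv hv' hw hw' => by
    obtain ⟨r₁, r₂, r₃, z₁, a1, a2, a3, a4, a5, a6⟩ := hb.exists_anti hv
    obtain ⟨s₁, s₂, s₃, z₂, b1, b2, b3, b4, b5, b6⟩ := hb'.exists_anti hv'
    obtain rfl : w = z₁ := by
      obtain ⟨u, u1, u2, u3⟩ := hb.exists_perp hv
      have e1 := hb.ef hv u1 u2 u3 hw
      have e2 := hb.ef hv u1 u2 u3 a5
      exact e1.extE (e1.za.trans e2.za.symm) (e1.zb.trans e2.zb.symm) (e1.zc.trans e2.zc.symm)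
        (e1.zd.trans e2.zd.symm)
    obtain rfl : w' = z₂ := by
      obtain ⟨u, u1, u2, u3⟩ := hb'.exists_perp hv'
      have e1 := hb'.ef hv' u1 u2 u3 hw'
      have e2 := hb'.ef hv' u1 u2 u3 b5
      exact e1.extE (e1.za.trans e2.za.symm) (e1.zb.trans e2.zb.symm) (e1.zc.trans e2.zc.symm)
        (e1.zd.trans e2.zd.symm)
    have c0 : ∀ {r r'}, IsR f r → IsR f r' → ug (c.tp.tens j) r * ug (c.tp.tens l) r' ∈ X :=
      fun {r r'} hr hr' => by
        have := mul_mem (c.pair j l hl r (hr.isom c.os.hm)) (c.so l _ _ hr hr')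
        rwa [ug_mul', ← ug_inv, mul_assoc, inv_mul_cancel_left] at this
    have c1 : ug (c.tp.tens j) (r₁ * r₂ * r₃) * ug (c.tp.tens l) (s₁ * s₂ * s₃) ∈ X := by
      have := mul_mem (mul_mem (c.so j _ _ a1 a2) (c0 a3 b1)) (c.so l _ _ b2 b3)
      simpa only [ug_mul', mul_assoc] using this
    generalize r₁ * r₂ * r₃ = ρ, s₁ * s₂ * s₃ = ρ' at a4 a6 b4 b6 c1
    have c2 : Commute (ug (c.tp.tens j) ρ * ug (c.tp.tens l) ρ') (g * ug (c.tp.tens i) z * g⁻¹) := by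
      rw [e, Commute, SemiconjBy, (cm ρ' b).mul_mul_mul_comm, (cm b' ρ).mul_mul_mul_comm, ← ug_mul',
        ← ug_mul', ← ug_mul', ← ug_mul', a4, b4, ug_ng, ug_ng]
      exact LinearEquiv.ext fun v => by simp
    have c3 := hb.isE hv hw
    have c4 := hb'.isE hv' hw'
    have c5 : ug (c.tp.tens j) w * ug (c.tp.tens l) w' * (ug (c.tp.tens j) w * ug (c.tp.tens l) w') = 1 := by
      rw [(cm w' w).mul_mul_mul_comm, ug_sq _ (sq c3), ug_sq _ (sq c4), mul_one]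
    obtain ⟨ε, c6, c7⟩ : ∃ ε : F, ε * ε = 1 ∧ ∀ v, (ug (c.tp.tens j) ρ * ug (c.tp.tens l) ρ' *
        (ug (c.tp.tens j) ρ * ug (c.tp.tens l) ρ')) v = ε • (ug (c.tp.tens j) w * ug (c.tp.tens l) w') v := by
      rw [(cm ρ' ρ).mul_mul_mul_comm, ← ug_mul', ← ug_mul']
      rcases a6 with a6 | a6 <;> rcases b6 with b6 | b6
      exacts [⟨1, by simp, by simp [a6, b6]⟩, ⟨-1, by simp, by simp [a6, b6, ug_ng]⟩,
        ⟨-1, by simp, by simp [a6, b6, ug_ng]⟩, ⟨1, by simp, by simp [a6, b6, ug_ng]⟩]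
    have c8 : ∀ x : V ≃ₗ[F] V, InC (T i) ((g⁻¹ * (ug (c.tp.tens j) ρ * ug (c.tp.tens l) ρ' *
        (ug (c.tp.tens j) ρ * ug (c.tp.tens l) ρ') * x) * g : V ≃ₗ[F] V) : End F V) →
        InC (T i) (cj g⁻¹ ((ug (c.tp.tens j) w * ug (c.tp.tens l) w' * x : V ≃ₗ[F] V) : End F V)) :=
      fun x hx => by
        convert hx.smul ε using 1
        refine LinearMap.ext fun v => ?_
        simp only [cj_apply, inv_inv, LinearMap.smul_apply, LinearEquiv.coe_coe,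
          LinearEquiv.mul_apply _ x, LinearEquiv.mul_apply _ g, LinearEquiv.mul_apply g⁻¹, c7, map_smul,
          smul_smul, c6, one_smul]
    refine c8 _ ((c.sq_conj hi hg hz c1 c2 (LinearEquiv.ext fun v => by
      rw [LinearEquiv.mul_apply, c7, c7, map_smul, smul_smul, c6, one_smul, ← LinearEquiv.mul_apply,
        c5])).resolve_left fun h3 => H ?_)
    obtain ⟨i', hi', hi''⟩ := c.two i
    have h4 := c8 1 (by rwa [mul_one])
    rw [mul_one, ← coe_conj] at h4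
    obtain ⟨b₁, h5⟩ := exists_ug (c.tp.tens i') (inE_of_two c.tp h2 hi''.symm h4)
    obtain ⟨a, ha⟩ := exists_lf (c.tp.tens j) (inC_ug c.tp hl w')
    have h6 := mul_mem (c.ug_mem c3 j) (c.ug_mem c4 l)
    have h7 := h5 ▸ T3.Multi.sq_conj c5 g⁻¹
    obtain ⟨_, _, _, _, ef⟩ := c3
    refine c.fuse_isom hi' hg (c.m4.isE_of (isom_of_ug (c.tf i') (h5 ▸ c.le (mul_mem (mul_mem
      (inv_mem hg) h6) (inv_mem (inv_mem hg))))) (ug_inj (c.tp.tens i') (by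
        rw [ug_mul', h7]; exact (map_one (ugH _)).symm)) ?_) hj ef.isom ef.sq (a := a) (by
      rw [← h5, ha, inv_inv]
      exact (c.tp.tens j).extE fun u y => by simp)
    obtain ⟨k, hk⟩ := ef.exists_anti
    have := (c.tp.tens i').finiteDimensional
    have h8 := (finrank_of_anti c.os.two (congrArg LinearEquiv.toLinearMap c5) (cj_of_anti
      (k := ug (c.tp.tens j) k) (by
        rw [← mul_assoc, ← ug_mul', hk, ug_ng, ug_mul', mul_assoc (ug _ w), (cm w' k).eq, ← mul_assoc]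
        rfl))).2
    rw [← finrank_ker_cj g⁻¹, map_sub, map_one, ← coe_conj, h5, coe_ug, ← map_one (kap (c.tp.tens i')),
      ← map_sub, finrank_ker_kap, (c.tp.tens i').finrank_eq, c.m4.dim] at h8
    exact Nat.eq_of_mul_eq_mul_left (finrank_pos (R := F) (M := U)) (by linarith)
  let S : Subalgebra F (End F V) :=
    { carrier := {m | InC (T i) (cj g⁻¹ m)}
      mul_mem' := fun h1 h2 => by simpa only [Set.mem_ofPred_eq, map_mul] using h1.mul h2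
      add_mem' := fun h1 h2 => by simpa only [Set.mem_ofPred_eq, map_add] using h1.add h2
      algebraMap_mem' := fun t => by
        rw [Set.mem_ofPred_eq, AlgEquiv.commutes, Algebra.algebraMap_eq_smul_one]
        exact inC_smul_one t }
  obtain ⟨v, _, _, _, fr⟩ := c.m4.exists_frame
  obtain ⟨_, _, _, w, -, -, -, -, hw, -⟩ := hb.exists_anti fr.ha
  obtain ⟨_, _, _, w', -, -, -, -, hw', -⟩ := hb'.exists_anti fr.ha
  have cm' : ∀ {v v' w w'}, f v v ≠ 0 → f v' v' ≠ 0 → IsG f b v w → IsG f b' v' w' →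
      Commute (g * ug (c.tp.tens i) z * g⁻¹) (ug (c.tp.tens j) w * ug (c.tp.tens l) w') :=
    fun {v v' w w'} hv hv' hw hw' => by
      have h1 : Commute b w := LinearEquiv.ext fun y => (hb.comm hv hw y).symm
      have h3 : Commute b' w' := LinearEquiv.ext fun y => (hb'.comm hv' hw' y).symm
      exact e ▸ ((h1.map (ugH _)).mul_right (cm w' b).symm).mul_left ((cm b' w).mul_right (h3.map (ugH _)))
  have mul : ∀ {v₁ v₁' w₁ w₁' v₂ v₂' w₂ w₂'}, f v₁ v₁ ≠ 0 → f v₁' v₁' ≠ 0 → IsG f b v₁ w₁ →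
      IsG f b' v₁' w₁' → f v₂ v₂ ≠ 0 → f v₂' v₂' ≠ 0 → IsG f b v₂ w₂ → IsG f b' v₂' w₂' →
      kap (c.tp.tens j) (w₁ * w₂) * kap (c.tp.tens l) (w₁' * w₂') ∈ S :=
    fun {v₁ v₁' w₁ w₁' v₂ v₂' w₂ w₂'} a1 a2 a3 a4 b1 b2 b3 b4 => by
      have := S.mul_mem (key _ _ _ _ a1 a2 a3 a4) (key _ _ _ _ b1 b2 b3 b4)
      rwa [← LinearEquiv.coe_toLinearMap_mul, (cm' b1 b2 b3 b4).mul_mul_mul_comm, y2, mul_one,
        (cm w₁' w₂).mul_mul_mul_comm, ← ug_mul', ← ug_mul', LinearEquiv.coe_toLinearMap_mul, coe_ug,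
        coe_ug] at this
  have h3 := hb.mem (S.comap (kap (c.tp.tens j))) fun _ _ _ _ a1 a2 a3 a4 => by
    have := mul a1 fr.ha a3 hw' a2 fr.ha a4 hw'
    rwa [show (w' : End F W) * w' = 1 from congrArg LinearEquiv.toLinearMap (sq (hb'.isE fr.ha hw')),
      map_one, mul_one] at this
  have h4 := hb'.mem (S.comap (kap (c.tp.tens l))) fun _ _ _ _ a1 a2 a3 a4 => by
    have := mul fr.ha a1 hw a3 fr.ha a2 hw a4
    rwa [show (w : End F W) * w = 1 from congrArg LinearEquiv.toLinearMap (sq (hb.isE fr.ha hw)),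
      map_one, one_mul] at this
  have h5 : InC (T i) (cj g⁻¹ (kap (c.tp.tens j) b * kap (c.tp.tens l) b')) := S.mul_mem h3 h4
  rw [← coe_ug, ← coe_ug, ← LinearEquiv.coe_toLinearMap_mul, ← e, coe_conj, cj_inv_cj] at h5
  exact hz.not_inC _ h5

/-- A half turn fixes a unique coset. -/
theorem fuse (H : TP.IsWr T (g * ug (c.tp.tens i) z * g⁻¹)) : TP.IsWr T g := by
  have := (c.tp.tens i).finiteDimensional
  have hy := mul_mem (mul_mem hg (c.ug_mem hz i)) (inv_mem hg)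
  obtain ⟨_, _, _, _, ef⟩ := id hz
  have y2 := T3.Multi.sq_conj (ug_sq (c.tp.tens i) ef.sq) g
  obtain ⟨j, hj, h1⟩ : ∃ j ∈ s, g * ug (c.tp.tens i) z * g⁻¹ ∈ tensG (T j) := by
    obtain ⟨σ, hσ⟩ := H
    by_contra! h1
    refine trace_ne c.tp c.two_le (by
      rw [(c.tp.tens i).finrank_eq, c.m4.dim, Nat.cast_mul]
      exact mul_ne_zero c.dimU (by
        rw [show ((4 : ℕ) : F) = 2 * 2 by norm_num]; exact mul_ne_zero c.os.two c.os.two)) s _ y2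
      (fun j hj => ⟨σ j, fun h2 => h1 j hj (tensG_of_cj (c.tp.tens j) fun a ha => h2 ▸ hσ j a ha),
        hσ j⟩) (fun l hl => coe_conj g _ ▸ (inC_ug c.tp (by rintro rfl; exact hl hi) z).cj_of_mem
          (c.out l hl hg)) ?_
    obtain ⟨k, hk⟩ := ef.exists_anti
    have h2 := congrArg (LinearMap.trace F V) (cj_of_anti (k := ug (c.tp.tens i) k)
      (z := ug (c.tp.tens i) z) (by rw [← ug_mul', hk, ug_ng, ug_mul']))
    rw [map_neg] at h2
    have h3 := (LinearMap.trace_conj' _ (ug (c.tp.tens i) k)).symm.trans h2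
    rw [coe_conj]
    exact (LinearMap.trace_conj' _ g).trans (mul_left_cancel₀ c.os.two (by linear_combination h3))
  obtain ⟨a, b, h2, ⟨-, h3, h4⟩ | ⟨t, hb⟩⟩ := invol_tens (c.tf j) c.m4 h1 (c.le hy) y2
  · exact c.fuse_isom hi hg hz hj h4 h3 h2
  rcases c.cls with h3 | h3
  swap
  · obtain ⟨r₁, r₂, r₃, a1, a2, a3, a4⟩ := hb.exists_cj (c.tf j) c.m4 (a := a)
    have h4 : ug (c.tp.tens j) (r₁ * r₂ * r₃) ∈ X := 
      ug_mul' (c.tp.tens j) _ r₃ ▸ mul_mem (c.so j _ _ a1 a2) (h3 j _ a3)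
    refine (c.not_anti hi (mul_mem (mul_mem (inv_mem hg) h4) hg) hz (LinearEquiv.ext fun v => ?_)).elim
    simpa [← h2] using congrArg (fun x => g⁻¹ (x (g v))) a4
  obtain ⟨l, hl, hl'⟩ := c.two j
  obtain ⟨b', h4⟩ := exists_ug (c.tp.tens l) (k := lf (c.tp.tens j) a)
    (inE_of_two c.tp h3.1 hl'.symm (coe_lf (c.tp.tens j) a ▸ inC_mp _ _))
  have h5 : g * ug (c.tp.tens i) z * g⁻¹ = ug (c.tp.tens j) b * ug (c.tp.tens l) b' := by
    rw [h2, ← h4]; exact (c.tp.tens j).extE fun u y => by simp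
  obtain ⟨a₁, h6⟩ := exists_lf (c.tp.tens l) (inC_ug c.tp hl' b)
  obtain ⟨a', b'', h7, ⟨-, h8, h9⟩ | ⟨t', hb'⟩⟩ := invol_tens (c.tf l) c.m4
    (h5 ▸ mul_mem (h6 ▸ (c.tp.tens l).mpE_mem a₁ 1) (ug_mem _ _)) (c.le hy) y2
  · exact c.fuse_isom hi hg hz hl h9 h8 h7
  obtain ⟨μ, a1, a2, -⟩ := scal_of_mp (c.tp.tens l) (a := a'⁻¹ * a₁) (b := b''⁻¹ * b') fun u w => by
    have := congrArg (fun x => ((c.tp.tens l).mpE a' b'')⁻¹ (x (T l u w))) (h5.symm.trans h7)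
    simpa [h6, IsTens.mpE_inv] using this
  exact c.fuse_sim hi hg hz h3.1 hj hl'.symm hb (hb'.smul a1 fun y => by
    simpa using congrArg b'' (a2 y)) h5

omit hz in
theorem isWr : TP.IsWr T g := by
  have := c.finite i
  have sq : ∀ {z}, IsE f z → z * z = 1 := fun ⟨_, _, _, _, h⟩ => h.sq
  have ns : ∀ {z}, IsE f z → z ≠ 1 := fun ⟨_, _, _, _, h⟩ e => h.not_scalar 1 (by simp [e]; rfl)
  have M : T3.Multi ((WrG c.tp).comap X.subtype)
      (fun i : s => {y | ∃ z ∈ M0 f, IsE f z ∧ y.1 = ug (c.tp.tens i) z})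
      (fun i => ((M0 f).map (ugH (c.tp.tens i))).comap X.subtype)
      (fun i => (lf (c.tp.tens i)).range.comap X.subtype) := by
    refine ⟨?_, ?_, ?_, ?_, ?_, ?_, ?_, ?_, ?_, ?_, ?_⟩
    · rintro i y ⟨z, -, hz, e⟩ rfl
      exact hz.not_inC (c.tp.tens i) (e ▸ inC_one)
    · rintro i y ⟨z, -, hz, e⟩
      exact Subtype.ext (by rw [Subgroup.coe_mul, e, ug_sq _ (sq hz)]; rfl)
    · rintro i y ⟨z, -, -, e⟩
      exact (e ▸ c.tp.isWr_ug i z : TP.IsWr T y.1)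
    · rintro i y ⟨z, hz, -, e⟩
      exact ⟨z, hz, e.symm⟩
    · rintro i j hij y ⟨z, -, -, e⟩
      obtain ⟨a, ha⟩ := exists_lf (c.tp.tens j) (inC_ug c.tp (Subtype.coe_ne_coe.2 hij.symm) z)
      exact ⟨a, (e.trans ha).symm⟩
    · rintro i x ⟨z, -, e⟩ y ⟨a, e'⟩
      refine Subtype.ext ?_
      rw [Subgroup.coe_mul, Subgroup.coe_mul, show x.1 = ug _ z from e.symm,
        show y.1 = lf _ a from e'.symm, (comm_lf _ a z).eq]
    · rintro i x ⟨z, hz, e⟩ ⟨a, e'⟩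
      have h0 : InC (T i) (ug (c.tp.tens i) z : End F V) := by
        rw [show ug _ z = lf _ a from e.trans e'.symm, coe_lf]; exact inC_mp _ _
      obtain ⟨t, ht⟩ := scalar_of_inC_kap (c.tp.tens i) (coe_ug (c.tp.tens i) z ▸ h0)
      obtain ⟨v, _, _, _, fr⟩ := c.m4.exists_frame
      have h1 := iso (M0_le hz) v v
      have h2 : ∀ y, z y = t • y := LinearMap.congr_fun ht
      simp only [h2, map_smul, LinearMap.smul_apply, smul_eq_mul] at h1
      obtain rfl : z = 1 := by_contra fun h3 => (c.m4.isE_of_M0 hz (LinearEquiv.ext fun y => by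
        simp [h2, smul_smul, show t * t = 1 from mul_right_cancel₀ fr.ha (by linear_combination h1)])
        h3).not_inC _ h0
      exact Subtype.ext (e.symm.trans (map_one _))
    · rintro i x ⟨z, h1, hz, e⟩ y ⟨z', h2, hz', e'⟩ h3 h4
      have h5 : Commute z z' := ug_inj (c.tp.tens i) (by
        rw [ug_mul', ug_mul', ← e, ← e']; exact congrArg Subtype.val h4)
      exact ⟨_, mul_mem h1 h2, c.m4.isE_of_M0 (mul_mem h1 h2)
        (by rw [h5.symm.mul_mul_mul_comm, sq hz, sq hz', mul_one]) fun h6 => h3 (Subtype.ext (by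
          rw [e, e', mul_left_cancel ((sq hz).trans h6.symm)])), by rw [Subgroup.coe_mul, e, e', ug_mul']⟩
    · rintro i y ⟨z, -, ⟨_, _, _, _, hz⟩, e⟩
      obtain ⟨z', h1, h2, h3, h4⟩ := hz.exists_four
      exact ⟨⟨_, c.ge i z' h1⟩, ⟨z', h1, h2, rfl⟩,
        fun h5 => h3 (ug_inj _ ((congrArg Subtype.val h5).trans e)),
        Subtype.ext (by simp only [Subgroup.coe_mul, e, ← ug_mul', h4])⟩
    · rintro x ⟨σ, hσ⟩
      refine ⟨fun i => ⟨σ i, by_contra fun hl => hl (idx_eq c.tp c.two_le (fun b => by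
        simpa using (hσ i _ (inE_kap (c.tp.tens i) b)).cj_of_mem (inv_mem (c.out _ hl x.2))) ▸ i.2)⟩,
        fun i j e => Subtype.ext (σ.injective (congrArg Subtype.val e)), ?_⟩
      rintro i y ⟨z, h1, hz, e⟩
      obtain ⟨b, k, h2, h3, h4⟩ := exists_sim (c.tf i) (c.tf (σ i)) (c.le x.2) (hσ i)
      exact ⟨_, M0_conj h3 h2 h1, c.isE_conj x.2 hz (h4 z), by rw [← h4, ← e]; rfl⟩
    · rintro k y ⟨z, -, hz, e⟩ x hx
      exact c.fuse k.2 x.2 hz (e ▸ hx)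
  obtain ⟨_, _, _, _, fr⟩ := c.m4.exists_frame
  obtain ⟨_, ef⟩ := fr.exists_ef
  obtain ⟨z, h1, h2, -⟩ := ef.exists_four
  obtain ⟨j, hj, hj'⟩ := c.two i
  exact M.mem (i := ⟨j, hj⟩) (j := ⟨i, hi⟩) (by simpa) (z := ⟨_, c.ge j z h1⟩) ⟨z, h1, h2, rfl⟩
    (a := ⟨_, c.ge i z h1⟩) ⟨z, h1, h2, rfl⟩ ⟨g, hg⟩

end I4

theorem O4.isWr_aux [Finite F] (s : Finset τ) : ∀ X, O4 T h f β X → (∀ l, l ∉ s → X ≤ tensG (T l)) →
    ∀ g ∈ X, TP.IsWr T g := by
  classical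
  induction s using Finset.strongInduction with | _ s ih =>
  intro X c H g hg
  by_cases h2 : ∀ i, ∃ j ∈ s, j ≠ i
  · by_cases hτ : Nonempty τ
    swap
    · exact ⟨1, fun i => (hτ ⟨i⟩).elim⟩
    obtain ⟨i, hi, -⟩ := h2 hτ.some
    have k := ug_mem_tensG c.tp
    exact I4.isWr ⟨c, H, fun i hi y hy hy' => ih _ (s.erase_ssubset hi) (X ⊓ tensG (T i))
      ⟨⟨c.tp, c.tf, c.os, inf_le_left.trans c.le, fun j p hp g hg => ⟨c.eich j p hp g hg, k ..⟩,
        fun j l hl g hg => ⟨c.pair j l hl g hg, mul_mem (k ..) (k ..)⟩⟩, c.m4, c.dimU,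
        fun j p h0 hp q hq => c.rad j p h0 hp q hq.1, fun j r r' hr hr' => ⟨c.so j r r' hr hr', k ..⟩,
        fun j g hg => ⟨c.ge j g hg, k ..⟩, c.cls.imp_right fun h j r hr => ⟨h j r hr, k ..⟩⟩
      (fun l hl => by
        by_cases h3 : l = i
        exacts [h3 ▸ inf_le_right, inf_le_left.trans (H l (by simpa [h3] using hl))]) y ⟨hy, hy'⟩, h2⟩
      hi hg
  push Not at h2
  obtain ⟨i, hi⟩ := h2
  have h3 : ∀ l, l ≠ i → g ∈ tensG (T l) := fun l hl => H l (fun h => hl (hi l h)) hg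
  refine isWr_of c.tp c.two_le fun l => ⟨l, fun a ha => ?_⟩
  by_cases hl : l = i
  · exact inE_of_forall c.tp fun j hj =>
      ((c.tp.comm j l hj).inC (c.tp.tens j) ha).cj_of_mem (h3 j (hl ▸ hj))
  · exact ha.cj_of_mem (h3 l hl)

theorem O4.isWr [Finite F] (c : O4 T h f β X) (hg : g ∈ X) : TP.IsWr T g :=
  O4.isWr_aux Finset.univ X c (by simp) g hg

end Cfsg.Lib.Class.WrO
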