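import Cfsg.Agent.Class.WrO.K4h
import Cfsg.Agent.Class.Wr.Two3
import Cfsg.Agent.Class.Tens3.Max

/-!
The stabiliser in `Ω` of a tensor power of an orthogonal 4-space of minus type is maximal.
-/

set_option autoImplicit false
set_option linter.unusedSectionVars false

namespace Cfsg.Lib.Class.WrO

open Module Submodule Tens Tn FE AO Form Wr QuadraticMap Orth OMax Known

section Abs

variable {F U W V : Type*} [Field F] [AddCommGroup U] [Module F U] [AddCommGroup W] [Module F W]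
  [AddCommGroup V] [Module F V] [FiniteDimensional F U] [FiniteDimensional F W]
  {f : W →ₗ[F] W →ₗ[F] F} {X : Subgroup (V ≃ₗ[F] V)} {Q : QuadraticForm F V} {g : V ≃ₗ[F] V}
  [Finite F]

theorem spin_of_basis {T : U →ₗ[F] W →ₗ[F] V} {h : U →ₗ[F] U →ₗ[F] F} [FiniteDimensional F V]
    (t : TF T h 1 f 1 (polarBilin Q)) (h2 : (2 : F) ≠ 0) {ι : Type*} [Fintype ι] (u : Basis ι F U)
    (hu : h.IsOrthoᵢ u) {c : W} {r : W ≃ₗ[F] W} (hc : f c c ≠ 0) (hr : IsRf f c r)
    (hr' : ug t.hT r ∈ O Q) : spinA t.hm.nondeg ⟨_, hr'⟩ = sqs (∏ i, h (u i) (u i) / 2 * f c c) := by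
  have h0 : ∀ i, h (u i) (u i) ≠ 0 := fun i =>
    hu.not_isOrtho_basis_self_of_separatingLeft t.hf.nondeg.1 i
  have h1 : ∀ v ∈ Finset.univ.toList.map fun i => T (u i) c, Q v ≠ 0 := by
    simp [Q_tens t h2, h0, h2, hc]
  obtain ⟨h3, h4⟩ := list_refl h1 (List.pairwise_map.2 ((Finset.nodup_toList _).imp fun hij => by
    rw [← polarBilin_apply_apply, t.tens, hu hij, zero_mul]))
  have e : (⟨_, hr'⟩ : O Q) = ((Finset.univ.toList.map fun i => T (u i) c).map (refl Q)).prod := by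
    refine Subtype.ext (t.hT.extE fun x w => ?_)
    have h5 : T x w = T x (w - (f c w / f c c) • c) + (f c w / f c c) • T x c := by simp
    have h7 : f c (w - (f c w / f c c) • c) = 0 := by simp [hc]
    conv_rhs => rw [h5, map_add, map_smul, h4 _ (by
      simp only [List.forall_mem_map, ← polarBilin_apply_apply, t.tens, h7, mul_zero, implies_true])]
    have h6 : ((Finset.univ.toList.map fun i => T (u i) c).map (refl Q)).prod.1 (T x c) = -T x c := by
      rw [← u.sum_repr x]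
      simp only [map_sum, map_smul, LinearMap.sum_apply, LinearMap.smul_apply,
        ← Finset.sum_neg_distrib, ← smul_neg]
      exact Finset.sum_congr rfl fun i _ => congrArg _ (h3 _ (List.mem_map_of_mem (by simp)))
    rw [h6, ug_apply, hr w]
    simp only [map_sub, map_smul]
    match_scalars <;> ring
  rw [e, spinA_list_prod _ _ h1]
  simp [Q_tens t h2]

variable [Nontrivial U] [Nontrivial W] {τ : Type*} {T : τ → U →ₗ[F] W →ₗ[F] V}
  {h : τ → U →ₗ[F] U →ₗ[F] F} [Fintype τ] [DecidableEq τ]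

theorem _root_.Cfsg.Lib.Class.Wr.OW.isWr_four (c : OW T h f (polarBilin Q) X) (m4 : M4 f)
    (hX : X ≤ Om Q) (hX' : ∀ g ∈ Om Q, TP.IsWr T g → g ∈ X) (hL : ∀ i, L0 (c.tp.tens i) f X) {s : ℕ}
    (hτ : Fintype.card τ = s + 2) (hU : finrank F U = 4 ^ (s + 1)) (hg : g ∈ X) : TP.IsWr T g := by
  have h2 := c.two
  have hE : ¬ Exc Q := not_exc_of_two_ne_zero h2
  have h0 : Even (finrank F U) := by rw [hU, pow_succ]; exact Even.mul_left (by decide) _
  have oc := c.oc m4.toOS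
  have so : ∀ i r r', IsR f r → IsR f r' → ug (c.tp.tens i) (r * r') ∈ X := by
    rintro i r r' ⟨v, hv, hr⟩ ⟨v', hv', hr'⟩
    have := (c.tp.tens i).finiteDimensional
    obtain ⟨D, hD, H⟩ := exists_spin (c.tf i) h2
    have a1 := ug_mem_O (c.tf i) h2 (hr.isom m4.hm hv)
    have a2 := ug_mem_O (c.tf i) h2 (hr'.isom m4.hm hv')
    obtain ⟨b1, b2⟩ := H v r hv hr a1
    obtain ⟨b3, b4⟩ := H v' r' hv' hr' a2
    refine hX' _ (ug_mul' (c.tp.tens i) r r' ▸ (mem_Om (g := ⟨_, a1⟩ * ⟨_, a2⟩)).2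
      ((mem_commutator_O_iff (c.tf i).hm.nondeg hE _).2 ⟨?_, ?_⟩)) (c.tp.isWr_ug i _)
    · rw [← dickHom_apply (c.tf i).hm.nondeg hE, map_mul, dickHom_apply, dickHom_apply, b1, b3]; simp
    · rw [map_mul, b2, b4, sqs_mul hD (pow_ne_zero _ hv), sqs_mul hD (pow_ne_zero _ hv'), sqs_pow hv,
        sqs_pow hv', Int.units_pow_eq_pow_mod_two, Int.units_pow_eq_pow_mod_two (sqs (f v' v')),
        Nat.even_iff.1 h0]
      simp
  have dU : (finrank F U : F) ≠ 0 := by
    rw [hU, show 4 = 2 * 2 from rfl, Nat.cast_pow, Nat.cast_mul]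
    exact pow_ne_zero _ (mul_ne_zero h2 h2)
  have ge : ∀ i, ∀ g ∈ M0 f, ug (c.tp.tens i) g ∈ X := fun i g hg => c.ge i g (comm_le_OG f hg)
  rcases s with _ | s
  · refine O4.isWr ⟨oc, m4, dU, fun i p hp0 hp q hq hR => ?_, so, ge, .inl ⟨hτ, hU⟩⟩ hg
    have d : OCtx Q (T i) (h i) f 1 X :=
      { c.tf i with
        five := by rw [(c.tp.tens i).finrank_eq, hU, m4.dim]; norm_num
        sing := fun x y H => by rcases H with H | H <;> simp [Q_tens (c.tf i) h2, H]
        isoQ := fun m _ hm => isom_le_O h2 hm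
        le := hX
        ge := fun g h1 h3 => hX' g h3 (TP.isWr_of_tensG c.tp hτ.le h1) }
    obtain ⟨a, ha⟩ := (c.tp.tens i).flip.exists_of_fix (d.ctx.flip.loc_aniso h2 m4.three m4.idx
      (.inl hU.ge) hp0 hp (fun γ ⟨k, hk, e⟩ => inL_inj (c.tp.tens i) ((InC.eq_zero_of_mul (c.tp.tens i)
        (inC_mp _ γ) (m4.hm.xx_ne_zero hp0 hp0) (hL i p _ hp (inC_mp _ γ) ⟨k, hk, fun v => by
          rw [e, kap_eq, ← IsTens.mp_mul, one_mul, mul_one, xx, rk, IsTens.mp_smulRight']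
          rfl⟩)).trans (map_zero _).symm)) hq fun w => by
        rw [(mem_Rad.1 hR).2.1 _ ⟨w, rfl⟩]; exact ⟨w, rfl⟩) hp0 fun w => (mem_Rad.1 hR).2.1 _ ⟨w, rfl⟩
    exact ⟨a, (c.tp.tens i).extE fun u w => (ha w u).trans (ug_apply _ a u w).symm⟩
  have hR : ∀ i r, IsR f r → ug (c.tp.tens i) r ∈ X := by
    rintro i r ⟨v, hv, hr⟩
    have := (c.tp.tens i).finiteDimensional
    have := invertibleOfNonzero h2
    obtain ⟨j, hj⟩ := Fintype.exists_ne_of_one_lt_card (by omega) i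
    obtain ⟨S, k, t, -⟩ := exists_res (c.tf i) (c.tf j) (c.tp.comm i j hj.symm) h2 hv
      (U' := Fin (4 ^ (s + 1)) → F) (by simp [hU, m4.dim, pow_succ])
    obtain ⟨u, hu⟩ := LinearMap.BilinForm.exists_orthogonal_basis (B := k) ⟨t.hf.symm⟩
    obtain ⟨w, hw⟩ := LinearMap.BilinForm.exists_orthogonal_basis (B := f) ⟨m4.symm⟩
    have a1 := ug_mem_O (c.tf i) h2 (hr.isom m4.hm hv)
    obtain ⟨D, -, H⟩ := exists_spin (c.tf i) h2
    refine hX' _ ((mem_Om (g := ⟨_, a1⟩)).2 ((mem_commutator_O_iff (c.tf i).hm.nondeg hE _).2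
      ⟨(H v r hv hr a1).1.trans h0.neg_one_pow, (spin_of_basis (c.tf i) h2
        ((u.tensorProduct w).map t.hT.eqv) (fun x y hxy => ?_) hv hr a1).trans
          (sqs_of_isSquare ?_)⟩)) (c.tp.isWr_ug i _)
    · obtain ⟨x, x'⟩ := x
      obtain ⟨y, y'⟩ := y
      simp only [Function.onFun, Basis.map_apply, Basis.tensorProduct_apply, IsTens.eqv_tmul, t.tens]
      by_cases h1 : x = y
      · rw [hw (fun h3 => hxy (Prod.ext h1 h3)), mul_zero]
      · rw [hu h1, zero_mul]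
    have e1 : Even (finrank F W) := by rw [m4.dim]; decide
    have e2 : Even (finrank F (Fin (4 ^ (s + 1)) → F)) := by
      simpa [pow_succ] using Even.mul_left (by decide : Even 4) _
    simp only [Fintype.prod_prod_type, Basis.map_apply, Basis.tensorProduct_apply, IsTens.eqv_tmul,
      t.tens, mul_div_assoc, mul_assoc, Finset.prod_mul_distrib, Finset.prod_const, Finset.card_univ,
      Fintype.card_fin, Finset.prod_pow, Fintype.card_prod]
    exact (e1.isSquare_pow _).mul ((e2.isSquare_pow _).mul ((e1.mul_left _).isSquare_pow _))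
  exact O4.isWr ⟨oc, m4, dU, fun i p hp0 hp q hq h1 => (oc.rad (hL i)
    (.inr (.inr fun d r _ hd hr => hR i r ⟨d, hd, hr⟩)) hp0 hp hq h1).imp fun _ h => h.2, so, ge,
    .inr hR⟩ hg

end Abs

open Asch Matrix Cfsg.Geo
open scoped MatrixGroups

variable {F : Type*} [Field F] [Fintype F] {ι : Type} [Fintype ι] [DecidableEq ι] {s : ℕ}
  {e : ι ≃ (Fin (s + 1 + 1) → Fin 4)} {P : GL ι F} {Q : QuadraticForm F (ι → F)}
  {f : (Fin 4 → F) → (Fin 4 → F) → F}

theorem isMaximalIn_orth_four (hQ : (polarBilin Q).Nondegenerate) (h2 : (2 : F) ≠ 0)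
    (hf : IsSymmetricForm f) (hp : ¬ IsPlusTypeOn (fun v => f v v) ⊤)
    (hT : IsTensorPowerFormStructure id (polar Q) f e P) :
    IsMaximalIn (omegaGL Q) (tensorWreathSubgroup 4 (s + 1 + 1) e P ⊓ omegaGL Q) := by
  have hi : IdxOne (geoBilin hf.bilinear) := fun p z h0 a1 a2 a3 =>
    idxOne_of_not_isPlus (QA := LinearMap.BilinMap.toQuadraticMap (geoBilin hf.bilinear)) h2 (by simp)
      (fun h => hp (isPlusTypeOn_top_iff.2 h)) p z h0 (by simpa [polar_self, h2] using a1)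
      (by simpa [polar_self, h2] using a2) (by
        simpa [LinearMap.BilinMap.polar_toQuadraticMap, hf.symm z p, ← two_mul, h2] using a3)
  have os : OS (geoBilin hf.bilinear) := ⟨hm_of_symm h2 (geoBilin_nondegenerate _ hf.nondegenerate)
    hf.symm, h2, by simp, .inr (.inr ⟨by simp, hi⟩)⟩
  have hU := three_le_pow (F := F) (k := 4) (s := s + 1) (by omega) (by omega) (by omega)
  obtain ⟨c, -, H⟩ := IsTensorPowerFormStructure.ptw (σ := RingEquiv.refl F)
    (preSesq_of_isBilinearForm hf.bilinear) hT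
  replace H : ∀ x y, polarBilin Q (vec e P (ptw x)) (vec e P (ptw y)) =
    c * ∏ i, geoBilin hf.bilinear (x i) (y i) := H
  obtain ⟨h, t⟩ := exists_tf_tw (ε' := 1) H (by simpa using hm_of_symm h2 hQ (polar_comm Q)) os.hm
    fun i u w w' _ => ⟨_ / 2, by rw [one_mul, RingHom.id_apply, ← two_mul, mul_div_cancel₀ _ h2]⟩
  have hn : 9 ≤ finrank F (ι → F) := by rw [(t 0).hT.finrank_eq]; nlinarith [os.three]
  have hK : ∀ σ, ∃ n ∈ O Q, (tp_tw e P).Pm n σ := fun π => (exists_pm_isom H π).imp fun n h =>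
    ⟨isom_le_O h2 h.1, h.2.1⟩
  refine isMaximalIn_wreath e P (by omega) (G' := Om Q) (fun g => mem_omegaGL_iff.trans
      ⟨by rintro ⟨k, hk, rfl⟩; exact ⟨k, hk, (glLin_toGL k).symm⟩, fun ⟨k, hk, e⟩ =>
        ⟨k, hk, (glLin ι F).injective ((glLin_toGL k).trans e)⟩⟩) ?_ fun X hX hX' => ?_
  · obtain ⟨QA, QB, H', -⟩ := Tens.exists_sym (Q := Q) (T := tw e P 0) ⟨(t 0).tens, (t 0).hf.nondeg,
      os.hm.nondeg, eq_top_iff.2 fun v _ => (t 0).hT.mem_map₂_top_left.2 fun _ => trivial,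
      (t 0).hT.finrank_eq⟩ h2 (t 0).hf.symm os.symm
    obtain ⟨-, w, a2, a3, a4⟩ := H'.exists_singular h2 hU os.three
    obtain ⟨p, a5, a6⟩ := os.exists_iso
    have h3 : ∀ x, vec e P (ptw x) = tw e P 0 (ptw (Fin.removeNth 0 x)) (x 0) := fun x => by
      rw [tw_ptw, Fin.insertNth_self_removeNth]
    exact not_le_of_pure hQ (by simpa using hn.trans' (by norm_num))
      (T := fun x (_ : Unit) => vec e P (ptw x))
      (fun g hg x _ => (AL.wreath_mulVec_pure hg x).imp fun y h => ⟨(), h⟩)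
      ⟨⟨fun _ => p, (), AL.vec_ne_zero e P (ptw_ne_zero fun _ => a5), by
        rw [h3, Q_tens (t 0) h2, a6, mul_zero]⟩, w, a2, a3, fun x _ h => a4 _ _ (h.trans (h3 x))⟩
  · have c := ow_of (tp_tw e P) t h2 hK hX' (by omega) hX
    by_cases hL : ∀ i, L0 (c.tp.tens i) (geoBilin hf.bilinear) X
    · exact Or.inl fun _ => c.isWr_four ⟨os, by simp, hi⟩ hX hX' hL (s := s) (by simp) (by simp)
    · obtain ⟨i, hi⟩ := not_forall.1 hL
      exact Or.inr ((c.oc os).Om_le (hX.trans Om_le) c.alt hU hi)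

end Cfsg.Lib.Class.WrO
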