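import Cfsg.Agent.Class.WrO.Ctx

/-!
The radical of the stabiliser of `U ⊗ p` meets an overgroup without central terms in the factor
group.
-/

set_option autoImplicit false
set_option linter.unusedSectionVars false

namespace Cfsg.Lib.Class.WrO

open Module Submodule Tens Tn FE AO Form Wr
open LinearMap (range ker)

variable {F U W V : Type*} [Field F] [AddCommGroup U] [Module F U] [AddCommGroup W] [Module F W]
  [AddCommGroup V] [Module F V] [FiniteDimensional F U] [FiniteDimensional F W]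
  {f : W →ₗ[F] W →ₗ[F] F} {β : V →ₗ[F] V →ₗ[F] F} {X : Subgroup (V ≃ₗ[F] V)}
  {m γ : End F V} {p p' y y' δ : W} {q q' n : V ≃ₗ[F] V}

theorem OS.decomp_three (h : OS f) (h3 : finrank F W = 3) (hp : f p p = 0) (hp' : f p' p' = 0)
    (hpp : f p p' = 1) (h1 : f p δ = 0) (h2 : f p' δ = 0) (hδ : f δ δ ≠ 0) :
    xx f p p' + xx f p' p + (f δ δ)⁻¹ • xx f δ δ = 1 := by
  let φ : W →ₗ[F] Fin 3 → F := LinearMap.pi ![f p, f p', f δ]
  have h4 : Function.Injective φ := (LinearMap.injective_iff_surjective_of_finrank_eq_finrank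
    (by simp [h3])).2 fun v => ⟨v 1 • p + v 0 • p' + (v 2 / f δ δ) • δ, by
      ext i
      fin_cases i <;> simp [φ, hp, hp', hpp, h.symm p' p, h.symm δ p, h.symm δ p', h1, h2, hδ]⟩
  ext y
  refine h4 (funext fun i => ?_)
  fin_cases i <;> simp [φ, hp, hp', hpp, h.symm p' p, h.symm δ p, h.symm δ p', h1, h2]
  field_simp

theorem OS.spread_five (h : OS f) (h5 : 5 ≤ finrank F W) {K : Submodule F W} (hp0 : p ≠ 0)
    (h1 : f δ δ = 0) (h2 : f p δ = 0) (h3 : ∀ a : F, δ ≠ a • p) (hδ : δ ∈ K)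
    (H : ∀ z, f z z = 0 → ∀ g ∈ Rad f (span F {z}), g p = p → g δ ∈ K) (hy : f p y = 0) : y ∈ K := by
  obtain ⟨z, a1, a2, a3⟩ := h.hm.exists_hyp hp0 h1 h2 h3
  have a4 : ∀ u, f p u = 0 → f z u = 0 → u - (f u δ + f u u / 2) • z ∈ K := fun u b1 b2 => by
    have := sub_mem (H z a1 _ (eich_mem h.hm h.two a1 b2) (by
      simp [h.hm.eich_apply, h.symm z p, h.symm u p, a2, b1])) hδ
    convert this using 1
    simp only [h.hm.eich_apply, h.symm z δ, a3]
    module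
  obtain ⟨d, b1, b2⟩ := h.hm.exists_aniso h.two [p, z] (by simp; omega)
  have a5 : z ∈ K := by
    rw [← K.smul_mem_iff (neg_ne_zero.2 b2)]
    convert add_mem (a4 d (b1 p (by simp)) (b1 z (by simp)))
      (a4 (-d) (by simpa using b1 p (by simp)) (by simpa using b1 z (by simp))) using 1
    have := h.two
    simp only [map_neg, LinearMap.neg_apply, neg_neg]
    match_scalars <;> field_simp <;> ring
  simpa using add_mem (add_mem (a4 (y - f z y • δ) (by simp [hy, h2]) (by simp [h.symm z δ, a3]))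
    (K.smul_mem (f (y - f z y • δ) δ + f (y - f z y • δ) (y - f z y • δ) / 2) a5))
    (K.smul_mem (f z y) hδ)

section One

variable {T : U →ₗ[F] W →ₗ[F] V} {h : U →ₗ[F] U →ₗ[F] F}

/-- The first level coefficient of an element of the radical. -/
noncomputable def lv (hT : IsTens T) (f : W →ₗ[F] W →ₗ[F] F) (p' : W) (q : V ≃ₗ[F] V) :
    W →ₗ[F] End F V := cpL hT f ((q : End F V) - 1) p'

theorem inC_lv (hT : IsTens T) (y : W) : InC T (lv hT f p' q y) := inC_cpL _ _ _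

variable [Nontrivial U] [Nontrivial W] (t : TF T h 1 f 1 β)
include t

theorem rad_fix (hq : q ∈ Rad β (JL T.flip p)) (u : U) : q (T u p) = T u p :=
  (t.flip.mem_Rad_JL.1 hq).2.1 u

theorem conj_rad (hq : q ∈ Rad β (JL T.flip p)) (hn : n ∈ isomGroup β)
    (e : ∀ u, ∃ u', n (T u p) = T u' p) : n * q * n⁻¹ ∈ Rad β (JL T.flip p) := by
  have := t.hT.finiteDimensional
  have h1 : (JL T.flip p).map (n : End F V) = JL T.flip p := eq_of_le_of_finrank_eq (by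
    rintro _ ⟨_, ⟨u, rfl⟩, rfl⟩; exact (e u).imp fun _ h => h.symm) (n.finrank_map_eq _)
  refine conj_mem_Rad hq hn (fun v hv => h1.le ⟨v, hv, rfl⟩) fun v hv => ?_
  obtain ⟨w, hw, rfl⟩ := h1.ge hv
  simpa using hw

variable (hpp : f p' p = 1)
include hpp

theorem lv_apply (hq : q ∈ Rad β (JL T.flip p)) (hy : f p y = 0) (u : U) :
    q (T u y) = T u y + lv t.hT f p' q y (T u p) := by
  obtain ⟨u', e⟩ := (t.flip.mem_Rad_JL.1 hq).2.2 (T u y)
    (by rw [← T.flip_apply, t.flip.c_apply, hy, zero_smul])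
  simp [lv, cpL, cp_apply, e, hpp]

theorem lv_eq (hm : InC T m) (e : ∀ u, q (T u y) = T u y + m (T u p)) : lv t.hT f p' q y = m := by
  obtain ⟨a, ha⟩ := hm
  exact t.hT.ext fun u w => by simp [lv, cpL, cp_apply, e, ha, hpp]

theorem lv_self (hq : q ∈ Rad β (JL T.flip p)) : lv t.hT f p' q p = 0 :=
  lv_eq t hpp InC.zero fun u => by simp [rad_fix t hq]

theorem lv_mul (hq : q ∈ Rad β (JL T.flip p)) (hq' : q' ∈ Rad β (JL T.flip p)) (hy : f p y = 0) :
    lv t.hT f p' (q * q') y = lv t.hT f p' q y + lv t.hT f p' q' y :=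
  lv_eq t hpp ((inC_lv _ _).add (inC_lv _ _)) fun u => by
    obtain ⟨a, ha⟩ := inC_lv (f := f) (p' := p') (q := q') t.hT y
    simp only [LinearEquiv.mul_apply, lv_apply t hpp hq' hy, map_add, lv_apply t hpp hq hy, ha,
      rad_fix t hq, LinearMap.add_apply, add_assoc]

theorem lv_inv (hq : q ∈ Rad β (JL T.flip p)) (hy : f p y = 0) :
    lv t.hT f p' q⁻¹ y = -lv t.hT f p' q y := by
  rw [eq_neg_iff_add_eq_zero, ← lv_mul t hpp (inv_mem hq) hq hy, inv_mul_cancel]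
  exact lv_eq t hpp InC.zero fun u => by simp

theorem sub_mul_kap (hq : q ∈ Rad β (JL T.flip p)) (hy : f p y = 0) (w : W) :
    ((q : End F V) - 1) * kap t.hT (xx f y w) = lv t.hT f p' q y * kap t.hT (xx f p w) :=
  t.hT.ext fun u z => by simp [lv_apply t hpp hq hy]

theorem kap_mul_sub (hq : q ∈ Rad β (JL T.flip p)) (hy : f p y = 0) (w : W) :
    kap t.hT (xx f w y) * ((q : End F V) - 1) =
      -(adj β (lv t.hT f p' q y) * kap t.hT (xx f w p)) := by
  have := t.hT.finiteDimensional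
  simpa [t.hm.adj_mul, t.adj_kap, t.hh.adj_xx, t.hm.adj_sub, t.hm.adj_one, t.hm.adj_neg,
    t.hm.adj_coe (inv_mem hq.1), lv_inv t hpp hq hy, (t.inC_adj (inC_lv _ _)).comm_kap] using
    congrArg (adj β) (sub_mul_kap t hpp (inv_mem hq) hy w)

theorem lv_cj {g : W ≃ₗ[F] W} (hg : g ∈ isomGroup f) (e : ∀ ρ, cj n (kap t.hT ρ) = kap t.hT (cj g ρ))
    {s : F} (hs : g p = s • p) (hq : q ∈ Rad β (JL T.flip p))
    (hq' : n * q * n⁻¹ ∈ Rad β (JL T.flip p)) (hy : f p y = 0) :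
    lv t.hT f p' (n * q * n⁻¹) (g y) = s • cj n (lv t.hT f p' q y) := by
  have hp0 : p ≠ 0 := by rintro rfl; simp at hpp
  have hs0 : s ≠ 0 := by rintro rfl; simp [hp0] at hs
  have h1 := congrArg (cj n) (sub_mul_kap t hpp hq hy p)
  have h2 := sub_mul_kap t hpp hq' (y := g y) (by simpa [hs, hs0, hy] using iso hg p y) (g p)
  have h3 : InC T (cj n (lv t.hT f p' q y)) := inC_of_comm t.hT fun a ha => by
    obtain ⟨a, rfl⟩ := ha.exists_kap t.hT
    rw [← cj_cj_inv g a, ← e, ← map_mul, (inC_lv _ _).comm_kap, map_mul]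
  simp only [map_mul, map_sub, map_one, e, cj_xx _ _ hg] at h1
  refine eq_of_sub_eq_zero (((inC_lv _ _).sub (h3.smul s)).eq_zero_of_mul t.hT
    (t.hh.xx_ne_zero hp0 (by simpa using hp0 : g p ≠ 0)) ?_)
  rw [sub_mul, ← h2, show ((n * q * n⁻¹ : V ≃ₗ[F] V) : End F V) = cj n q from rfl, h1]
  nth_rw 1 [hs]
  simp [xx_smul_left]

theorem lv_ug {g : W ≃ₗ[F] W} (hg : g ∈ isomGroup f) (hs : g p = p) (hq : q ∈ Rad β (JL T.flip p))
    (hy : f p y = 0) : ug t.hT g * q * (ug t.hT g)⁻¹ ∈ Rad β (JL T.flip p) ∧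
      lv t.hT f p' (ug t.hT g * q * (ug t.hT g)⁻¹) (g y) = lv t.hT f p' q y := by
  have h1 := conj_rad t hq (t.ug_isom hg) fun u => ⟨u, by simp [hs]⟩
  refine ⟨h1, ?_⟩
  rw [lv_cj t hpp hg (cj_ug_kap _ g) (s := 1) (by simp [hs]) hq h1 hy, one_smul, (inC_lv _ _).cj_ug]

variable (hp : f p p = 0)
include hp

theorem sub_mul_sub (hq : q ∈ Rad β (JL T.flip p)) (hq' : q' ∈ Rad β (JL T.flip p)) :
    ∃ γ, InC T γ ∧ ((q : End F V) - 1) * ((q' : End F V) - 1) = γ * kap t.hT (xx f p p) := by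
  have := t.hT.finiteDimensional
  have h1 : ∀ {q q' : V ≃ₗ[F] V}, q ∈ Rad β (JL T.flip p) → q' ∈ Rad β (JL T.flip p) →
      ((q : End F V) - 1) * ((q' : End F V) - 1) * kap t.hT (xx f p' p) =
        ((q : End F V) - 1) * ((q' : End F V) - 1) := fun {q q'} hq hq' => t.hT.ext fun u y => by
    obtain ⟨a, ha⟩ := inC_lv (f := f) (p' := p') (q := q') t.hT (y - f p y • p')
    have h2 := lv_apply t hpp hq' (y := y - f p y • p') (by simp [t.hh.swap_one hpp]) u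
    rw [ha] at h2
    have h3 := congrArg q h2
    simp only [map_add, map_sub, map_smul, rad_fix t hq] at h2 h3
    simp only [End.mul_apply, kap_apply, xx_apply, LinearMap.sub_apply, LinearEquiv.coe_coe,
      End.one_apply, map_sub, map_smul]
    linear_combination (norm := module) h2 - h3
  have h2 := congrArg (adj β) (h1 (inv_mem hq') (inv_mem hq))
  simp only [t.hm.adj_mul, t.adj_kap, t.hh.adj_xx, t.hm.adj_sub, t.hm.adj_one, one_smul,
    t.hm.adj_coe (inv_mem hq.1), t.hm.adj_coe (inv_mem hq'.1), inv_inv] at h2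
  exact ⟨_, inC_cpL t.hT p' p', by rw [← kap_xx_mul, h2, h1 hq hq']⟩

theorem exists_split (hq : q ∈ Rad β (JL T.flip p))
    (H : ∀ y, f p y = 0 → ∃ c : F, lv t.hT f p' q y = c • 1) :
    ∃ b ∈ Rad f (span F {p}), ∃ γ, InC T γ ∧
      ∀ v, ((ug t.hT b)⁻¹ * q) v = v + (γ * kap t.hT (xx f p p)) v := by
  have := t.hT.finiteDimensional
  obtain ⟨u₀, hu⟩ := exists_ne (0 : U)
  obtain ⟨ξ, hξ⟩ := exists_dual_eq (K := F) hu 1
  obtain ⟨z, hz⟩ := t.hh.exists_eq_dual (ξ ∘ₗ t.hT.cR (f p') ∘ₗ ((q : End F V) - 1) ∘ₗ T u₀)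
  have h5 : ∀ y, f p y = 0 → ∀ u, q (T u y) = T u (y + f z y • p) := fun y hy u => by
    obtain ⟨c, hc⟩ := H y hy
    simp [lv_apply t hpp hq hy, hc, hz, hpp, hξ]
  obtain ⟨b, hb, c, -, e⟩ := t.hh.exists_eich hp (u := -z) (by
    rw [map_neg, t.hh.comm (u := z) (by simp [hz, rad_fix t hq]), neg_zero])
  have h6 : ∀ y, f p y = 0 → ∀ u, ((ug t.hT b)⁻¹ * q) (T u y) = T u y := fun y hy u =>
    (ug t.hT b).injective (by simp [h5 y hy, e, hy])
  have h7 : (ug t.hT b)⁻¹ * q ∈ Rad β (JL T.flip p) := mul_mem (inv_mem (ug_mem_Rad t hb)) hq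
  refine ⟨b, hb, ?_⟩
  generalize (ug t.hT b)⁻¹ * q = k at h6 h7
  obtain ⟨γ, hγ⟩ := t.flip.exists_gam hp (t.hh.swap_one hpp) h7 fun u => by
    obtain ⟨u', hu'⟩ := t.flip.mem_JL (x := p) (by rintro rfl; simp at hpp)
      (v := k (T u p') - T u p') fun y hy => t.hf.sep' _ fun v => by
        rw [← t.flip.left, map_sub, LinearMap.flip_apply, ← h6 y hy, iso h7.1, h6 y hy, sub_self]
    exact ⟨u', eq_add_of_sub_eq' hu'⟩
  exact ⟨t.hT.mp γ 1, inC_mp _ _, fun v => by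
    rw [hγ, kap_eq, ← t.hT.mp_mul, mul_one, one_mul, xx, rk, t.hT.mp_smulRight']; rfl⟩

variable (hL : L0 t.hT f X)
include hL

omit hpp in
theorem eq_of_L0 {k k' : V ≃ₗ[F] V} (hk : k ∈ X) (hk' : k' ∈ X) (e : ∀ u, k (T u p) = T u p)
    (hγ : InC T γ) (H : (k' : End F V) = k + γ * kap t.hT (xx f p p)) :
    γ * kap t.hT (xx f p p) = 0 := hL p γ hp hγ ⟨_, mul_mem (inv_mem hk) hk', fun v =>
  k.injective (by
    obtain ⟨a, ha⟩ := hγ
    have h1 : (k : End F V) * (γ * kap t.hT (xx f p p)) = γ * kap t.hT (xx f p p) :=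
      t.hT.ext fun u y => by simp [ha, e]
    rw [LinearEquiv.mul_apply, apply_inv_self, map_add, show k _ = _ from LinearMap.congr_fun h1 v]
    exact LinearMap.congr_fun H v)⟩

theorem lv_adj (h2 : (2 : F) ≠ 0) (hE : ∀ g ∈ Rad f (span F {p}), ug t.hT g ∈ X) (hqX : q ∈ X)
    (hq : q ∈ Rad β (JL T.flip p)) (hy : f p y = 0) :
    adj β (lv t.hT f p' q y) = lv t.hT f p' q y := by
  have := t.hT.finiteDimensional
  have hp0 : p ≠ 0 := by rintro rfl; simp at hpp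
  have h1 := eich_mem t.hh h2 hp hy
  have a1 := lv_apply t hpp hq hy
  have a2 : ∀ u, q (T u p) = T u p + (0 : End F V) (T u p) := fun u => by simp [rad_fix t hq]
  have a3 := (inC_lv (f := f) (p' := p') (q := q) t.hT y)
  refine (eq_of_sub_eq_zero ((a3.sub (t.inC_adj a3)).eq_zero_of_mul t.hT (t.hh.xx_ne_zero hp0 hp0)
    (eq_of_L0 t hp hL (hE _ h1) (mul_mem (mul_mem hqX (hE _ h1)) (inv_mem hqX))
      (fun u => by simp [(mem_Rad_span.1 h1).2.1]) (a3.sub (t.inC_adj a3)) ?_))).symm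
  rw [show ((q * ug t.hT _ * q⁻¹ : V ≃ₗ[F] V) : End F V) = cj q (ug t.hT _) from rfl, coe_ug,
    coe_eich, wd]
  simp only [map_sub, map_add, map_one, map_smul]
  rw [← one_mul (kap _ (xx f y p)), ← one_mul (kap _ (xx f p y)), ← one_mul (kap _ (xx f p p)),
    t.cj_eq hq.1 InC.zero inC_one a1 a2, t.cj_eq hq.1 a3 inC_one a2 a1,
    t.cj_eq hq.1 InC.zero inC_one a2 a2]
  simp only [t.hm.adj_zero, mul_zero, zero_mul, add_zero, mul_one, one_mul, sub_mul]
  abel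

theorem sub_comm (hqX : q ∈ X) (hq : q ∈ Rad β (JL T.flip p)) (hqX' : q' ∈ X)
    (hq' : q' ∈ Rad β (JL T.flip p)) : ∃ γ, InC T γ ∧
      ((q : End F V) - 1) * ((q' : End F V) - 1) = γ * kap t.hT (xx f p p) ∧
      ((q' : End F V) - 1) * ((q : End F V) - 1) = γ * kap t.hT (xx f p p) := by
  obtain ⟨γ, h1, h2⟩ := sub_mul_sub t hpp hp hq hq'
  obtain ⟨γ', h3, h4⟩ := sub_mul_sub t hpp hp hq' hq
  have := eq_of_L0 t hp hL (mul_mem hqX' hqX) (mul_mem hqX hqX') (rad_fix t (mul_mem hq' hq))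
    (h1.sub h3) (by
      rw [sub_mul, ← h2, ← h4, LinearEquiv.coe_toLinearMap_mul, LinearEquiv.coe_toLinearMap_mul]
      noncomm_ring)
  exact ⟨γ, h1, h2, by rw [h4]; rw [sub_mul, sub_eq_zero] at this; exact this.symm⟩

omit hpp hp hL in
/-- The endomorphisms of the factor which transpose two elements of the radical. -/
def SS (q q' : V ≃ₗ[F] V) : Submodule F (End F W) where
  carrier := {ρ | ((q : End F V) - 1) * kap t.hT ρ * ((q' : End F V) - 1) =
    ((q' : End F V) - 1) * kap t.hT (adj f ρ) * ((q : End F V) - 1)}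
  zero_mem' := by simp [t.hh.adj_zero]
  add_mem' a b := by
    simp only [Set.mem_ofPred_eq, t.hh.adj_add, map_add, mul_add, add_mul] at a b ⊢
    rw [a, b]
  smul_mem' s _ a := by
    simp only [Set.mem_ofPred_eq, t.hh.adj_smul, map_smul, mul_smul_comm, smul_mul_assoc,
      RingHom.id_apply] at a ⊢
    rw [a]

theorem coe_mem_SS (hqX : q ∈ X) (hq : q ∈ Rad β (JL T.flip p)) (hqX' : q' ∈ X)
    (hq' : q' ∈ Rad β (JL T.flip p)) {g : W ≃ₗ[F] W} (hg : g ∈ isomGroup f) (hs : g p = p)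
    (hgX : ug t.hT g ∈ X) : (g : End F W) ∈ SS t q q' := by
  obtain ⟨γ, h1, h2, h3⟩ := sub_comm t hpp hp hL hqX hq
    (mul_mem (mul_mem hgX hqX') (inv_mem hgX)) (lv_ug t hpp hg hs hq' hp).1
  have h4 : ((ug t.hT g * q' * (ug t.hT g)⁻¹ : V ≃ₗ[F] V) : End F V) - 1 =
      kap t.hT g * ((q' : End F V) - 1) * kap t.hT (g⁻¹ : W ≃ₗ[F] W) := by
    rw [← coe_ug, ← coe_ug, ← ug_inv, ← cj_eq_mul, map_sub, map_one]; rfl
  have h5 : kap t.hT (g⁻¹ : W ≃ₗ[F] W) * kap t.hT g = 1 := by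
    rw [← map_mul, ← LinearEquiv.coe_toLinearMap_mul, inv_mul_cancel]; exact map_one _
  rw [h4] at h2 h3
  have h6 := congrArg (· * kap t.hT g) h2
  have h7 := congrArg (kap t.hT (g⁻¹ : W ≃ₗ[F] W) * ·) h3
  have h8 : xx f p p * g = xx f p p := by ext y; simp [← iso hg p y, hs]
  have h9 : ((g⁻¹ : W ≃ₗ[F] W) : End F W) * xx f p p = xx f p p := by
    ext y; simp [show g.symm p = p from g.injective (by simp [hs])]
  simp only [mul_assoc, h5, mul_one] at h6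
  rw [← map_mul, h8] at h6
  simp only [← mul_assoc, h5, one_mul, h1.comm_kap] at h7
  rw [mul_assoc γ, ← map_mul, h9] at h7
  show _ = _
  rw [t.hh.adj_coe hg, h7, mul_assoc, h6]

omit hL in
theorem comm_of_SS (hq : q ∈ Rad β (JL T.flip p)) (hq' : q' ∈ Rad β (JL T.flip p))
    (hy : f p y = 0) (hy' : f p y' = 0) (a : adj β (lv t.hT f p' q y) = lv t.hT f p' q y)
    (a' : adj β (lv t.hT f p' q' y') = lv t.hT f p' q' y') (H : xx f y y' ∈ SS t q q') :
    lv t.hT f p' q y * lv t.hT f p' q' y' = lv t.hT f p' q' y' * lv t.hT f p' q y := by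
  have hp0 : p ≠ 0 := by rintro rfl; simp at hpp
  replace H : _ = _ := H
  rw [t.hh.adj_xx, one_smul, sub_mul_kap t hpp hq hy, sub_mul_kap t hpp hq' hy', mul_assoc,
    mul_assoc, kap_mul_sub t hpp hq hy, kap_mul_sub t hpp hq' hy', a, a'] at H
  refine eq_of_sub_eq_zero ((((inC_lv _ _).mul (inC_lv _ _)).sub
    ((inC_lv _ _).mul (inC_lv _ _))).eq_zero_of_mul t.hT (t.hh.xx_ne_zero hp0 hp0) ?_)
  rw [sub_mul, mul_assoc, mul_assoc, sub_eq_zero, ← neg_inj, ← mul_neg, H, mul_neg]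

omit hpp hp hL in
/-- The directions whose coefficients commute with `m`. -/
def KK (X : Subgroup (V ≃ₗ[F] V)) (p p' : W) (m : End F V) : Submodule F W where
  carrier := {y | ∀ q ∈ X, q ∈ Rad β (JL T.flip p) →
    lv t.hT f p' q y * m = m * lv t.hT f p' q y}
  zero_mem' := by simp
  add_mem' a b q h1 h2 := by rw [map_add, add_mul, mul_add, a q h1 h2, b q h1 h2]
  smul_mem' s _ a q h1 h2 := by rw [map_smul, smul_mul_assoc, mul_smul_comm, a q h1 h2]

omit hp hL in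
theorem self_mem_KK : p ∈ KK t X p p' m := fun q _ hq => by simp [lv_self t hpp hq]

omit hp hL in
theorem apply_mem_KK {g : W ≃ₗ[F] W} (a1 : g ∈ isomGroup f) (a2 : g p = p) (a3 : ug t.hT g ∈ X)
    (a4 : y ∈ KK t X p p' m) (a5 : f p y = 0) : g y ∈ KK t X p p' m := fun q a6 a7 => by
  obtain ⟨b1, b2⟩ := lv_ug t hpp (inv_mem a1) (g.injective (by simp [a2])) a7 (y := g y)
    (by rw [← a2, iso a1, a5])
  rw [← b2, inv_apply_self]
  exact a4 _ (by rw [← ug_inv, inv_inv]; exact mul_mem (mul_mem (inv_mem a3) a6) a3) b1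

variable [Finite F] (os : OS f) (hE : ∀ z, f z z = 0 → ∀ g ∈ Rad f (span F {z}), ug t.hT g ∈ X)
include os hE

theorem mem_KK (hy : f p y = 0) (H : ∀ q ∈ X, q ∈ Rad β (JL T.flip p) → xx f y y ∈ SS t q q')
    (a1 : q' ∈ X) (a2 : q' ∈ Rad β (JL T.flip p)) : y ∈ KK t X p p' (lv t.hT f p' q' y) :=
  fun q a3 a4 => comm_of_SS t hpp hp a4 a2 hy hy (lv_adj t hpp hp hL os.two (hE p hp) a3 a4 hy)
    (lv_adj t hpp hp hL os.two (hE p hp) a1 a2 hy) (H q a3 a4)

omit os hE in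
theorem one_mem_SS (a1 : q ∈ X) (a2 : q ∈ Rad β (JL T.flip p)) (a3 : q' ∈ X)
    (a4 : q' ∈ Rad β (JL T.flip p)) : 1 ∈ SS t q q' := by
  obtain ⟨γ, -, h2, h3⟩ := sub_comm t hpp hp hL a1 a2 a3 a4
  show _ = _
  rw [t.hh.adj_one, map_one, mul_one, mul_one, h2, h3]

theorem mem_KK_three (hk : finrank F W = 3) (a1 : f p δ = 0) (a2 : f δ δ ≠ 0) (b3 : q' ∈ X)
    (b4 : q' ∈ Rad β (JL T.flip p)) (hy : f p y = 0) : y ∈ KK t X p p' (lv t.hT f p' q' δ) := by
  have := t.hT.finiteDimensional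
  obtain ⟨s, c1, c2⟩ := os.hm.partner hp (y := p' - (f δ p' / f δ δ) • δ)
    (by simp [a1, os.symm p p', hpp])
  have e := os.decomp_three hk hp c1 c2 a1 (by simp [os.symm p' δ, a1, a2]) a2
  generalize p' - (f δ p' / f δ δ) • δ - s • p = r at e
  have h1 : δ ∈ KK t X p p' (lv t.hT f p' q' δ) := by
    refine mem_KK t hpp hp hL os hE a1 (fun q b1 b2 => ?_) b3 b4
    rw [← smul_mem_iff _ (inv_ne_zero a2), eq_sub_of_add_eq' e]
    refine sub_mem (one_mem_SS t hpp hp hL b1 b2 b3 b4) (add_mem ?_ ?_) <;> show _ = _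
    · rw [os.hm.adj_xx, one_smul, sub_mul_kap t hpp b2 hp, mul_assoc _ (kap _ _),
        mul_assoc _ (kap _ _), kap_mul_sub t hpp b2 hp, lv_self t hpp b2]
      simp [t.hm.adj_zero]
    · rw [os.hm.adj_xx, one_smul, sub_mul_kap t hpp b4 hp, mul_assoc _ (kap _ _),
        kap_mul_sub t hpp b4 hp, lv_self t hpp b4]
      simp [t.hm.adj_zero]
  have b1 := LinearMap.congr_fun e y
  simp only [LinearMap.add_apply, LinearMap.smul_apply, xx_apply, hy, zero_smul, add_zero,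
    End.one_apply] at b1
  rw [← b1]
  exact add_mem (smul_mem _ _ (self_mem_KK t hpp)) (smul_mem _ _ (smul_mem _ _ h1))

theorem mem_KK_five (hk : 5 ≤ finrank F W) (b1 : f δ δ = 0) (b2 : f p δ = 0) (b3 : q' ∈ X)
    (b4 : q' ∈ Rad β (JL T.flip p)) (hy : f p y = 0) : y ∈ KK t X p p' (lv t.hT f p' q' δ) := by
  have hp0 : p ≠ 0 := by rintro rfl; simp at hpp
  have h2 := os.two
  by_cases hd : ∀ s : F, δ ≠ s • p
  swap
  · obtain ⟨s, rfl⟩ := not_forall_not.1 hd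
    exact fun q _ _ => by simp [lv_self t hpp b4]
  have b5 : δ ∈ KK t X p p' (lv t.hT f p' q' δ) := by
    refine mem_KK t hpp hp hL os hE b2 (fun q c1 c2 => ?_) b3 b4
    obtain ⟨e, c5, c6⟩ := os.hm.exists_aniso h2 [p, δ] (by simp; omega)
    have c7 := c5 δ (by simp)
    have c8 := eich_mem os.hm h2 b1 c7
    have c9 : os.hm.eich b1 c7 (f e e / 2) p = p := by
      simp [os.hm.eich_apply, os.symm δ p, os.symm e p, b2, c5 p (by simp)]
    have d1 := coe_mem_SS t hpp hp hL c1 c2 b3 b4 c8.1 c9 (hE δ b1 _ c8)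
    have d2 := coe_mem_SS t hpp hp hL c1 c2 b3 b4 (inv_mem c8.1)
      ((os.hm.eich b1 c7 (f e e / 2)).injective (by simp [c9])) (hE δ b1 _ (inv_mem c8))
    rw [coe_eich] at d1
    rw [coe_eich_inv os.hm h2] at d2
    rw [← smul_mem_iff _ c6]
    convert sub_mem (smul_mem _ 2 (one_mem_SS t hpp hp hL c1 c2 b3 b4)) (add_mem d1 d2) using 1
    match_scalars <;> field_simp <;> ring
  exact os.spread_five hk hp0 b1 b2 hd b5
    (fun z c1 g c2 c3 => apply_mem_KK t hpp c2.1 c3 (hE z c1 g c2) b5 b2) hy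

theorem mem_KK_rf (hk : ∀ c r, f p c = 0 → f c c ≠ 0 → IsRf f c r → ug t.hT r ∈ X)
    (a1 : f p δ = 0) (a2 : f δ δ ≠ 0) (b3 : q' ∈ X) (b4 : q' ∈ Rad β (JL T.flip p))
    (hy : f p y = 0) : y ∈ KK t X p p' (lv t.hT f p' q' δ) := by
  have hp0 : p ≠ 0 := by rintro rfl; simp at hpp
  have k6 : ∀ d, f p d = 0 → f d d ≠ 0 → ∃ r, IsRf f d r ∧ r ∈ isomGroup f ∧ r p = p ∧
      ug t.hT r ∈ X := fun d a1 a2 => by
    obtain ⟨r, hr⟩ := exists_rf os.hm a2
    exact ⟨r, hr, hr.isom os.hm a2, by simp [hr _, os.symm d p, a1], hk d r a1 a2 hr⟩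
  have h1 : δ ∈ KK t X p p' (lv t.hT f p' q' δ) := by
    refine mem_KK t hpp hp hL os hE a1 (fun q b1 b2 => ?_) b3 b4
    obtain ⟨r, c1, c2, c3, c4⟩ := k6 δ a1 a2
    have := sub_mem (one_mem_SS t hpp hp hL b1 b2 b3 b4)
      (coe_mem_SS t hpp hp hL b1 b2 b3 b4 c2 c3 c4)
    rwa [c1.coe, sub_sub_cancel, smul_mem_iff _ (div_ne_zero os.two a2)] at this
  refine os.spread hp0 hp a1 a2 h1 (fun d c5 c6 c7 => ?_) hy
  obtain ⟨r, c1, c2, c3, c4⟩ := k6 d c5 c6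
  have := sub_mem h1 (apply_mem_KK t hpp c2 c3 c4 h1 a1)
  rwa [c1, sub_sub_cancel, smul_mem_iff _
    (mul_ne_zero (div_ne_zero os.two c6) (os.hm.ne_comm c7))] at this

/-- The first level coefficients commute. -/
theorem lv_comm (hk : finrank F W = 3 ∨ 5 ≤ finrank F W ∨
    ∀ c r, f p c = 0 → f c c ≠ 0 → IsRf f c r → ug t.hT r ∈ X) (hqX : q ∈ X)
    (hq : q ∈ Rad β (JL T.flip p)) (hqX' : q' ∈ X) (hq' : q' ∈ Rad β (JL T.flip p))
    (hy : f p y = 0) (hy' : f p y' = 0) :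
    lv t.hT f p' q y * lv t.hT f p' q' y' = lv t.hT f p' q' y' * lv t.hT f p' q y := by
  have hp0 : p ≠ 0 := by rintro rfl; simp at hpp
  suffices y' ∈ KK t X p p' (lv t.hT f p' q y) from (this q' hqX' hq').symm
  rcases hk with hk | hk | hk
  · exact os.mem_of_aniso hp0 hp (fun d a1 a2 q' a3 a4 =>
      (mem_KK_three t hpp hp hL os hE hk a1 a2 a3 a4 hy q hqX hq).symm) hy'
  · obtain ⟨δ, a1, a2, a3, a4⟩ := exists_iso_orth f hk p p'
    exact os.hm.iso_span (K := KK t X p p' _) hp0 a2 a3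
      (os.hm.ne_smul_of (os.hm.swap_one hpp) a1 a4)
      (fun d a1 a2 q' a3 a4 => (mem_KK_five t hpp hp hL os hE hk a1 a2 a3 a4 hy q hqX hq).symm) hy'
  · exact os.mem_of_aniso hp0 hp (fun d a1 a2 q' a3 a4 =>
      (mem_KK_rf t hpp hp hL os hE hk a1 a2 a3 a4 hy q hqX hq).symm) hy'

end One

variable {τ : Type*} {T : τ → U →ₗ[F] W →ₗ[F] V} {h : τ → U →ₗ[F] U →ₗ[F] F} {a : τ}
  [Finite F] [Nontrivial U] [Nontrivial W] [Fintype τ]

/-- The radical meets the overgroup in the factor group. -/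
theorem OC.rad (c : OC T h f β X) (hL : L0 (c.tp.tens a) f X) (hk : finrank F W = 3 ∨
    5 ≤ finrank F W ∨ ∀ d r, f p d = 0 → f d d ≠ 0 → IsRf f d r → ug (c.tp.tens a) r ∈ X)
    (hp0 : p ≠ 0) (hp : f p p = 0) (hqX : q ∈ X) (hq : q ∈ Rad β (JL (T a).flip p)) :
    ∃ b ∈ Rad f (span F {p}), q = ug (c.tp.tens a) b := by
  have t := c.tf a
  obtain ⟨p', hpp⟩ := c.os.hm.exists_eq_one hp0
  rw [c.os.symm] at hpp
  let M := span F {m | ∃ q ∈ X, q ∈ Rad β (JL (T a).flip p) ∧ ∃ y, f p y = 0 ∧ m = lv t.hT f p' q y}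
  have h1 : c.tp.Inv (isomGroup f) (· ∈ M) := fun j g hg x hx => by
    refine span_induction (p := fun x _ => cj (ug (c.tp.tens j) g) x ∈ M) ?_ (by simp)
      (fun _ _ _ _ h1 h2 => by simpa using add_mem h1 h2)
      (fun s _ _ h1 => by simpa using smul_mem _ s h1) hx
    rintro _ ⟨q, hqX, hq, y, hy, rfl⟩
    by_cases hj : j = a
    · subst hj
      rw [(inC_lv _ _).cj_ug]
      exact subset_span ⟨q, hqX, hq, y, hy, rfl⟩
    obtain ⟨k, a1, a2, s, a3, a4⟩ := c.exists_move a (p := g⁻¹ p) (by simpa using hp0)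
      (by rw [iso (inv_mem hg), hp]) hp0 hp
    have a5 := mul_mem a1 (c.pair j a hj g hg)
    have a6 := conj_rad t hq (c.le a5) fun u => by
      obtain ⟨b, hb⟩ := c.tp.inC_kap (Ne.symm hj) (g : End F W)
      rw [← coe_ug] at hb
      exact ⟨s • b u, by
        rw [LinearEquiv.mul_apply, LinearEquiv.mul_apply, ug_apply, show ug _ g _ = _ from hb _ _,
          ug_apply, a4]; simp⟩
    have a7 := lv_cj t hpp (mul_mem a2 (inv_mem hg)) (fun ρ => by
      simp only [cj_mul, cj_ug_kap, c.tp.cj_kap hj]) (s := s) a4 hq a6 hy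
    simp only [cj_mul, (inC_lv _ _).cj_ug, (c.tp.inC_cj (inC_lv _ _) j g).cj_ug] at a7
    rw [← M.smul_mem_iff a3, ← a7]
    exact subset_span ⟨_, mul_mem (mul_mem a5 hqX) (inv_mem a5), a6, _, by
      have := iso (mul_mem a2 (inv_mem hg)) p y
      rw [show (k * g⁻¹) p = _ from a4] at this
      simpa [a3, hy] using this, rfl⟩
  have h2 : ∀ x ∈ M, ∀ y ∈ M, x * y = y * x := fun x hx y hy => by
    refine span_induction₂ (p := fun x y _ _ => x * y = y * x) ?_ (by simp) (by simp)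
      (fun _ _ _ _ _ _ h1 h2 => by rw [add_mul, mul_add, h1, h2])
      (fun _ _ _ _ _ _ h1 h2 => by rw [add_mul, mul_add, h1, h2])
      (fun _ _ _ _ _ h1 => by simp [h1]) (fun _ _ _ _ _ h1 => by simp [h1]) hx hy
    rintro _ _ ⟨q, hqX, hq, y, hy, rfl⟩ ⟨q', hqX', hq', y', hy', rfl⟩
    exact lv_comm t hpp hp hL c.os (c.eich a) hk hqX hq hqX' hq' hy hy'
  obtain ⟨b, hb, γ, hγ, e⟩ := exists_split t hpp hp hq fun y hy => c.step.scalar_of_comm
    (by have := c.os.three; omega) h1 h2 (subset_span ⟨q, hqX, hq, y, hy, rfl⟩)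
  have h1 := hL p γ hp hγ ⟨_, mul_mem (inv_mem (c.eich a p hp b hb)) hqX, e⟩
  exact ⟨b, hb, (inv_mul_eq_one.1 (LinearEquiv.ext fun v => by simp only [e, h1]; simp)).symm⟩

/-- The radical statement in coordinates. -/
theorem _root_.Cfsg.Lib.Class.Wr.OW.rad_three [DecidableEq τ] (c : OW T h f β X)
    (h3 : finrank F W = 3) (h5 : ∃ s : F, s ≠ 0 ∧ s ^ 2 ≠ 1) (hL : L0 (c.tp.tens a) f X)
    (hp0 : p ≠ 0) (hp : f p p = 0) (hqX : q ∈ X) (h1 : ∀ u, q (T a u p) = T a u p)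
    (h2 : ∀ u y, f p y = 0 → ∃ u', q (T a u y) = T a u y + T a u' p) :
    ∃ b ∈ Rad f (span F {p}), q = ug (c.tp.tens a) b :=
  (c.oc ⟨(c.tf a).hh, c.two, h3.ge, Or.inl h5⟩).rad hL (Or.inl h3) hp0 hp hqX
    ((c.tf a).flip.mem_Rad_JL.2 ⟨c.le hqX, h1, fun v =>
      (c.tf a).flip.ind_orth (P := fun v => ∃ u, q v = v + T a u p) ⟨0, by simp⟩ (by
        rintro u v ⟨u', hu⟩ ⟨v', hv⟩
        exact ⟨u' + v', by simp only [map_add, hu, hv, LinearMap.add_apply]; abel⟩)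
        fun y u hy => h2 u y hy⟩)

end Cfsg.Lib.Class.WrO
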