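import Cfsg.Agent.Class.Wr.Ring
import Cfsg.Agent.Class.Tens3.Loc

/-!
Orthogonal spaces in odd characteristic: spanning lemmas used for tensor powers.
-/

set_option autoImplicit false
set_option linter.unusedSectionVars false

namespace Cfsg.Lib.Class.WrO

open Module Submodule Tens Tn FE AO Form Wr
open LinearMap (range ker)

variable {F W : Type*} [Field F] [AddCommGroup W] [Module F W] [FiniteDimensional F W]
  {f : W →ₗ[F] W →ₗ[F] F}

/-- The skew rank two map. -/
def wd (f : W →ₗ[F] W →ₗ[F] F) (w δ : W) : End F W := xx f w δ - xx f δ w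

theorem wd_apply (w δ y : W) : wd f w δ y = f δ y • w - f w y • δ := rfl

theorem wd_add_left (w w' δ : W) : wd f (w + w') δ = wd f w δ + wd f w' δ := by
  ext y; simp only [wd_apply, map_add, LinearMap.add_apply]; module

theorem wd_smul_left (c : F) (w δ : W) : wd f (c • w) δ = c • wd f w δ := by
  ext y; simp only [wd_apply, map_smul, LinearMap.smul_apply, smul_eq_mul]; module

theorem wd_smul_right (c : F) (w δ : W) : wd f w (c • δ) = c • wd f w δ := by
  ext y; simp only [wd_apply, map_smul, LinearMap.smul_apply, smul_eq_mul]; module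

@[simp] theorem wd_self (w : W) : wd f w w = 0 := sub_self _

@[simp] theorem wd_zero_left (w : W) : wd f 0 w = 0 := by simp [wd]

@[simp] theorem wd_zero_right (w : W) : wd f w 0 = 0 := by simp [wd]

theorem cj_wd (w δ : W) {g : W ≃ₗ[F] W} (hg : g ∈ isomGroup f) :
    cj g (wd f w δ) = wd f (g w) (g δ) := by simp only [wd, map_sub, cj_xx _ _ hg]

/-- `r` is the reflection in `c`. -/
def IsRf (f : W →ₗ[F] W →ₗ[F] F) (c : W) (r : W ≃ₗ[F] W) : Prop :=
  ∀ y, r y = y - (2 / f c c * f c y) • c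

/-- The orthogonal spaces which occur as tensor factors. -/
structure OS (f : W →ₗ[F] W →ₗ[F] F) : Prop where
  hm : Hm f 1
  two : (2 : F) ≠ 0
  three : 3 ≤ finrank F W
  big : (∃ a : F, a ≠ 0 ∧ a ^ 2 ≠ 1) ∨ 5 ≤ finrank F W ∨ 4 ≤ finrank F W ∧ IdxOne f

/-- `G` contains the Eichler transformations. -/
def HasE (f : W →ₗ[F] W →ₗ[F] F) (G : Subgroup (W ≃ₗ[F] W)) : Prop :=
  ∀ z, f z z = 0 → Rad f (span F {z}) ≤ G

/-- `G` contains the reflections which fix a singular vector. -/
def HasR (f : W →ₗ[F] W →ₗ[F] F) (G : Subgroup (W ≃ₗ[F] W)) : Prop :=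
  ∀ z c r, z ≠ 0 → f z z = 0 → f z c = 0 → f c c ≠ 0 → IsRf f c r → r ∈ G

theorem hasE_isom : HasE f (isomGroup f) := fun _ _ _ hg => hg.1

section Hm

variable (hf : Hm f 1) {c p z : W} {r : W ≃ₗ[F] W}
include hf

theorem exists_rf (hc : f c c ≠ 0) : ∃ r, IsRf f c r :=
  let ⟨r, _, h, _⟩ := hf.exists_refl hc; ⟨r, h⟩

theorem IsRf.isom (hc : f c c ≠ 0) (h : IsRf f c r) : r ∈ isomGroup f := by
  obtain ⟨r', h1, h2, -⟩ := hf.exists_refl hc
  rwa [show r = r' from LinearEquiv.ext fun y => by rw [h, h2]]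

theorem IsRf.inv (hc : f c c ≠ 0) (h : IsRf f c r) : r⁻¹ = r := by
  obtain ⟨r', -, h2, h3⟩ := hf.exists_refl hc
  obtain rfl : r = r' := LinearEquiv.ext fun y => by rw [h, h2]
  exact LinearEquiv.ext h3

omit hf in
theorem IsRf.coe (h : IsRf f c r) : (r : End F W) = 1 - (2 / f c c) • xx f c c := by
  ext y; simp [h y, smul_smul]

omit hf in
theorem IsRf.conj (h : IsRf f c r) {g : W ≃ₗ[F] W} (hg : g ∈ isomGroup f) :
    IsRf f (g c) (g * r * g⁻¹) := fun y => by
  obtain ⟨y, rfl⟩ := g.surjective y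
  simp [h y, iso hg]

theorem hasR_isom : HasR f (isomGroup f) := fun _ _ _ _ _ _ hc h => h.isom hf hc

theorem adj_wd (w δ : W) : adj f (wd f w δ) = -wd f w δ := by
  simp [wd, hf.adj_sub, hf.adj_xx]

theorem wd_mul_self (hz : f z z = 0) (hc : f z c = 0) :
    wd f c z * wd f c z = -f c c • xx f z z := by
  simp [wd, mul_sub, sub_mul, xx_mul, hz, hc, hf.comm hc]

theorem exists_aniso' (h2 : (2 : F) ≠ 0) (l : List W) (S : Submodule F W)
    (hn : l.length + finrank F S < finrank F W)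
    (hS : ∀ u ∈ span F {x | x ∈ l}, (∀ x ∈ l, f x u = 0) → u ∈ S) :
    ∃ d, (∀ x ∈ l, f x d = 0) ∧ f d d ≠ 0 := by
  by_contra! hc
  obtain ⟨u, hu, hu'⟩ := Hm.exists_orth_notMem (B := f) l S hn
  obtain ⟨w, h3, h4⟩ := hf.exists_sep (mt (hS u · hu) hu')
  have h5 : ∀ x ∈ l, f x w = 0 := fun x hx => hf.comm (h3 x (subset_span hx))
  have := hc (u + w) fun x hx => by simp [hu x hx, h5 x hx]
  simp only [map_add, LinearMap.add_apply, hc u hu, hc w h5, hf.symm u w, h4] at this
  exact h2 (by linear_combination this)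

theorem exists_move (hS : SpanOpp f) {G : Subgroup (W ≃ₗ[F] W)} (hG : HasE f G) {x y : W}
    (hx0 : x ≠ 0) (hx : f x x = 0) (hy0 : y ≠ 0) (hy : f y y = 0) :
    ∃ a ∈ G, a ∈ isomGroup f ∧ ∃ s : F, s ≠ 0 ∧ a x = s • y := by
  obtain ⟨z, hz, h1, h2⟩ : ∃ z, f z z = 0 ∧ f z x ≠ 0 ∧ f z y ≠ 0 := by
    by_contra! hc
    have := hS x hx0 hx (ker (f y)) fun z h1 h2 => hf.comm (hc z h1 h2)
    exact hy0 (hf.sep y fun v => (this ▸ mem_top : v ∈ ker (f y)))
  obtain ⟨a, ha, e⟩ := hf.exists_move (y' := (f z x / f z y) • y) hz h1 (by simp [h2])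
    (by simp [hx, hy])
  exact ⟨a, hG z hz ha, ha.1, _, div_ne_zero h1 h2, e⟩

end Hm

theorem span_list_two (a b : W) : span F {x | x ∈ [a, b]} = span F {a, b} := by
  congr 1; ext; simp

theorem mem_span_list_three {a b c u : W} (h : u ∈ span F {x | x ∈ [a, b, c]}) :
    ∃ r s t : F, u = r • a + s • b + t • c := by
  rw [show {x | x ∈ [a, b, c]} = {a, b, c} by ext; simp] at h
  obtain ⟨r, s, t, e⟩ := mem_span_triple.1 h
  exact ⟨r, s, t, e.symm⟩

namespace OS

variable (h : OS f) {c p p' z δ u : W}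
include h

theorem symm (u v : W) : f u v = f v u := h.hm.symm u v

theorem nontrivial : Nontrivial W := nontrivial_of_finrank_pos (R := F) (by have := h.three; omega)

theorem spanOpp : SpanOpp f := h.hm.spanOpp_of_three h.two h.three

theorem four : (∃ a : F, a ≠ 0 ∧ a ^ 2 ≠ 1) ∨ 4 ≤ finrank F W := h.big.imp_right (by omega)

theorem exists_iso [Finite F] : ∃ p, p ≠ 0 ∧ f p p = 0 :=
  let ⟨p, _, h⟩ := exists_iso_mem f (S := ⊤) (by simpa using h.three); ⟨p, h⟩

theorem exists_perp (z : W) : ∃ c, f z c = 0 ∧ f c c ≠ 0 :=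
  let ⟨c, h1, h2⟩ := h.hm.exists_aniso h.two [z] (by have := h.three; simp; omega)
  ⟨c, h1 z (by simp), h2⟩

theorem exists_perp_hyp (hp : f p p = 0) (hpp : f p p' = 1) :
    ∃ c, f p c = 0 ∧ f p' c = 0 ∧ f c c ≠ 0 := by
  obtain ⟨c, h1, h2⟩ := h.exists_perp p
  exact ⟨c - f p' c • p, by simp [h1, hp], by simp [h.symm p' p, hpp],
    by simpa [h1, hp, h.symm c p] using h2⟩

theorem exists_perp_two (hk : 4 ≤ finrank F W) (hc : f z c = 0) (hc' : f c c ≠ 0) :
    ∃ d, f z d = 0 ∧ f c d = 0 ∧ f d d ≠ 0 := by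
  have := finrank_span_singleton_le (F := F) z
  obtain ⟨d, h1, h2⟩ := exists_aniso' h.hm h.two [z, c] (span F {z}) (by simp; omega)
    fun u hu hu' => by
      obtain ⟨a, b, rfl⟩ := mem_span_pair.1 (span_list_two (F := F) z c ▸ hu)
      have := hu' c (by simp)
      simp [h.symm c z, hc, hc'] at this
      simp [this, mem_span_singleton]
  exact ⟨d, h1 z (by simp), h1 c (by simp), h2⟩

theorem wd_ne_zero (hz : z ≠ 0) (hc : f z c = 0) (hc' : f c c ≠ 0) : wd f c z ≠ 0 := fun h0 => by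
  simpa [wd_apply, hc, hc', hz] using LinearMap.congr_fun h0 c

/-- Polarisation along the tangent hyperplane of the quadric. -/
theorem sym_mem {N : Type*} [AddCommGroup N] [Module F N] {Φ : W →ₗ[F] W →ₗ[F] N}
    {S : Submodule F N} (H : ∀ z, f z z = 0 → Φ z z ∈ S) (hp : f p p = 0) (hδ : f p δ = 0) :
    Φ p δ + Φ δ p ∈ S := by
  by_cases hp0 : p = 0
  · simp [hp0]
  obtain ⟨p', hp', hpp⟩ := h.hm.exists_partner hp0 hp
  have h2 := h.two
  suffices K : ∀ δ, f p δ = 0 → f p' δ = 0 → Φ p δ + Φ δ p ∈ S by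
    convert add_mem (K (δ - f p' δ • p) (by simp [hp, hδ]) (by simp [h.symm p' p, hpp]))
      (S.smul_mem (2 * f p' δ) (H p hp)) using 1
    simp only [map_sub, map_smul, LinearMap.sub_apply, LinearMap.smul_apply]
    module
  intro δ h3 h4
  by_cases h5 : f δ δ = 0
  · convert sub_mem (sub_mem (H (p + δ) (by simp [hp, h3, h5, h.symm δ p])) (H p hp)) (H δ h5)
      using 1
    simp only [map_add, LinearMap.add_apply]
    abel
  have O : ∀ δ, f p δ = 0 → f p' δ = 0 →
      (2 : F) • (Φ p' δ + Φ δ p') - f δ δ • (Φ p δ + Φ δ p) ∈ S := fun δ h3 h4 => by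
    have key : ∀ t : F, t * t = 1 → f (p' + t • δ - (f δ δ / 2) • p) (p' + t • δ - (f δ δ / 2) • p)
        = 0 := fun t ht => by
      simp only [map_add, map_sub, map_smul, LinearMap.add_apply, LinearMap.sub_apply,
        LinearMap.smul_apply, hp, hp', hpp, h.symm p' p, h.symm δ p, h.symm δ p', h3, h4,
        smul_eq_mul]
      field_simp
      linear_combination 4 * f δ δ * ht
    convert sub_mem (H _ (key 1 (by simp))) (H _ (key (-1) (by simp))) using 1
    simp only [map_add, map_sub, map_smul, LinearMap.add_apply, LinearMap.sub_apply,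
      LinearMap.smul_apply]
    match_scalars <;> field_simp <;> ring
  rcases h.four with ⟨a, a0, a1⟩ | hk
  · rw [← S.smul_mem_iff (mul_ne_zero (mul_ne_zero a0 (sub_ne_zero.2 a1.symm)) h5)]
    convert sub_mem (O (a • δ) (by simp [h3]) (by simp [h4])) (S.smul_mem a (O δ h3 h4)) using 1
    simp only [map_smul, LinearMap.smul_apply, smul_eq_mul]
    module
  obtain ⟨η, b1, b2⟩ := exists_aniso' h.hm h2 [p, p', δ] ⊥ (by simp; omega) fun u hu hu' => by
    obtain ⟨r, s, t, rfl⟩ := mem_span_list_three hu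
    have c1 := hu' p (by simp)
    have c2 := hu' p' (by simp)
    have c3 := hu' δ (by simp)
    simp [hp, hp', hpp, h.symm p' p, h.symm δ p, h.symm δ p', h3, h4, h5] at c1 c2 c3
    simp [c1, c2, c3]
  have b3 := b1 p (by simp)
  have b4 := b1 p' (by simp)
  have b5 := b1 δ (by simp)
  rw [← S.smul_mem_iff (mul_ne_zero h2 b2)]
  convert sub_mem (S.smul_mem 2 (O δ h3 h4)) (add_mem (O (δ + η) (by simp [h3, b3]) (by simp [h4, b4]))
    (O (δ - η) (by simp [h3, b3]) (by simp [h4, b4]))) using 1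
  simp only [map_add, map_sub, LinearMap.add_apply, LinearMap.sub_apply, b5, h.symm η δ]
  module

/-- A subspace closed under the reflections fixing `z`. -/
theorem spread {K : Submodule F W} (hz0 : z ≠ 0) (hz : f z z = 0) (hc : f z c = 0)
    (hc' : f c c ≠ 0) (h2 : c ∈ K)
    (H : ∀ d, f z d = 0 → f d d ≠ 0 → f c d ≠ 0 → d ∈ K) (hu : f z u = 0) : u ∈ K := by
  suffices L : ∀ u, f z u = 0 → f c u = 0 → u ∈ K by
    simpa using add_mem (L (u - (f c u / f c c) • c) (by simp [hu, hc]) (by simp [hc']))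
      (K.smul_mem (f c u / f c c) h2)
  intro u hu hu'
  have L : ∀ u, f z u = 0 → f c u = 0 → f c c + f u u ≠ 0 → u ∈ K := fun u hu hu' h3 => by
    simpa using sub_mem (H (c + u) (by simp [hc, hu]) (by simpa [hu', h.symm u c] using h3)
      (by simpa [hu'] using hc')) h2
  by_cases h3 : f c c + f u u = 0
  swap
  · exact L u hu hu' h3
  have h4 : f u u ≠ 0 := fun h0 => hc' (by simpa [h0] using h3)
  rcases h.big with ⟨a, a0, a1⟩ | hk | ⟨-, hi⟩
  · rw [← K.smul_mem_iff a0]
    refine L _ (by simp [hu]) (by simp [hu']) fun h0 => mul_ne_zero (sub_ne_zero.2 a1) h4 ?_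
    simp only [map_smul, LinearMap.smul_apply, smul_eq_mul] at h0
    linear_combination h0 - h3
  · have := finrank_span_singleton_le (F := F) z
    obtain ⟨v, b1, b2⟩ := exists_aniso' h.hm h.two [z, c, u] (span F {z}) (by simp; omega)
      fun v hv hv' => by
        obtain ⟨r, s, t, rfl⟩ := mem_span_list_three hv
        have c2 := hv' c (by simp)
        have c3 := hv' u (by simp)
        simp [h.symm c z, h.symm u z, h.symm u c, hc, hu, hu', hc', h4] at c2 c3
        simp [c2, c3, mem_span_singleton]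
    have b3 := b1 z (by simp)
    have b4 := b1 c (by simp)
    have b5 := b1 u (by simp)
    rw [← K.smul_mem_iff h.two]
    convert add_mem (L (u + v) (by simp [hu, b3]) (by simp [hu', b4]) fun h0 => b2 ?_)
      (L (u - v) (by simp [hu, b3]) (by simp [hu', b4]) fun h0 => b2 ?_) using 1
    · module
    all_goals
      simp only [map_add, map_sub, LinearMap.add_apply, LinearMap.sub_apply, b5, h.symm v u] at h0
      linear_combination h0 - h3
  · obtain ⟨a, ha⟩ := hi z (c + u) hz0 hz (by simpa [hu', h.symm u c] using h3) (by simp [hc, hu])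
    exact (hc' (by simpa [hu', h.symm c z, hc] using congrArg (f c) ha)).elim

theorem mem_of_aniso {K : Submodule F W} (hz0 : z ≠ 0) (hz : f z z = 0)
    (H : ∀ d, f z d = 0 → f d d ≠ 0 → d ∈ K) (hu : f z u = 0) : u ∈ K :=
  let ⟨c, h2, h3⟩ := h.exists_perp z
  h.spread hz0 hz h2 h3 (H c h2 h3) (fun d a b _ => H d a b) hu

theorem scalar_of_iso [Finite F] {b : End F W} (H : ∀ p, p ≠ 0 → f p p = 0 → ∃ c : F, b p = c • p) :
    ∃ c : F, b = c • 1 := by
  obtain ⟨p, hp0, hp⟩ := h.exists_iso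
  obtain ⟨c, hc⟩ := H p hp0 hp
  refine ⟨c, LinearMap.ext fun v => (h.spanOpp p hp0 hp (LinearMap.eqLocus b (c • 1))
    fun y h1 h2 => ?_).ge (mem_top (x := v))⟩
  obtain ⟨d, hd⟩ := H y (by rintro rfl; simp at h2) h1
  obtain ⟨δ, a1, a2, a3⟩ := h.exists_perp_hyp (p' := (f y p)⁻¹ • y) hp (by simp [h.symm p y, h2])
  replace a2 : f y δ = 0 := by simpa [h2] using a2
  have h3 := h.two
  have key : ∀ t : F, t * t = 1 → ∃ e : F, b (y + t • δ - (f δ δ / (2 * f y p)) • p) =
      e • (y + t • δ - (f δ δ / (2 * f y p)) • p) := fun t ht => H _ (fun h0 => by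
        simpa [h.symm p y, h2, a1, hp] using congrArg (f p) h0) (by
      simp only [map_add, map_sub, map_smul, LinearMap.add_apply, LinearMap.sub_apply,
        LinearMap.smul_apply, hp, h1, h.symm p y, h.symm δ p, h.symm δ y, a1, a2, smul_eq_mul]
      field_simp
      linear_combination 4 * f y p ^ 2 * f δ δ * ht)
  obtain ⟨e, he⟩ := key 1 (by simp)
  obtain ⟨e', he'⟩ := key (-1) (by simp)
  have h4 := congrArg (f p) (congrArg₂ (· + ·) he he')
  have h5 := congrArg (f y) (congrArg₂ (· + ·) he he')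
  simp only [map_add, map_sub, map_smul, hc, hd, hp, h1, a1, a2, smul_eq_mul, h.symm p y] at h4 h5
  have h6 : d = c := by
    refine mul_left_cancel₀ (mul_ne_zero a3 h3) ?_
    field_simp at h5
    refine mul_left_cancel₀ h2 ?_
    linear_combination f δ δ * h4 + f y p * h5
  show b y = c • y
  rw [hd, h6]

theorem eq_top_of_xx [Finite F] {S : Submodule F (End F W)}
    (H : ∀ p p', f p p = 0 → f p' p' = 0 → f p p' ≠ 0 → xx f p p' ∈ S) : S = ⊤ :=
  let ⟨_, h1, h2⟩ := h.exists_iso; h.hm.eq_top_of_xx h.spanOpp h1 h2 H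

end OS

end Cfsg.Lib.Class.WrO
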