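import Cfsg.Agent.Class.WrO.OS

/-!
Orthogonal factors: invariant groups of endomorphisms contain pure terms.
-/

set_option autoImplicit false
set_option linter.unusedSectionVars false

namespace Cfsg.Lib.Class.WrO

open Module Submodule Tens Tn FE AO Form Wr
open LinearMap (range ker)

variable {F U W V : Type*} [Field F] [AddCommGroup U] [Module F U] [AddCommGroup W] [Module F W]
  [AddCommGroup V] [Module F V] [FiniteDimensional F U] [FiniteDimensional F W]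
  {f : W →ₗ[F] W →ₗ[F] F} {T : U →ₗ[F] W →ₗ[F] V} {c p z u δ : W} {x m : End F V}

/-- The skew terms tangent to the quadric. -/
def NS (f : W →ₗ[F] W →ₗ[F] F) : Set (End F W) :=
  {ρ | ∃ p δ, f p p = 0 ∧ f p δ = 0 ∧ ρ = wd f δ p}

section One

variable (hT : IsTens T)

/-- The matrix coefficients as a bilinear map. -/
noncomputable def cpL (f : W →ₗ[F] W →ₗ[F] F) (x : End F V) : W →ₗ[F] W →ₗ[F] End F V :=
  LinearMap.mk₂ F (fun u v => cp hT (f u) v x)
    (fun _ _ _ => hT.ext fun _ _ => by simp [cp_apply, IsTens.cR, hT.flip.cL_add])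
    (fun _ _ _ => hT.ext fun _ _ => by simp [cp_apply, IsTens.cR, hT.flip.cL_smul])
    (fun _ _ _ => hT.ext fun _ _ => by simp [cp_apply])
    (fun _ _ _ => hT.ext fun _ _ => by simp [cp_apply])

theorem inC_cpL (u v : W) : InC T (cpL hT f x u v) := inC_cp _ _ _ _

theorem kap_xx_mul (a b w d : W) (x : End F V) :
    kap hT (xx f a b) * x * kap hT (xx f w d) = cpL hT f x b w * kap hT (xx f a d) :=
  kap_mul_mul _ _ _ _ _ _

/-- The even part of the conjugation by an Eichler transformation. -/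
noncomputable def YY (f : W →ₗ[F] W →ₗ[F] F) (z u : W) (x : End F V) : End F V :=
  -f u u • (kap hT (xx f z z) * x + x * kap hT (xx f z z)) +
    (f u u ^ 2 / 2) • (kap hT (xx f z z) * x * kap hT (xx f z z)) -
    (2 : F) • (kap hT (wd f u z) * x * kap hT (wd f u z))

theorem coe_eich (hf : Hm f 1) (hz : f z z = 0) (hu : f z u = 0) (a : F) :
    (hf.eich hz hu a : End F W) = 1 + wd f u z - a • xx f z z := by
  ext y
  simp only [LinearEquiv.coe_coe, hf.eich_apply, LinearMap.sub_apply, LinearMap.add_apply,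
    End.one_apply, wd_apply, LinearMap.smul_apply, xx_apply]
  module

theorem coe_eich_inv (hf : Hm f 1) (h2 : (2 : F) ≠ 0) (hz : f z z = 0) (hu : f z u = 0) :
    (((hf.eich hz hu (f u u / 2))⁻¹ : W ≃ₗ[F] W) : End F W) =
      1 - wd f u z - (f u u / 2) • xx f z z := by
  ext y
  refine (hf.eich hz hu (f u u / 2)).injective ?_
  simp only [LinearEquiv.coe_coe, apply_inv_self]
  simp only [hf.eich_apply, LinearMap.sub_apply, End.one_apply, wd_apply, LinearMap.smul_apply,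
    xx_apply, map_sub, map_smul, hz, hu, hf.comm hu, smul_eq_mul]
  match_scalars <;> field_simp <;> ring

theorem eich_mem (hf : Hm f 1) (h2 : (2 : F) ≠ 0) (hz : f z z = 0) (hu : f z u = 0) :
    hf.eich hz hu (f u u / 2) ∈ Rad f (span F {z}) :=
  hf.eich_mem_Rad hz hu (by simp only [RingHom.id_apply]; field_simp; ring)

theorem cj_rf (hf : Hm f 1) (hc : f c c ≠ 0) {r : W ≃ₗ[F] W} (hr : IsRf f c r) (x : End F V) :
    cj (ug hT r) x = (1 - (2 / f c c) • kap hT (xx f c c)) * x *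
      (1 - (2 / f c c) • kap hT (xx f c c)) := by
  rw [cj_eq_mul, ug_inv, hr.inv hf hc, coe_ug, hr.coe, map_sub, map_one, map_smul]

variable {G : Subgroup (W ≃ₗ[F] W)} {M : AddSubgroup (End F V)} (h : OS f)
include h

theorem YY_mem (hG : HasE f G) (hM : ∀ g ∈ G, ∀ x ∈ M, cj (ug hT g) x ∈ M) (hz : f z z = 0)
    (hu : f z u = 0) (hx : x ∈ M) : YY hT f z u x ∈ M := by
  have h1 := hG z hz (eich_mem h.hm h.two hz hu)
  have h2 := h.two
  convert sub_mem (add_mem (hM _ h1 x hx) (hM _ (inv_mem h1) x hx)) (add_mem hx hx) using 1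
  simp only [cj_eq_mul, ug_inv, inv_inv, coe_ug, coe_eich_inv h.hm h2, coe_eich, map_sub, map_add,
    map_one, map_smul, YY, mul_add, add_mul, mul_sub, sub_mul, mul_one, one_mul, smul_mul_assoc,
    mul_smul_comm]
  match_scalars <;> field_simp <;> ring

theorem exists_long (hG : HasE f G) (hM : ∀ g ∈ G, ∀ x ∈ M, cj (ug hT g) x ∈ M) (hz : f z z = 0)
    (hx : x ∈ M) : ∃ s : F, s ≠ 0 ∧ s • cpL hT f x z z * kap hT (xx f z z) ∈ M := by
  have h2 := h.two
  have Y := fun u hu => YY_mem hT h hG hM hz (u := u) hu hx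
  obtain ⟨δ, a1, a2⟩ := h.exists_perp z
  simp only [smul_mul_assoc, ← kap_xx_mul]
  rcases h.four with ⟨a, a0, a3⟩ | hk
  · refine ⟨2 * (a ^ 2 - 1) ^ 2 / a ^ 2 * f δ δ ^ 2, by simp [h2, a0, a2, sub_eq_zero, a3], ?_⟩
    convert add_mem (sub_mem (sub_mem (sub_mem (Y ((a + a⁻¹) • δ) (by simp [a1]))
      (Y (a • δ) (by simp [a1]))) (Y (a⁻¹ • δ) (by simp [a1]))) (Y ((2 : F) • δ) (by simp [a1])))
      (add_mem (Y δ a1) (Y δ a1)) using 1
    simp only [YY, wd_smul_left, map_smul, LinearMap.smul_apply, smul_eq_mul, smul_mul_assoc,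
      mul_smul_comm]
    match_scalars <;> field_simp <;> ring
  obtain ⟨η, b1, b2, b3⟩ := h.exists_perp_two hk a1 a2
  refine ⟨2 * f δ δ * f η η, by simp [h2, a2, b3], ?_⟩
  convert sub_mem (sub_mem (add_mem (Y (δ + η) (by simp [a1, b1]))
    (Y (δ + (-1 : F) • η) (by simp [a1, b1]))) (add_mem (Y δ a1) (Y δ a1)))
    (add_mem (Y η b1) (Y η b1)) using 1
  simp only [YY, wd_smul_left, wd_add_left, map_add, map_smul, LinearMap.smul_apply, smul_eq_mul,
    LinearMap.add_apply, smul_mul_assoc, mul_smul_comm, b2, h.symm η δ, mul_add, add_mul]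
  match_scalars <;> field_simp <;> ring

theorem short_mem (hG : HasE f G) (hR : HasR f G) (hM : ∀ g ∈ G, ∀ x ∈ M, cj (ug hT g) x ∈ M)
    (hz0 : z ≠ 0) (hz : f z z = 0) (hc : f z c = 0) (hc' : f c c ≠ 0) (hx : x ∈ M)
    (H : ∀ z, f z z = 0 → cpL hT f x z z = 0) (s : F) :
    s • (cpL hT f x z c * kap hT (wd f c z)) ∈ M := by
  have h2 := h.two
  have h3 : cpL hT f x c z = -cpL hT f x z c := eq_neg_of_add_eq_zero_right
    (h.sym_mem (Φ := cpL hT f x) (S := ⊥) H hz hc)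
  obtain ⟨r, hr⟩ := exists_rf h.hm hc'
  suffices K : ∀ s : F, s ^ 2 • (2 : F) • (cpL hT f x z c * kap hT (wd f c z)) ∈ M by
    simpa [smul_smul, h2] using smul_of_sq h2 (A := (· ∈ M)) (fun _ _ => sub_mem) K (s / 2)
  intro s
  have h4 := YY_mem hT h hG hM hz (u := s • c) (by simp [hc]) hx
  have h5 := sub_mem (hM r (hR z c r hz0 hz hc hc' hr) _ h4) h4
  have h6 : YY hT f z (s • c) x = s ^ 2 • (-f c c • (kap hT (xx f z z) * x + x * kap hT (xx f z z))
      - (2 : F) • (cpL hT f x z c * kap hT (wd f c z)) +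
      (2 : F) • (cpL hT f x c c * kap hT (xx f z z))) := by
    simp only [YY, wd, xx_smul_left, xx_smul_right, map_sub, map_smul, LinearMap.smul_apply,
      smul_eq_mul, RingHom.id_apply, mul_sub, sub_mul, smul_mul_assoc, mul_smul_comm,
      kap_xx_mul, H z hz, h3, neg_mul, zero_mul]
    module
  have e : ∀ a b a' b', kap hT (xx f a b) * kap hT (xx f a' b') = f b a' • kap hT (xx f a b') :=
    fun a b a' b' => by rw [← map_mul, xx_mul, map_smul]
  have h7 : kap hT (xx f c c) * YY hT f z (s • c) x =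
      -(s ^ 2 * f c c) • (cpL hT f x z c * kap hT (xx f c z)) := by
    simp only [h6, wd, map_sub, mul_add, mul_sub, mul_smul_comm, ← mul_assoc, kap_xx_mul _ c c z z,
      (inC_cpL hT _ _).comm_kap, h3]
    simp only [mul_assoc, e, h.symm c z, hc, zero_smul, zero_mul, mul_zero, mul_smul_comm, neg_mul]
    module
  have h8 : YY hT f z (s • c) x * kap hT (xx f c c) =
      (s ^ 2 * f c c) • (cpL hT f x z c * kap hT (xx f z c)) := by
    simp only [h6, wd, map_sub, add_mul, sub_mul, mul_sub, smul_mul_assoc, kap_xx_mul _ z z c c]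
    simp only [mul_assoc, e, hc, zero_smul, mul_zero, mul_smul_comm]
    module
  convert h5 using 1
  simp only [cj_rf hT h.hm hc' hr, mul_sub, sub_mul, mul_one, one_mul, smul_mul_assoc,
    mul_smul_comm, h7, h8, mul_assoc, e, hc, zero_smul, mul_zero, wd, map_sub]
  match_scalars <;> field_simp
  ring

variable [Finite F]

/-- An invariant additive group not centralising the factor contains a pure term. -/
theorem step_add (hG : HasE f G) (hR : HasR f G) (hM : ∀ g ∈ G, ∀ x ∈ M, cj (ug hT g) x ∈ M)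
    (hx : x ∈ M) (hx' : ¬ InC T x) : ∃ m z, m ≠ 0 ∧ InC T m ∧ z ≠ 0 ∧ f z z = 0 ∧
      (m * kap hT (xx f z z) ∈ M ∨ ∃ c, f z c = 0 ∧ f c c ≠ 0 ∧
        ∀ s : F, s • (m * kap hT (wd f c z)) ∈ M) := by
  have := h.nontrivial
  by_contra hc
  have h1 : ∀ z, f z z = 0 → cpL hT f x z z = 0 := fun z hz => by_contra fun h0 => by
    obtain ⟨s, a1, a2⟩ := exists_long hT h hG hM hz hx
    exact hc ⟨_, z, smul_ne_zero a1 h0, (inC_cpL hT _ _).smul s, by rintro rfl; simp at h0, hz,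
      Or.inl a2⟩
  refine hx' (inC_of_cp hT (D := fun z φ => z ≠ 0 ∧ f z z = 0 ∧ ∃ c, φ = f c ∧ f z c = 0 ∧
    f c c ≠ 0) (fun b hb => h.scalar_of_iso fun z a1 a2 => h.hm.mem_span_of_orth a1 fun u hu =>
      h.hm.comm (h.mem_of_aniso (K := ker (f (b z))) a1 a2
        (fun d a3 a4 => h.hm.comm (hb z _ ⟨a1, a2, d, rfl, a3, a4⟩)) hu)) ?_)
  rintro z _ ⟨a1, a2, c, rfl, a3, a4⟩
  have h2 := h.sym_mem (Φ := cpL hT f x) (S := ⊥) h1 a2 a3
  have h3 : cpL hT f x z c = 0 := by_contra fun h0 => hc ⟨_, z, h0, inC_cpL hT _ _, a1, a2,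
    Or.inr ⟨c, a3, a4, short_mem hT h hG hR hM a1 a2 a3 a4 hx h1⟩⟩
  rwa [h3, zero_add] at h2

theorem n1_of_one {S : Submodule F (End F W)} (hG : HasE f G) (hS : ∀ g ∈ G, ∀ x ∈ S, cj g x ∈ S)
    (hz0 : z ≠ 0) (hz : f z z = 0) (H : xx f z z ∈ S) : ∀ ρ ∈ N1 f, ρ ∈ S := by
  rintro _ ⟨y, hy, rfl⟩
  by_cases h0 : y = 0
  · simp [h0]
  obtain ⟨g, hg, hg', s, hs, e⟩ := exists_move h.hm h.spanOpp hG hz0 hz h0 hy
  simpa [cj_xx _ _ hg', e, xx_smul_left, xx_smul_right, S.smul_mem_iff hs] using hS g hg _ H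

theorem ns_of_one {S : Submodule F (End F W)} (hG : HasE f G) (hR : HasR f G)
    (hS : ∀ g ∈ G, ∀ x ∈ S, cj g x ∈ S) (hz0 : z ≠ 0) (hz : f z z = 0) (hc : f z c = 0)
    (hc' : f c c ≠ 0) (H : wd f c z ∈ S) : ∀ ρ ∈ NS f, ρ ∈ S := by
  have h1 : ∀ u, f z u = 0 → wd f u z ∈ S := fun u hu => h.spread (K :=
    { carrier := {u | wd f u z ∈ S}
      zero_mem' := by simp
      add_mem' := fun a b => by simpa [wd_add_left] using S.add_mem a b
      smul_mem' := fun s _ a => by simpa [wd_smul_left] using S.smul_mem s a }) hz0 hz hc hc' H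
    (fun d a1 a2 a3 => by
      obtain ⟨r, hr⟩ := exists_rf h.hm a2
      have := sub_mem (hS r (hR z d r hz0 hz a1 a2 hr) _ H) H
      rw [cj_wd _ _ (hr.isom h.hm a2), hr, hr, h.symm d z, a1, sub_eq_add_neg c, ← neg_smul,
        wd_add_left, wd_smul_left] at this
      simpa [S.smul_mem_iff (show 2 / f d d * f d c ≠ 0 by simp [h.two, a2, h.symm d c, a3])]
        using this) hu
  rintro _ ⟨y, δ, hy, hδ, rfl⟩
  by_cases h0 : y = 0
  · simp [h0]
  obtain ⟨g, hg, hg', s, hs, e⟩ := exists_move h.hm h.spanOpp hG hz0 hz h0 hy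
  obtain ⟨δ, rfl⟩ := g.surjective δ
  simpa [cj_wd _ _ hg', e, wd_smul_right, S.smul_mem_iff hs] using
    hS g hg _ (h1 δ (by rw [← iso hg', e]; simp [hδ]))

end One

variable {τ : Type*} {T : τ → U →ₗ[F] W →ₗ[F] V} (t : TP T) [Nontrivial U] [Nontrivial W]
  [Finite F] {G : Subgroup (W ≃ₗ[F] W)}

theorem OS.step (h : OS f) (hG : HasE f G) (hR : HasR f G) : t.Step G (N1 f) (NS f) where
  step j M hM x hx hx' := by
    obtain ⟨m, z, a1, a2, a3, a4, H⟩ := step_add (t.tens j) h (M := M.toAddSubgroup) hG hR (hM j)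
      hx hx'
    have hS : ∀ g ∈ G, ∀ x ∈ M.comap (LinearMap.mulLeft F m ∘ₗ (kap (t.tens j)).toLinearMap),
        cj g x ∈ M.comap (LinearMap.mulLeft F m ∘ₗ (kap (t.tens j)).toLinearMap) :=
      fun g hg x hx => by simpa [a2.cj_ug, cj_ug_kap] using hM j g hg _ hx
    exact ⟨m, a1, H.imp (fun H => ⟨a2, n1_of_one h hG hS a3 a4 H⟩) fun ⟨c, b1, b2, H⟩ =>
      ⟨a2, ns_of_one h hG hR hS a3 a4 b1 b2 (by simpa using H 1)⟩⟩
  n1 S H := h.eq_top_of_xx fun p p' h1 h2 h3 => by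
    simpa [xx_mul, S.smul_mem_iff h3] using H _ ⟨p, h1, rfl⟩ _ ⟨p', h2, rfl⟩
  n2 S H := by
    rintro _ ⟨p, hp, rfl⟩
    obtain ⟨c, h1, h2⟩ := h.exists_perp p
    simpa [wd_mul_self h.hm hp h1, S.smul_mem_iff h2] using
      H _ ⟨p, c, hp, h1, rfl⟩ _ ⟨p, c, hp, h1, rfl⟩
  ne := by
    obtain ⟨p, h0, hp⟩ := h.exists_iso
    obtain ⟨c, h1, h2⟩ := h.exists_perp p
    exact ⟨_, ⟨p, c, hp, h1, rfl⟩, h.wd_ne_zero h0 h1 h2⟩

section Pair

variable {t} {N₁ N₂ : Set (End F W)} {j : τ} [Fintype τ]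

theorem coef_mul' {M M' : Submodule F (End F V)} (hM : ∀ x ∈ M, ∀ y ∈ M, x * y ∈ M')
    {N N' : Set (End F W)}
    (hN : ∀ S : Submodule F (End F W), (∀ ρ ∈ N, ∀ ρ' ∈ N, ρ * ρ' ∈ S) → ∀ ρ ∈ N', ρ ∈ S) :
    ∀ m ∈ t.coef M j N, ∀ x ∈ t.coef M j N, m * x ∈ t.coef M' j N' := fun m hm x hx =>
  ⟨hm.1.mul hx.1, hN (M'.comap (LinearMap.mulLeft F (m * x) ∘ₗ (kap (t.tens j)).toLinearMap))
    fun ρ hρ ρ' hρ' => by
      simpa [mul_kap_mul _ hx.1, mul_assoc m x] using hM _ (hm.2 ρ hρ) _ (hx.2 ρ' hρ')⟩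

theorem exists_mul_ne (hs : t.Step G N₁ N₂) {M : Submodule F (End F V)} (h1 : t.Inv G (· ∈ M))
    (hx : x ∈ M) (h0 : x ≠ 0) : ∃ y ∈ M, ∃ z ∈ M, y * z ≠ 0 := by
  by_contra! hc
  have := hs.one_mem h1 (fun y hy z hz => hc y hy z hz ▸ zero_mem _) hx h0
  exact h0 (by simpa using hc _ hx _ this)

theorem one_mem_pair_aux (hs : t.Step G N₁ N₂) (s : Finset τ) :
    ∀ M M' : Submodule F (End F V), t.Inv G (· ∈ M) → t.Inv G (· ∈ M') →
      (∀ x ∈ M, ∀ y ∈ M, x * y ∈ M') → (∀ x ∈ M', ∀ y ∈ M', x * y ∈ M) →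
      (∀ x ∈ M, ∀ i, i ∉ s → InC (T i) x) → (∀ x ∈ M', ∀ i, i ∉ s → InC (T i) x) →
      ∀ x ∈ M, x ≠ 0 → 1 ∈ M := by
  classical
  induction s using Finset.induction_on with
  | empty =>
    intro M _ _ _ _ _ h3 _ x hx h0
    obtain ⟨c, rfl⟩ := t.cent x fun i => h3 x hx i (by simp)
    exact (M.smul_mem_iff (left_ne_zero_of_smul h0)).1 hx
  | insert j s hj ih =>
    have u : ∀ S : Submodule F (End F W), (∀ ρ ∈ Set.univ, ∀ ρ' ∈ Set.univ, ρ * ρ' ∈ S) →
        ∀ ρ ∈ Set.univ, ρ ∈ S := fun S H ρ _ => by simpa using H ρ trivial 1 trivial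
    have v : ∀ M : Submodule F (End F V), (∀ x ∈ M, ∀ i, i ∉ insert j s → InC (T i) x) →
        ∀ x ∈ t.coef M j Set.univ, ∀ i, i ∉ s → InC (T i) x := fun M H x hx i hi => by
      by_cases hij : i = j
      · exact hij ▸ hx.1
      · exact H x (by simpa using hx.2 1 trivial) i (by simp [hi, hij])
    have k1 : ∀ M M' : Submodule F (End F V), t.Inv G (· ∈ M) → t.Inv G (· ∈ M') →
        (∀ x ∈ M, ∀ y ∈ M, x * y ∈ M') → (∀ x ∈ M', ∀ y ∈ M', x * y ∈ M) →
        (∀ x ∈ M, ∀ i, i ∉ insert j s → InC (T i) x) →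
        (∀ x ∈ M', ∀ i, i ∉ insert j s → InC (T i) x) →
        ∀ m ∈ t.coef M j N₁, m ≠ 0 → 1 ∈ M' := fun M M' a1 a2 a3 a4 a5 a6 m hm h0 => by
      obtain ⟨y, hy, z, hz, b⟩ := exists_mul_ne hs (a1.coef t j N₁) hm h0
      simpa using (ih _ _ (a2.coef t j _) (a1.coef t j _) (coef_mul' a4 u) (coef_mul' a3 u)
        (v _ a6) (v _ a5) _ (coef_mul' a3 (fun S hS ρ _ => hs.n1 S hS ▸ trivial) y hy z hz) b).2 1
        trivial
    have k2 : ∀ M M' : Submodule F (End F V), t.Inv G (· ∈ M) → t.Inv G (· ∈ M') →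
        (∀ x ∈ M, ∀ y ∈ M, x * y ∈ M') → (∀ x ∈ M', ∀ y ∈ M', x * y ∈ M) →
        (∀ x ∈ M, ∀ i, i ∉ insert j s → InC (T i) x) →
        (∀ x ∈ M', ∀ i, i ∉ insert j s → InC (T i) x) →
        ∀ x ∈ M, ¬ InC (T j) x → 1 ∈ M ∨ 1 ∈ M' := fun M M' a1 a2 a3 a4 a5 a6 x hx hx' => by
      obtain ⟨m, h0, hm | hm⟩ := hs.step j M a1 x hx hx'
      · exact Or.inr (k1 M M' a1 a2 a3 a4 a5 a6 m hm h0)
      · obtain ⟨y, hy, z, hz, b⟩ := exists_mul_ne hs (a1.coef t j N₂) hm h0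
        exact Or.inl (k1 M' M a2 a1 a4 a3 a6 a5 _ (coef_mul' a3 hs.n2 y hy z hz) b)
    intro M M' a1 a2 a3 a4 a5 a6 x hx h0
    have w : ∀ {M : Submodule F (End F V)}, (∀ x ∈ M, ∀ i, i ∉ insert j s → InC (T i) x) →
        (∀ x ∈ M, InC (T j) x) → ∀ x ∈ M, ∀ i, i ∉ s → InC (T i) x := fun H H' x hx i hi => by
      by_cases hij : i = j
      · exact hij ▸ H' x hx
      · exact H x hx i (by simp [hi, hij])
    by_cases hc : (∀ y ∈ M, InC (T j) y) ∧ ∀ y ∈ M', InC (T j) y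
    · exact ih M M' a1 a2 a3 a4 (w a5 hc.1) (w a6 hc.2) x hx h0
    suffices 1 ∈ M ∨ 1 ∈ M' from this.elim id fun h => by simpa using a4 1 h 1 h
    simp only [not_and_or, not_forall] at hc
    rcases hc with ⟨y, hy, hy'⟩ | ⟨y, hy, hy'⟩
    · exact k2 M M' a1 a2 a3 a4 a5 a6 y hy hy'
    · exact (k2 M' M a2 a1 a4 a3 a6 a5 y hy hy').symm

/-- Two invariant subspaces each containing the square of the other. -/
theorem one_mem_pair (hs : t.Step G N₁ N₂) {M M' : Submodule F (End F V)} (h1 : t.Inv G (· ∈ M))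
    (h2 : t.Inv G (· ∈ M')) (h3 : ∀ x ∈ M, ∀ y ∈ M, x * y ∈ M')
    (h4 : ∀ x ∈ M', ∀ y ∈ M', x * y ∈ M) (hx : x ∈ M) (h0 : x ≠ 0) : 1 ∈ M :=
  one_mem_pair_aux hs Finset.univ M M' h1 h2 h3 h4 (by simp) (by simp) x hx h0

end Pair

variable {h : τ → U →ₗ[F] U →ₗ[F] F} {β : V →ₗ[F] V →ₗ[F] F}

theorem eq_zero_of_skew (hβ : Hm β 1) [FiniteDimensional F V] (h2 : (2 : F) ≠ 0) {s : F}
    (e : adj β (s • 1 : End F V) = -(s • 1)) : (s • 1 : End F V) = 0 := by
  rw [hβ.adj_smul, hβ.adj_one, eq_neg_iff_add_eq_zero, RingHom.id_apply, ← two_smul F] at e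
  exact (smul_eq_zero.1 e).resolve_left h2

theorem adj_of_mul {T : U →ₗ[F] W →ₗ[F] V} {h : U →ₗ[F] U →ₗ[F] F} (t : TF T h 1 f 1 β)
    (hm : InC T m) {ρ : End F W} (h0 : ρ ≠ 0) {s : F} (hρ : adj f ρ = s • ρ) (hs : s * s = 1)
    (e : adj β (m * kap t.hT ρ) = -(m * kap t.hT ρ)) : adj β m = -s • m := by
  have := t.hT.finiteDimensional
  rw [t.hm.adj_mul, t.adj_kap, hρ, (t.inC_adj hm).comm_kap, map_smul] at e
  refine eq_of_sub_eq_zero (((t.inC_adj hm).sub (hm.smul _)).eq_zero_of_mul t.hT h0 ?_)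
  simp only [mul_smul_comm, sub_mul, smul_mul_assoc] at e ⊢
  linear_combination (norm := match_scalars <;> first | ring1 | linear_combination -hs) s • e

theorem line_aux (tf : ∀ i, TF (T i) (h i) 1 f 1 β) (os : OS f) (hG : HasE f G) (hR : HasR f G)
    (hβ : Hm β 1) [FiniteDimensional F V] (s : Finset τ) : ∀ M : AddSubgroup (End F V),
      t.Inv G (· ∈ M) → (∀ x ∈ M, adj β x = -x) → (∀ x ∈ M, ∀ i, i ∉ s → InC (T i) x) →
      ∀ x ∈ M, x ≠ 0 → ∃ γ, γ ≠ 0 ∧ ∀ c : F, c • γ ∈ M := by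
  classical
  induction s using Finset.induction_on with
  | empty =>
    intro M _ h2 h3 x hx h0
    obtain ⟨c, rfl⟩ := t.cent x fun i => h3 x hx i (by simp)
    exact (h0 (eq_zero_of_skew hβ os.two (h2 _ hx))).elim
  | insert j s hj ih =>
    intro M h1 h2 h3 x hx h0
    by_cases hc : ∀ y ∈ M, InC (T j) y
    · exact ih M h1 h2 (fun y hy i hi => by
        by_cases hij : i = j
        · exact hij ▸ hc y hy
        · exact h3 y hy i (by simp [hi, hij])) x hx h0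
    push Not at hc
    obtain ⟨y, hy, hy'⟩ := hc
    obtain ⟨m, z, a1, a2, a3, a4, H | ⟨c, b1, b2, H⟩⟩ := step_add (t.tens j) os hG hR (h1 j) hy hy'
    swap
    · exact ⟨_, fun h0 => a1 (a2.eq_zero_of_mul _ (os.wd_ne_zero a3 b1 b2) h0), H⟩
    have a5 := os.hm.xx_ne_zero a3 a3
    obtain ⟨γ, b1, b2⟩ := ih
      { carrier := {m | InC (T j) m ∧ m * kap (t.tens j) (xx f z z) ∈ M}
        zero_mem' := ⟨InC.zero, by simp⟩
        add_mem' := fun a b => ⟨a.1.add b.1, by rw [add_mul]; exact add_mem a.2 b.2⟩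
        neg_mem' := fun a => ⟨a.1.neg, by rw [neg_mul]; exact neg_mem a.2⟩ }
      (fun i g hg x hx => by
        by_cases hij : i = j
        · subst hij; rwa [hx.1.cj_ug]
        · exact ⟨t.inC_cj hx.1 i g, by simpa only [map_mul, t.cj_kap hij] using h1 i g hg _ hx.2⟩)
      (fun x hx => by
        simpa using adj_of_mul (tf j) hx.1 a5 (s := 1) (os.hm.adj_xx z z) (by simp) (h2 _ hx.2))
      (fun x hx i hi => by
        by_cases hij : i = j
        · exact hij ▸ hx.1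
        · exact hx.1.of_mul_kap _ (t.tens i) (t.comm j i (Ne.symm hij)) a5
            (h3 _ hx.2 i (by simp [hi, hij]))) m ⟨a2, H⟩ a1
    exact ⟨γ * kap (t.tens j) (xx f z z), fun h0 => b1 (InC.eq_zero_of_mul _
      (by simpa using (b2 1).1) a5 h0), fun c => by simpa using (b2 c).2⟩

end Cfsg.Lib.Class.WrO
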